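import Mathlib

/-!
# The Artin–Zorn theorem: finite alternative division rings are fields
-/

set_option autoImplicit false

namespace Cfsg.Lib.Perm.PAZ

variable {R : Type*} [NonAssocRing R]

/-- the associator -/
def asc (a b c : R) : R := a * b * c - a * (b * c)

theorem asc_one_left (b c : R) : asc 1 b c = 0 := by simp [asc]
theorem asc_one_mid (a c : R) : asc a 1 c = 0 := by simp [asc]
theorem asc_one_right (a b : R) : asc a b 1 = 0 := by simp [asc]

theorem left_alt [Nontrivial R] (h : ∀ u : R, u ≠ 0 → ∃ u' : R, ∀ a, u' * (u * a) = a) (a y : R) :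
    a * a * y = a * (a * y) := by
  by_cases h0 : a = 0
  · simp [h0]
  by_cases h1 : 1 - a = 0
  · rw [sub_eq_zero] at h1
    simp [← h1]
  obtain ⟨a', ha⟩ := h a h0
  obtain ⟨b', hb⟩ := h _ h1
  have key : ∀ y, (a' + b') * (a * y - a * (a * y)) = y := fun y => by
    have e1 := ha ((1 - a) * y)
    have e2 := hb (a * y)
    simp only [sub_mul, one_mul, mul_sub] at e1 e2
    rw [add_mul, mul_sub, mul_sub, e1, e2, sub_add_cancel]
  obtain ⟨c, hc⟩ := h (a' + b') fun e => by simpa [e] using key 1
  have k2 : ∀ y, c * y = a * y - a * (a * y) := fun y => by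
    conv_lhs => rw [← key y]
    exact hc _
  have k3 := k2 1
  simp only [mul_one] at k3
  have k4 := k2 y
  rw [k3, sub_mul] at k4
  exact sub_right_injective k4

theorem right_alt [Nontrivial R] (h : ∀ u : R, u ≠ 0 → ∃ u' : R, ∀ a, a * u * u' = a) (a y : R) :
    y * a * a = y * (a * a) := by
  by_cases h0 : a = 0
  · simp [h0]
  by_cases h1 : 1 - a = 0
  · rw [sub_eq_zero] at h1
    simp [← h1]
  obtain ⟨a', ha⟩ := h a h0
  obtain ⟨b', hb⟩ := h _ h1
  have key : ∀ y, (y * a - y * a * a) * (a' + b') = y := fun y => by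
    have e1 := ha (y * (1 - a))
    have e2 := hb (y * a)
    simp only [sub_mul, mul_one, mul_sub] at e1 e2
    rw [mul_add, sub_mul, sub_mul, e1, e2, sub_add_cancel]
  obtain ⟨c, hc⟩ := h (a' + b') fun e => by simpa [e] using key 1
  have k2 : ∀ y, y * c = y * a - y * a * a := fun y => by
    conv_lhs => rw [← key y]
    exact hc _
  have k3 := k2 1
  simp only [one_mul] at k3
  have k4 := k2 y
  rw [k3, mul_sub] at k4
  exact (sub_right_injective k4).symm

section Alt

variable (hl : ∀ a y : R, a * a * y = a * (a * y)) (hr : ∀ a y : R, y * a * a = y * (a * a))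

include hl in
theorem swap12 (a b c : R) : asc a b c = -asc b a c := by
  have h1 := hl (a + b) c
  have h2 := hl a c
  have h3 := hl b c
  simp only [mul_add, add_mul] at h1
  unfold asc
  linear_combination (norm := abel) h1 - h2 - h3

include hr in
theorem swap23 (a b c : R) : asc a b c = -asc a c b := by
  have h1 := hr (b + c) a
  have h2 := hr b a
  have h3 := hr c a
  simp only [mul_add, add_mul] at h1
  unfold asc
  linear_combination (norm := abel) h1 - h2 - h3

include hl hr

theorem swap13 (a b c : R) : asc a b c = -asc c b a := by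
  rw [swap12 hl, swap23 hr, swap12 hl, neg_neg]

theorem moufang (x y a : R) : asc y (x * a) x = -(asc y x a * x) := by
  have h0 := swap12 hl x a x
  have h1 := swap23 hr y x (a * x)
  have h2 := swap12 hl (y * x) a x
  have h3 := swap12 hl y a (x * x)
  have h4 := swap12 hl y a x
  have h5 := congrArg (· * x) h4
  have h6 := hr x a
  have h7 := hr x y
  have h8 := hr x (y * a)
  have h9 := hr x (a * y)
  unfold asc at *
  rw [h6, sub_self, neg_zero, sub_eq_zero] at h0
  rw [h6] at h1
  rw [h7] at h2
  rw [h0]
  simp only [sub_mul, neg_mul] at h5 ⊢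
  linear_combination (norm := abel) h1 + h2 - h3 + h5 - h8 - h9

theorem moufang_lin (x y z a : R) :
    asc y (x * a) z + asc y (z * a) x = -(asc y x a * z) - asc y z a * x := by
  have h1 := moufang hl hr (x + z) y a
  have h2 := moufang hl hr x y a
  have h3 := moufang hl hr z y a
  unfold asc at *
  simp only [mul_add, add_mul, sub_mul] at h1 h2 h3 ⊢
  linear_combination (norm := abel) h1 - h2 - h3

omit hl hr in
/-- right normed words in two generators -/
def word (g : Bool → R) (l : List Bool) : R := l.foldr (fun a r => g a * r) 1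

omit hl hr in
theorem word_append (g : Bool → R) (n : ℕ) (h : ∀ l₁ l₂ l₃ : List Bool,
    l₁.length + l₂.length + l₃.length ≤ n → asc (word g l₁) (word g l₂) (word g l₃) = 0)
    (l₁ l₂ : List Bool) (hn : l₁.length + l₂.length ≤ n) :
    word g l₁ * word g l₂ = word g (l₁ ++ l₂) := by
  induction l₁ with
  | nil => exact one_mul _
  | cons a l ih =>
    have h1 := h [a] l l₂ (by simp at hn ⊢; omega)
    change g a * 1 * word g l * word g l₂ - g a * 1 * (word g l * word g l₂) = 0 at h1
    rw [mul_one, sub_eq_zero, ih (by simp at hn; omega)] at h1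
    exact h1

/-- **Artin's theorem** on words -/
theorem asc_word (g : Bool → R) (n : ℕ) : ∀ l₁ l₂ l₃ : List Bool,
    l₁.length + l₂.length + l₃.length ≤ n → asc (word g l₁) (word g l₂) (word g l₃) = 0 := by
  induction n with
  | zero =>
    intro l₁ l₂ l₃ h
    obtain rfl : l₁ = [] := List.length_eq_zero_iff.1 (by omega)
    exact asc_one_left _ _
  | succ n ih =>
    have key : ∀ (a : Bool) (p q r : List Bool), 1 ≤ p.length →
        p.length + (q.length + 1) + (r.length + 1) ≤ n + 1 →
        asc (word g p) (word g (a :: q)) (word g (a :: r)) = 0 := by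
      intro a p q r hp h
      have e : word g [a] = g a := mul_one _
      have h1 := moufang_lin hl hr (g a) (word g (a :: r)) (word g p) (word g q)
      have h2 := ih (a :: r) [a] q (by simp; omega)
      have h3 := ih (a :: r) p q (by simp; omega)
      have h4 := ih (p ++ q) [a] r (by simp; omega)
      have h5 := moufang hl hr (g a) (word g (p ++ q)) (word g r)
      rw [e] at h2 h4
      rw [h4, zero_mul, neg_zero] at h5
      rw [h2, h3, word_append g n ih p q (by omega), swap12 hl _ (word g (p ++ q))] at h1
      change _ + -asc _ (g a * word g r) _ = _ at h1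
      rw [h5] at h1
      rw [swap13 hl hr, neg_eq_zero]
      change asc _ (g a * word g q) _ = 0
      simpa using h1
    intro l₁ l₂ l₃ h
    rcases l₁ with _ | ⟨a, l₁⟩
    · exact asc_one_left _ _
    rcases l₂ with _ | ⟨b, l₂⟩
    · exact asc_one_mid _ _
    rcases l₃ with _ | ⟨c, l₃⟩
    · exact asc_one_right _ _
    simp only [List.length_cons] at h
    by_cases hbc : b = c
    · subst hbc
      exact key b _ _ _ (by simp) (by simp; omega)
    by_cases hab : a = b
    · subst hab
      rw [swap13 hl hr, key a _ _ _ (by simp) (by simp; omega), neg_zero]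
    obtain rfl : a = c := by
      cases a <;> cases b <;> cases c <;> simp_all
    rw [swap12 hl, key a _ _ _ (by simp) (by simp; omega), neg_zero]

/-- the subring generated by two elements -/
def gen (g : Bool → R) : Subring R where
  carrier := AddSubgroup.closure (Set.range (word g))
  zero_mem' := zero_mem _
  add_mem' := add_mem
  neg_mem' := neg_mem
  one_mem' := AddSubgroup.subset_closure ⟨[], rfl⟩
  mul_mem' := fun {a b} ha hb => by
    induction ha, hb using AddSubgroup.closure_induction₂ with
    | mem x y hx hy =>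
      obtain ⟨l₁, rfl⟩ := hx
      obtain ⟨l₂, rfl⟩ := hy
      exact AddSubgroup.subset_closure
        ⟨_, (word_append g _ (asc_word hl hr g _) l₁ l₂ le_rfl).symm⟩
    | zero_left => simp
    | zero_right => simp
    | add_left x y z _ _ _ h1 h2 => rw [add_mul]; exact add_mem h1 h2
    | add_right y z x _ _ _ h1 h2 => rw [mul_add]; exact add_mem h1 h2
    | neg_left x y _ _ h => rw [neg_mul]; exact neg_mem h
    | neg_right x y _ _ h => rw [mul_neg]; exact neg_mem h

theorem gen_assoc (g : Bool → R) {a b c : R} (ha : a ∈ gen hl hr g) (hb : b ∈ gen hl hr g)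
    (hc : c ∈ gen hl hr g) : a * b * c = a * (b * c) := by
  change a ∈ AddSubgroup.closure (Set.range (word g)) at ha
  change b ∈ AddSubgroup.closure (Set.range (word g)) at hb
  change c ∈ AddSubgroup.closure (Set.range (word g)) at hc
  induction ha using AddSubgroup.closure_induction with
  | zero => simp
  | add x y _ _ h1 h2 => simp only [add_mul, h1, h2]
  | neg x _ h => simp only [neg_mul, h]
  | mem a ha =>
  induction hb using AddSubgroup.closure_induction with
  | zero => simp
  | add x y _ _ h1 h2 => simp only [add_mul, mul_add, h1, h2]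
  | neg x _ h => simp only [neg_mul, mul_neg, h]
  | mem b hb =>
  induction hc using AddSubgroup.closure_induction with
  | zero => simp
  | add x y _ _ h1 h2 => simp only [mul_add, h1, h2]
  | neg x _ h => simp only [mul_neg, h]
  | mem c hc =>
  obtain ⟨l₁, rfl⟩ := ha
  obtain ⟨l₂, rfl⟩ := hb
  obtain ⟨l₃, rfl⟩ := hc
  exact sub_eq_zero.1 (asc_word hl hr g _ l₁ l₂ l₃ le_rfl)

/-- **Artin–Zorn** -/
theorem mul_assoc_of_alt [Finite R] [Nontrivial R] [NoZeroDivisors R] (x y z : R) :
    x * y * z = x * (y * z) := by
  let g : Bool → R := fun b => cond b x y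
  let S := gen hl hr g
  letI : Ring S := { (inferInstance : NonAssocRing S) with
    mul_assoc := fun a b c => Subtype.ext (gen_assoc hl hr g a.2 b.2 c.2) }
  haveI : NoZeroDivisors S := ⟨fun {a b} h => (eq_zero_or_eq_zero_of_mul_eq_zero
    (congrArg Subtype.val h)).imp Subtype.ext Subtype.ext⟩
  haveI : Nontrivial S := ⟨0, 1, fun h => zero_ne_one (congrArg Subtype.val h)⟩
  haveI : IsDomain S := NoZeroDivisors.to_isDomain S
  letI : Field S := (Finite.isDomain_to_isField S).toField
  obtain ⟨t, ht⟩ := IsCyclic.exists_monoid_generator (α := Sˣ)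
  have key : ∀ s : S, (s : R) ∈ gen hl hr fun b => cond b ((t : S) : R) z := fun s => by
    by_cases hs : s = 0
    · rw [hs]
      exact zero_mem _
    obtain ⟨n, hn⟩ := ht (Units.mk0 s hs)
    have e : s = (t : S) ^ n := by
      rw [← Units.val_pow_eq_pow_val]
      exact (congrArg Units.val hn).symm
    rw [e]
    clear e hn
    induction n with
    | zero => rw [pow_zero]; exact one_mem _
    | succ n ih =>
      rw [pow_succ]
      exact mul_mem ih (AddSubgroup.subset_closure ⟨[true], mul_one _⟩)
  exact gen_assoc hl hr _ (key ⟨x, AddSubgroup.subset_closure ⟨[true], mul_one _⟩⟩)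
    (key ⟨y, AddSubgroup.subset_closure ⟨[false], mul_one _⟩⟩)
    (AddSubgroup.subset_closure ⟨[false], mul_one _⟩)

end Alt

/-- A finite ring with both inverse properties is a field. -/
theorem exists_field [Finite R] [Nontrivial R]
    (h1 : ∀ u : R, u ≠ 0 → ∃ u' : R, ∀ a, u' * (u * a) = a)
    (h2 : ∀ u : R, u ≠ 0 → ∃ u' : R, ∀ a, a * u * u' = a) :
    ∃ (F : Type) (_ : Field F) (_ : Fintype F) (e : F ≃ R), e 0 = 0 ∧ e 1 = 1 ∧
      (∀ a b, e (a + b) = e a + e b) ∧ ∀ a b, e (a * b) = e a * e b := by
  haveI : NoZeroDivisors R := ⟨fun {a b} h => by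
    by_cases ha : a = 0
    · exact Or.inl ha
    · obtain ⟨a', h'⟩ := h1 a ha
      right
      rw [← h' b, h, mul_zero]⟩
  letI : Ring R := { (inferInstance : NonAssocRing R) with
    mul_assoc := mul_assoc_of_alt (left_alt h1) (right_alt h2) }
  haveI : IsDomain R := NoZeroDivisors.to_isDomain R
  letI : Field R := (Finite.isDomain_to_isField R).toField
  let e := Shrink.ringEquiv.{0} R
  haveI : Finite (Shrink.{0} R) := Finite.of_equiv _ e.symm.toEquiv
  exact ⟨Shrink.{0} R, inferInstance, Fintype.ofFinite _, e.toEquiv, e.map_zero, e.map_one,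
    e.map_add, e.map_mul⟩

end Cfsg.Lib.Perm.PAZ
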