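import Cfsg.Agent.Perm.PlaneOW
import Cfsg.Agent.Perm.PlaneAZ

/-!
# Coordinates in a finite Moufang plane: it is the plane over a finite field
-/

set_option autoImplicit false

namespace Cfsg.Lib.Perm.Plane

open Configuration MulAction

universe u v w

/-- coordinates of a translation plane -/
structure Coord (R : Type w) [AddCommGroup R] (P : Type u) (L : Type v) [Membership P L] where
  /-- multiplication -/
  mul : R → R → R
  /-- unit -/
  one : R
  /-- affine points -/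
  pt : R → R → P
  /-- slope points -/
  dir : R → P
  /-- the vertical direction -/
  V : P
  /-- non-vertical lines -/
  ln : R → R → L
  /-- vertical lines -/
  vl : R → L
  /-- the line at infinity -/
  inf : L
  one_ne : one ≠ 0
  add_mul : ∀ x y m, mul (x + y) m = mul x m + mul y m
  one_mul : ∀ m, mul one m = m
  mul_one : ∀ x, mul x one = x
  mul_zero : ∀ x, mul x 0 = 0
  pt_ln : ∀ x y m b, pt x y ∈ ln m b ↔ y = mul x m + b
  dir_ln : ∀ m' m b, dir m' ∈ ln m b ↔ m' = m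
  V_ln : ∀ m b, V ∉ ln m b
  pt_vl : ∀ x y k, pt x y ∈ vl k ↔ x = k
  dir_vl : ∀ m k, dir m ∉ vl k
  V_vl : ∀ k, V ∈ vl k
  pt_inf : ∀ x y, pt x y ∉ inf
  dir_inf : ∀ m, dir m ∈ inf
  V_inf : V ∈ inf
  pts : ∀ p, (∃ x y, p = pt x y) ∨ (∃ m, p = dir m) ∨ p = V
  lns : ∀ l, (∃ m b, l = ln m b) ∨ (∃ k, l = vl k) ∨ l = inf

section Spread

variable {P : Type u} {L : Type v} [Membership P L] [ProjectivePlane P L] [Finite P] [Finite L]

theorem coord_of_spread {A : Type w} [AddCommGroup A] (l : L) (act : A → P)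
    (hact : ∀ a, act a ∉ l) (hinj : Function.Injective act) (hsurj : ∀ p, p ∉ l → ∃ a, act a = p)
    (C : P → AddSubgroup A) (h1 : ∀ c d, c ∈ l → d ∈ l → c ≠ d → ∀ a, a ∈ C c → a ∈ C d → a = 0)
    (h2 : ∀ a, ∃ c ∈ l, a ∈ C c)
    (h3 : ∀ (a b : A) (c : P) (m : L), c ∈ l → c ∈ m → act a ∈ m → (act b ∈ m ↔ b - a ∈ C c)) :
    ∃ U : P, Nonempty (Coord (C U) P L) := by
  have dec : ∀ c d, c ∈ l → d ∈ l → c ≠ d → ∀ a, ∃ v ∈ C d, a + v ∈ C c := by
    intro c d hc hd hcd a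
    obtain ⟨m, hm1, hm2⟩ := exists_join L (act 0) d
    obtain ⟨k, hk1, hk2⟩ := exists_join L (act (-a)) c
    obtain ⟨b, hb1, hb2⟩ := exists_meet (P := P) m k
    have hml : m ≠ l := fun e => hact 0 (e ▸ hm1)
    have hkl : k ≠ l := fun e => hact _ (e ▸ hk1)
    obtain ⟨v, rfl⟩ := hsurj b fun h =>
      hcd ((pu hkl hk2 hc hb2 h).trans (pu hml hb1 h hm2 hd))
    refine ⟨v, by simpa using (h3 0 v d m hd hm2 hm1).1 hb1, ?_⟩
    have := (h3 _ v c k hc hk2 hk1).1 hb2
    rwa [sub_neg_eq_add, add_comm] at this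
  obtain ⟨U, hU, -⟩ := exists_meet (P := P) l l
  obtain ⟨V, hV, hVU, -⟩ := exists_mem_ne_ne l U U
  obtain ⟨W, hW, hWU, hWV⟩ := exists_mem_ne_ne l U V
  choose ι hιV hιW using fun y : C U => dec W V hW hV hWV y
  have ιuniq : ∀ (y : C U) (v : A), v ∈ C V → (y : A) + v ∈ C W → ι y = v := fun y v h4 h5 => by
    have := h1 W V hW hV hWV (ι y - v) (by simpa using sub_mem (hιW y) h5) (sub_mem (hιV y) h4)
    exact sub_eq_zero.1 this
  have ιadd : ∀ x y, ι (x + y) = ι x + ι y := fun x y => ιuniq _ _ (add_mem (hιV x) (hιV y)) (by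
    have := add_mem (hιW x) (hιW y)
    rwa [add_add_add_comm] at this)
  have ιzero : ι 0 = 0 := ιuniq _ _ (zero_mem _) (by simp)
  have ιsub : ∀ x y, ι (x - y) = ι x - ι y := fun x y => by
    rw [eq_sub_iff_add_eq, ← ιadd, sub_add_cancel]
  have ιinj : ∀ x y, ι x = ι y → x = y := fun x y h => by
    have := h1 W U hW hU hWU ((x : A) - y) (by simpa [h] using sub_mem (hιW x) (hιW y))
      (sub_mem x.2 y.2)
    exact Subtype.ext (sub_eq_zero.1 this)
  have ιsurj : ∀ v ∈ C V, ∃ y, ι y = v := fun v hv => by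
    obtain ⟨y, h4, h5⟩ := dec W U hW hU hWU v
    exact ⟨⟨y, h4⟩, ιuniq _ _ hv (by rwa [add_comm])⟩
  obtain ⟨e, he⟩ : ∃ e : C U, e ≠ 0 := by
    obtain ⟨m, hm1, hm2⟩ := exists_join L (act 0) U
    obtain ⟨b, hb, hb1, hb2⟩ := exists_mem_ne_ne m (act 0) U
    obtain ⟨v, rfl⟩ := hsurj b fun h => hb2 (pu (fun e : m = l => hact 0 (e ▸ hm1)) hb h hm2 hU)
    exact ⟨⟨v, by simpa using (h3 0 v U m hU hm2 hm1).1 hb⟩,
      fun e => hb1 (congrArg act (congrArg Subtype.val e))⟩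
  have hUV : ∀ x : C U, (x : A) ∈ C V → x = 0 := fun x hx =>
    Subtype.ext (h1 V U hV hU hVU x hx x.2)
  choose dir hdir hdirC using fun m : C U => h2 (e + ι m)
  have dirV : ∀ m, dir m ≠ V := fun m h => he (hUV e (by
    have := sub_mem (h ▸ hdirC m) (hιV m)
    rwa [add_sub_cancel_right] at this))
  have direq : ∀ m c, c ∈ l → (e : A) + ι m ∈ C c → dir m = c := fun m c hc h => by
    by_contra hne
    have := h1 _ _ (hdir m) hc hne _ (hdirC m) h
    exact he (hUV e (by rw [eq_neg_of_add_eq_zero_left this]; exact neg_mem (hιV m)))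
  have dirsurj : ∀ c, c ∈ l → c ≠ V → ∃ m, dir m = c := fun c hc hcV => by
    obtain ⟨v, h4, h5⟩ := dec c V hc hV hcV e
    obtain ⟨m, rfl⟩ := ιsurj v h4
    exact ⟨m, direq m c hc h5⟩
  have exmul : ∀ x m : C U, ∃ z, (x : A) + ι z ∈ C (dir m) := fun x m => by
    obtain ⟨v, h4, h5⟩ := dec _ V (hdir m) hV (dirV m) x
    obtain ⟨z, rfl⟩ := ιsurj v h4
    exact ⟨z, h5⟩
  choose mul hmul using exmul
  have muliff : ∀ x m z : C U, (x : A) + ι z ∈ C (dir m) ↔ z = mul x m := fun x m z =>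
    ⟨fun h => ιinj _ _ (sub_eq_zero.1 (h1 _ V (hdir m) hV (dirV m) _
      (by simpa using sub_mem h (hmul x m)) (sub_mem (hιV _) (hιV _)))), fun h => h ▸ hmul x m⟩
  have onemul : ∀ m, mul e m = m := fun m => ((muliff _ _ _).1 (hdirC m)).symm
  have addmul : ∀ x y m, mul (x + y) m = mul x m + mul y m := fun x y m =>
    ((muliff _ _ _).1 (by
      have := add_mem (hmul x m) (hmul y m)
      rwa [add_add_add_comm, ← ιadd] at this)).symm
  choose ln hln1 hln2 using fun m b : C U => exists_join L (act (ι b)) (dir m)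
  choose vl hvl1 hvl2 using fun k : C U => exists_join L (act k) V
  have lnl : ∀ m b, ln m b ≠ l := fun m b e => hact _ (e ▸ hln1 m b)
  have vll : ∀ k, vl k ≠ l := fun k e => hact _ (e ▸ hvl1 k)
  have ptln : ∀ x y m b : C U, act (x + ι y) ∈ ln m b ↔ y = mul x m + b := fun x y m b => by
    rw [h3 _ _ _ _ (hdir m) (hln2 m b) (hln1 m b), add_sub_assoc, ← ιsub, muliff, sub_eq_iff_eq_add]
  have ptvl : ∀ x y k : C U, act (x + ι y) ∈ vl k ↔ x = k := fun x y k => by
    rw [h3 _ _ _ _ hV (hvl2 k) (hvl1 k)]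
    constructor
    · intro h
      refine sub_eq_zero.1 (hUV _ ?_)
      have := sub_mem h (hιV y)
      rwa [add_sub_right_comm, add_sub_cancel_right] at this
    · rintro rfl
      simpa using hιV y
  have pts : ∀ p, p ∉ l → ∃ x y : C U, p = act (x + ι y) := fun p hp => by
    obtain ⟨a, rfl⟩ := hsurj p hp
    obtain ⟨v, h4, h5⟩ := dec U V hU hV hVU.symm a
    obtain ⟨y, hy⟩ := ιsurj _ (neg_mem h4)
    exact ⟨⟨_, h5⟩, y, by simp [hy]⟩
  refine ⟨U, ⟨{ mul := mul, one := e, pt := fun x y => act (x + ι y), dir := dir, V := V,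
                ln := ln, vl := vl, inf := l, one_ne := he, add_mul := addmul, one_mul := onemul,
                mul_one := fun x => ?_, mul_zero := fun x => ?_, pt_ln := ptln,
                dir_ln := fun m' m b => ⟨fun h => ?_, fun h => h ▸ hln2 m b⟩,
                V_ln := fun m b h => dirV m (pu (lnl m b) (hln2 m b) (hdir m) h hV),
                pt_vl := ptvl,
                dir_vl := fun m k h => dirV m (pu (vll k) h (hdir m) (hvl2 k) hV),
                V_vl := hvl2, pt_inf := fun x y => hact _, dir_inf := hdir, V_inf := hV,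
                pts := fun p => ?_, lns := fun k => ?_ }⟩⟩
  · exact ((muliff _ _ _).1 (by rw [direq e W hW (hιW e)]; exact hιW x)).symm
  · exact ((muliff _ _ _).1 (by
      rw [direq 0 U hU (by rw [ιzero, add_zero]; exact e.2), ιzero, add_zero]; exact x.2)).symm
  · have h4 := pu (lnl m b) h (hdir m') (hln2 m b) (hdir m)
    have h5 := hdirC m'
    rwa [h4, muliff, onemul] at h5
  · by_cases hp : p ∈ l
    · by_cases hpV : p = V
      · exact Or.inr (Or.inr hpV)
      · obtain ⟨m, hm⟩ := dirsurj p hp hpV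
        exact Or.inr (Or.inl ⟨m, hm.symm⟩)
    · exact Or.inl (pts p hp)
  · by_cases hk : k = l
    · exact Or.inr (Or.inr hk)
    obtain ⟨c, hck, hcl⟩ := exists_meet (P := P) k l
    obtain ⟨p, hp, hpc, -⟩ := exists_mem_ne_ne k c c
    obtain ⟨x, y, rfl⟩ := pts p fun h => hpc (pu hk hp h hck hcl)
    by_cases hcV : c = V
    · subst hcV
      exact Or.inr (Or.inl ⟨x, lu hpc hp hck ((ptvl x y x).2 rfl) (hvl2 x)⟩)
    · obtain ⟨m, rfl⟩ := dirsurj c hcl hcV
      exact Or.inl ⟨m, y - mul x m, lu hpc hp hck ((ptln _ _ _ _).2 (by abel)) (hln2 _ _)⟩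

end Spread

variable {G : Type w} {P : Type u} {L : Type v} [Group G] [Membership P L] [MulAction G P]
  [MulAction G L] [hG : CG G P L] [ProjectivePlane P L] [Finite P] [Finite L]

omit hG in
theorem IsMoufang.persp_ne_bot (hM : IsMoufang G P L) {c : P} {l : L} (hc : c ∈ l) :
    persp G c l ≠ ⊥ := by
  obtain ⟨m, hcm, hml, -⟩ := exists_line_ne_ne c l l
  obtain ⟨x, hx, hxc, -⟩ := exists_mem_ne_ne m c c
  obtain ⟨y, hy, hyc, hyx⟩ := exists_mem_ne_ne m c x
  obtain ⟨g, hg, h⟩ := hM l m c x y hc hcm hx hy (fun h => hxc (pu hml hx h hcm hc))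
    (fun h => hyc (pu hml hy h hcm hc))
  intro e
  rw [e, Subgroup.mem_bot] at hg
  rw [hg, one_smul] at h
  exact hyx h.symm

theorem IsMoufang.trans_comm (hM : IsMoufang G P L) (l : L) {a b : G}
    (ha : a ∈ trans G (P := P) l) (hb : b ∈ trans G (P := P) l) : a * b = b * a := by
  have hb' := hb
  obtain ⟨ha1, c, hc, ha2⟩ := ha
  obtain ⟨hb1, d, hd, hb2⟩ := hb
  by_cases hcd : c = d
  · subst hcd
    obtain ⟨x, hx, hxc, -⟩ := exists_mem_ne_ne l c c
    obtain ⟨⟨t, ht⟩, ht1⟩ := Subgroup.ne_bot_iff_exists_ne_one.1 (hM.persp_ne_bot hx)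
    obtain ⟨h1, y, hy, h2⟩ := mul_mem hb' (persp_le_trans hx ht)
    have hyc : c ≠ y := by
      rintro rfl
      have := mul_mem (inv_mem hb2) h2
      rw [inv_mul_cancel_left] at this
      exact ht1 (Subtype.ext (eq_one_of_two_centres hxc ht.1 this))
    have e1 := commute_of_centres hyc ha2 h2 (ha1 y hy) (h1 c hc)
    have e2 := commute_of_centres hxc.symm ha2 ht.1 (ha1 x hx) (ht.2 c hc)
    rw [← mul_assoc, mul_assoc b t a, ← e2, ← mul_assoc] at e1
    exact mul_right_cancel e1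
  · exact commute_of_centres hcd ha2 hb2 (ha1 d hd) (hb1 c hc)

theorem IsMoufang.exists_coord (hM : IsMoufang G P L) :
    ∃ (R : Type w) (_ : AddCommGroup R), Nonempty (Coord R P L) := by
  obtain ⟨-, O, -, l, -, -, -, -, hO, -⟩ := @ProjectivePlane.exists_config P L _ _
  letI : CommGroup (trans G (P := P) l) := { (inferInstance : Group (trans G (P := P) l)) with
    mul_comm := fun a b => Subtype.ext (hM.trans_comm l a.2 b.2) }
  have hact : ∀ a : trans G (P := P) l, (a : G) • O ∉ l := fun a =>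
    smul_not_mem_of_fix (axis_fix (P := P) a.2.1) hO
  refine Exists.elim (coord_of_spread (A := Additive (trans G (P := P) l)) l
    (fun a => ((a.toMul : trans G (P := P) l) : G) • O) (fun a => hact _) (fun a b h => ?_)
    (fun p hp => ?_)
    (fun c => Subgroup.toAddSubgroup ((centre G L c).subgroupOf (trans G (P := P) l)))
    (fun c d _ _ hcd a h1 h2 => ?_) (fun a => a.toMul.2.2) (fun a b c m hc hcm ha => ?_))
    fun U hU => ⟨_, inferInstance, hU⟩
  · have h1 : ((b.toMul⁻¹ * a.toMul : trans G (P := P) l) : G) • O = O := by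
      rw [Subgroup.coe_mul, Subgroup.coe_inv, mul_smul, inv_smul_eq_iff]
      exact h
    have h2 : b.toMul⁻¹ * a.toMul = 1 := Subtype.ext (trans_free (b.toMul⁻¹ * a.toMul).2 hO h1)
    exact (inv_mul_eq_one.1 h2).symm
  · obtain ⟨m, h1, h2⟩ := exists_join L O p
    obtain ⟨c, hcm, hcl⟩ := exists_meet (P := P) m l
    obtain ⟨g, hg, h⟩ := hM l m c O p hcl hcm h1 h2 hO hp
    exact ⟨Additive.ofMul ⟨g, persp_le_trans hcl hg⟩, h⟩
  · exact Subtype.ext (eq_one_of_two_centres hcd h1 h2)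
  · change _ ↔ ((b.toMul / a.toMul : trans G (P := P) l) : G) ∈ centre G L c
    have h1 : ((b.toMul : trans G (P := P) l) : G) • O =
        ((b.toMul / a.toMul : trans G (P := P) l) : G) •
          ((a.toMul : trans G (P := P) l) : G) • O := by
      rw [← mul_smul, ← Subgroup.coe_mul, div_mul_cancel]
    change ((b.toMul : trans G (P := P) l) : G) • O ∈ m ↔ _
    rw [h1]
    generalize b.toMul / a.toMul = t
    refine ⟨fun h => ?_, fun h => smul_mem_of_centre h hcm ha⟩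
    by_cases h2 : (t : G) • ((a.toMul : trans G (P := P) l) : G) • O =
        ((a.toMul : trans G (P := P) l) : G) • O
    · rw [trans_free t.2 (hact _) h2]
      exact one_mem _
    · obtain ⟨-, d, hd, h3⟩ := t.2
      rw [pu (fun e : m = l => hact _ (e ▸ ha)) hcm hc (centre_mem_of_move h3 h2 ha h) hd]
      exact h3

namespace Coord

variable {R : Type*} [AddCommGroup R] (C : Coord R P L)

omit [ProjectivePlane P L] [Finite P] [Finite L]

theorem zero_mul (m : R) : C.mul 0 m = 0 := by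
  have := C.add_mul 0 0 m
  rw [add_zero] at this
  exact left_eq_add.1 this

theorem pt_inj {x y x' y' : R} (h : C.pt x y = C.pt x' y') : x = x' ∧ y = y' := by
  have h1 := (C.pt_vl x' y' x').2 rfl
  have h2 := (C.pt_ln x' y' 0 y').2 (by rw [C.mul_zero, zero_add])
  rw [← h] at h1 h2
  rw [C.pt_ln, C.mul_zero, zero_add] at h2
  exact ⟨(C.pt_vl _ _ _).1 h1, h2⟩

theorem dir_inj {m m' : R} (h : C.dir m = C.dir m') : m = m' :=
  (C.dir_ln m m' 0).1 (h ▸ (C.dir_ln m' m' 0).2 rfl)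

theorem pt_ne_dir (x y m : R) : C.pt x y ≠ C.dir m := fun h => C.pt_inf x y (h ▸ C.dir_inf m)

theorem pt_ne_V (x y : R) : C.pt x y ≠ C.V := fun h => C.pt_inf x y (h ▸ C.V_inf)

theorem dir_ne_V (m : R) : C.dir m ≠ C.V := fun h => C.dir_vl m 0 (h ▸ C.V_vl 0)

theorem vl_ne_ln (k m b : R) : C.vl k ≠ C.ln m b := fun h => C.V_ln m b (h ▸ C.V_vl k)

theorem inf_ne_ln (m b : R) : C.inf ≠ C.ln m b := fun h => C.V_ln m b (h ▸ C.V_inf)

theorem zero_ln (m b : R) : C.pt 0 b ∈ C.ln m b := by rw [C.pt_ln, C.zero_mul, zero_add]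

theorem one_ln (m b : R) : C.pt C.one (m + b) ∈ C.ln m b := by rw [C.pt_ln, C.one_mul]

theorem ln_zero (x y : R) : C.pt x y ∈ C.ln 0 y := by rw [C.pt_ln, C.mul_zero, zero_add]

theorem zero_ne_one (y y' : R) : C.pt 0 y ≠ C.pt C.one y' := fun h => C.one_ne (C.pt_inj h).1.symm

/-- transport of coordinates -/
def transport {F : Type*} [AddCommGroup F] (e : F ≃+ R) : Coord F P L where
  mul a b := e.symm (C.mul (e a) (e b))
  one := e.symm C.one
  pt x y := C.pt (e x) (e y)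
  dir m := C.dir (e m)
  V := C.V
  ln m b := C.ln (e m) (e b)
  vl k := C.vl (e k)
  inf := C.inf
  one_ne := by simpa using C.one_ne
  add_mul x y m := by simp [C.add_mul]
  one_mul m := by simp [C.one_mul]
  mul_one m := by simp [C.mul_one]
  mul_zero m := by simp [C.mul_zero]
  pt_ln x y m b := by
    rw [C.pt_ln, ← e.injective.eq_iff]
    simp
  dir_ln m' m b := by rw [C.dir_ln, e.injective.eq_iff]
  V_ln _ _ := C.V_ln _ _
  pt_vl x y k := by rw [C.pt_vl, e.injective.eq_iff]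
  dir_vl _ _ := C.dir_vl _ _
  V_vl _ := C.V_vl _
  pt_inf _ _ := C.pt_inf _ _
  dir_inf _ := C.dir_inf _
  V_inf := C.V_inf
  pts p := by
    rcases C.pts p with ⟨x, y, h⟩ | ⟨m, h⟩ | h
    · exact Or.inl ⟨e.symm x, e.symm y, by simpa using h⟩
    · exact Or.inr (Or.inl ⟨e.symm m, by simpa using h⟩)
    · exact Or.inr (Or.inr h)
  lns l := by
    rcases C.lns l with ⟨x, y, h⟩ | ⟨m, h⟩ | h
    · exact Or.inl ⟨e.symm x, e.symm y, by simpa using h⟩
    · exact Or.inr (Or.inl ⟨e.symm m, by simpa using h⟩)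
    · exact Or.inr (Or.inr h)

end Coord

namespace Coord

variable {R : Type*} [AddCommGroup R] (C : Coord R P L) (hM : IsMoufang G P L)

omit [Finite P] [Finite L]
include hM

theorem mul_add (x a m : R) : C.mul x (a + m) = C.mul x a + C.mul x m := by
  obtain ⟨s, ⟨hc, ha⟩, hs⟩ := hM (C.vl 0) (C.vl C.one) C.V (C.pt C.one 0) (C.pt C.one a)
    (C.V_vl _) (C.V_vl _) ((C.pt_vl _ _ _).2 rfl) ((C.pt_vl _ _ _).2 rfl)
    (fun h => C.one_ne ((C.pt_vl _ _ _).1 h)) (fun h => C.one_ne ((C.pt_vl _ _ _).1 h))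
  have h0 : ∀ b, s • C.pt 0 b = C.pt 0 b := fun b => ha _ ((C.pt_vl _ _ _).2 rfl)
  have h1 : s • C.ln 0 0 = C.ln a 0 := smul_line_eq (C.zero_ne_one 0 0) (C.ln_zero _ _)
    (C.ln_zero _ _) ((h0 0).symm ▸ C.zero_ln _ _) (by rw [hs, C.pt_ln, C.one_mul, add_zero])
  have h2 : s • C.dir 0 = C.dir a := smul_point_eq (C.inf_ne_ln 0 0) (C.dir_inf _)
    ((C.dir_ln _ _ _).2 rfl) (by rw [hc _ C.V_inf]; exact C.dir_inf _)
    (by rw [h1, C.dir_ln])
  have h3 : ∀ b, s • C.ln 0 b = C.ln a b := fun b => smul_line_eq (C.pt_ne_dir 0 b 0)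
    (C.ln_zero _ _) ((C.dir_ln _ _ _).2 rfl) ((h0 b).symm ▸ C.zero_ln _ _) (by rw [h2, C.dir_ln])
  have h4 : ∀ x y, s • C.pt x y = C.pt x (C.mul x a + y) := fun x y =>
    smul_point_eq (C.vl_ne_ln x 0 y) ((C.pt_vl _ _ _).2 rfl) (C.ln_zero _ _)
      (by rw [hc _ (C.V_vl x), C.pt_vl]) (by rw [h3, C.pt_ln])
  have h5 : s • C.ln m 0 = C.ln (a + m) 0 := smul_line_eq (C.zero_ne_one 0 (m + 0))
    (C.zero_ln _ _) (C.one_ln _ _) ((h0 0).symm ▸ C.zero_ln _ _)
    (by rw [h4, C.pt_ln, C.one_mul, C.one_mul, add_assoc])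
  have h6 := smul_mem s ((C.pt_ln x _ m 0).2 rfl)
  rw [h4, h5, C.pt_ln, add_zero, add_zero] at h6
  exact h6.symm

/-- the coordinate ring -/
@[reducible] def ring : NonAssocRing R :=
  { (inferInstance : AddCommGroup R) with
    mul := C.mul
    one := C.one
    left_distrib := C.mul_add hM
    right_distrib := C.add_mul
    zero_mul := C.zero_mul
    mul_zero := C.mul_zero
    one_mul := C.one_mul
    mul_one := C.mul_one }

theorem rip (u : R) (hu : u ≠ 0) : ∃ u' : R, ∀ x, C.mul (C.mul x u) u' = x := by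
  letI := C.ring hM
  have hm : ∀ a b, C.mul a b = a * b := fun _ _ => rfl
  have ho : C.one = 1 := rfl
  obtain ⟨s, ⟨hc, ha⟩, hs⟩ := hM (C.ln 0 0) C.inf (C.dir 0) C.V (C.dir 1)
    ((C.dir_ln _ _ _).2 rfl) (C.dir_inf _) C.V_inf (C.dir_inf _) (C.V_ln _ _)
    (fun h => C.one_ne ((C.dir_ln _ _ _).1 h))
  have h0 : ∀ k, s • C.pt k 0 = C.pt k 0 := fun k => ha _ (C.ln_zero _ _)
  have h1 : ∀ k, s • C.vl k = C.ln 1 (-k) := fun k => smul_line_eq (C.pt_ne_V k 0)
    ((C.pt_vl _ _ _).2 rfl) (C.V_vl _) (by rw [h0, C.pt_ln, hm]; simp) (by rw [hs, C.dir_ln])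
  have h2 : ∀ x y, s • C.pt x y = C.pt (x + y) y := fun x y =>
    smul_point_eq (C.vl_ne_ln x 0 y) ((C.pt_vl _ _ _).2 rfl) (C.ln_zero _ _)
      (by rw [h1, C.pt_ln, hm]; simp) (by rw [hc _ ((C.dir_ln _ _ _).2 rfl)]; exact C.ln_zero _ _)
  have h3 : ∀ x, C.pt (x * u) (x * u - x) ∈ s • C.ln (u - 1) 0 := fun x => by
    have := smul_mem s ((C.pt_ln x _ (u - 1) 0).2 rfl)
    rw [h2, hm] at this
    simpa [mul_sub] using this
  rcases C.lns (s • C.ln (u - 1) 0) with ⟨m, b, h⟩ | ⟨k, h⟩ | h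
  · refine ⟨1 - m, fun x => ?_⟩
    have e1 := h3 0
    have e2 := h3 x
    rw [h, C.pt_ln, hm] at e1 e2
    simp only [MulZeroClass.zero_mul, sub_zero, zero_add] at e1
    rw [← e1, add_zero] at e2
    rw [hm, hm, mul_sub, ← e2]
    simp
  · have e1 := h3 0
    have e2 := h3 1
    rw [h, C.pt_vl] at e1 e2
    rw [← e1] at e2
    exact absurd (by simpa using e2) hu
  · exact absurd (h ▸ h3 0) (C.pt_inf _ _)

theorem lip (u : R) (hu : u ≠ 0) : ∃ u' : R, ∀ a, C.mul u' (C.mul u a) = a := by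
  letI := C.ring hM
  have hm : ∀ a b, C.mul a b = a * b := fun _ _ => rfl
  have ho : C.one = 1 := rfl
  obtain ⟨s, ⟨hc, ha⟩, hs⟩ := hM (C.vl 0) (C.ln 0 0) (C.pt 0 0) (C.dir 0) (C.pt 1 0)
    ((C.pt_vl _ _ _).2 rfl) (C.ln_zero _ _) ((C.dir_ln _ _ _).2 rfl) (C.ln_zero _ _)
    (C.dir_vl _ _) (fun h => C.one_ne ((C.pt_vl _ _ _).1 h))
  have h0 : ∀ b, s • C.pt 0 b = C.pt 0 b := fun b => ha _ ((C.pt_vl _ _ _).2 rfl)
  have hV : s • C.V = C.V := ha _ (C.V_vl _)
  have h1 : s • C.inf = C.vl 1 := smul_line_eq (C.dir_ne_V 0) (C.dir_inf _) C.V_inf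
    (by rw [hs, C.pt_vl]) (hV.symm ▸ C.V_vl _)
  have h2 : ∀ a, s • C.ln a 0 = C.ln a 0 := fun a => hc _ (C.zero_ln _ _)
  have h3 : ∀ a, s • C.dir a = C.pt 1 a := fun a => smul_point_eq (C.inf_ne_ln a 0) (C.dir_inf _)
    ((C.dir_ln _ _ _).2 rfl) (by rw [h1, C.pt_vl]) (by rw [h2, C.pt_ln, hm]; simp)
  have h4 : ∀ b, s • C.ln 0 b = C.ln (-b) b := fun b => smul_line_eq (C.pt_ne_dir 0 b 0)
    (C.ln_zero _ _) ((C.dir_ln _ _ _).2 rfl) ((h0 b).symm ▸ C.zero_ln _ _)
    (by rw [h3, C.pt_ln, hm]; simp)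
  have h5 : ∀ a, s • C.pt (u - 1) ((u - 1) * a) ∈ s • C.vl (u - 1) ∧
      s • C.pt (u - 1) ((u - 1) * a) ∈ C.ln a 0 ∧
      s • C.pt (u - 1) ((u - 1) * a) ∈ C.ln (-((u - 1) * a)) ((u - 1) * a) := fun a =>
    ⟨smul_mem s ((C.pt_vl _ _ _).2 rfl),
      smul_mem_of_fix (h2 a) (by rw [C.pt_ln, hm, add_zero]), h4 _ ▸ smul_mem s (C.ln_zero _ _)⟩
  have h6 : C.V ∈ s • C.vl (u - 1) := mem_smul_of_fix hV (C.V_vl _)
  rcases C.lns (s • C.vl (u - 1)) with ⟨m, b, h⟩ | ⟨k, h⟩ | h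
  · exact absurd (h ▸ h6) (C.V_ln _ _)
  · refine ⟨1 - k, fun a => ?_⟩
    obtain ⟨e1, e2, e3⟩ := h5 a
    rw [h] at e1
    have e4 := pu (C.vl_ne_ln k a 0) e1 e2 ((C.pt_vl k (k * a) k).2 rfl)
      (by rw [C.pt_ln, hm, add_zero])
    rw [e4, C.pt_ln, hm] at e3
    simp only [sub_mul, _root_.one_mul, mul_neg, mul_sub] at e3
    rw [hm, hm, sub_mul, _root_.one_mul]
    linear_combination (norm := abel) -e3
  · obtain ⟨e1, e2, e3⟩ := h5 1
    rw [h] at e1
    have e4 := pu (C.inf_ne_ln 1 0) e1 e2 (C.dir_inf 1) ((C.dir_ln _ _ _).2 rfl)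
    rw [e4, C.dir_ln, _root_.mul_one, neg_sub, eq_comm, sub_eq_self] at e3
    exact absurd e3 hu

end Coord

theorem IsMoufang.exists_field_coord (hM : IsMoufang G P L) :
    ∃ (F : Type) (_ : Field F) (_ : Fintype F) (C : Coord F P L), ∀ a b, C.mul a b = a * b := by
  obtain ⟨R, _, ⟨C⟩⟩ := hM.exists_coord
  letI := C.ring hM
  haveI : Finite R := Finite.of_injective C.dir fun _ _ h => C.dir_inj h
  haveI : Nontrivial R := ⟨_, _, C.one_ne⟩
  obtain ⟨F, _, _, e, -, -, h2, h3⟩ := PAZ.exists_field (R := R) (C.lip hM) (C.rip hM)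
  refine ⟨F, inferInstance, inferInstance, C.transport ⟨e, h2⟩, fun a b => ?_⟩
  change e.symm (e a * e b) = _
  rw [← h3, e.symm_apply_apply]

section Final

variable {F : Type*} [Field F]

/-- homogeneous coordinates -/
def hvec : (F × F) ⊕ Option F → (Fin 3 → F) :=
  Sum.elim (fun p => ![p.1, p.2, 1]) fun o => o.elim ![0, 1, 0] fun m => ![1, m, 0]

theorem hvec_ne_zero (i : (F × F) ⊕ Option F) : hvec i ≠ 0 := by
  rcases i with ⟨x, y⟩ | _ | m <;> simp [hvec]

theorem hvec_bijective :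
    Function.Bijective fun i : (F × F) ⊕ Option F =>
      Projectivization.mk F (hvec i) (hvec_ne_zero i) := by
  constructor
  · intro i j h
    obtain ⟨a, ha⟩ := (Projectivization.mk_eq_mk_iff' F _ _ _ _).1 h
    have h0 := congrFun ha 0
    have h1 := congrFun ha 1
    have h2 := congrFun ha 2
    rcases i with ⟨x, y⟩ | _ | m <;> rcases j with ⟨x', y'⟩ | _ | m' <;>
      simp_all [hvec]
  · intro p
    induction p using Projectivization.ind with
    | h v hv =>
    by_cases h2 : v 2 = 0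
    · by_cases h0 : v 0 = 0
      · refine ⟨Sum.inr none, ((Projectivization.mk_eq_mk_iff' F _ _ _ _).2 ⟨v 1, ?_⟩).symm⟩
        ext i
        fin_cases i <;> simp [hvec, h0, h2]
      · refine ⟨Sum.inr (some (v 1 / v 0)),
          ((Projectivization.mk_eq_mk_iff' F _ _ _ _).2 ⟨v 0, ?_⟩).symm⟩
        ext i
        fin_cases i <;> simp [hvec, h2, mul_div_cancel₀, h0]
    · refine ⟨Sum.inl (v 0 / v 2, v 1 / v 2),
        ((Projectivization.mk_eq_mk_iff' F _ _ _ _).2 ⟨v 2, ?_⟩).symm⟩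
      ext i
      fin_cases i <;> simp [hvec, mul_div_cancel₀, h2]

/-- the linear form with given coefficients -/
def form (a b c : F) : (Fin 3 → F) →ₗ[F] F :=
  a • LinearMap.proj 0 + b • LinearMap.proj 1 + c • LinearMap.proj 2

theorem form_apply (a b c : F) (v : Fin 3 → F) : form a b c v = a * v 0 + b * v 1 + c * v 2 := rfl

theorem finrank_ker_form {f : (Fin 3 → F) →ₗ[F] F} (hf : f ≠ 0) :
    Module.finrank F (LinearMap.ker f) = 2 := by
  have := Module.Dual.finrank_ker_add_one_of_ne_zero hf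
  rw [Module.finrank_fin_fun] at this
  omega

omit [ProjectivePlane P L] [Finite P] [Finite L] in
theorem Coord.desarguesian (C : Coord F P L) (hC : ∀ a b, C.mul a b = a * b) :
    ∃ φ : P ≃ Projectivization F (Fin 3 → F),
      (∀ l : L, ∃ W : Submodule F (Fin 3 → F), Module.finrank F W = 2 ∧
          ∀ p : P, p ∈ l ↔ (φ p).submodule ≤ W) ∧
      (∀ W : Submodule F (Fin 3 → F), Module.finrank F W = 2 →
          ∃ l : L, ∀ p : P, p ∈ l ↔ (φ p).submodule ≤ W) := by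
  let χ : (F × F) ⊕ Option F → P :=
    Sum.elim (fun p => C.pt p.1 p.2) fun o => o.elim C.V fun m => C.dir m
  have hχ : Function.Bijective χ := by
    constructor
    · intro i j h
      rcases i with ⟨x, y⟩ | _ | m <;> rcases j with ⟨x', y'⟩ | _ | m'
      · exact congrArg Sum.inl (Prod.ext (C.pt_inj h).1 (C.pt_inj h).2)
      · exact absurd h (C.pt_ne_V _ _)
      · exact absurd h (C.pt_ne_dir _ _ _)
      · exact absurd h.symm (C.pt_ne_V _ _)
      · rfl
      · exact absurd h.symm (C.dir_ne_V _)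
      · exact absurd h.symm (C.pt_ne_dir _ _ _)
      · exact absurd h (C.dir_ne_V _)
      · exact congrArg (fun m => Sum.inr (some m)) (C.dir_inj h)
    · intro p
      rcases C.pts p with ⟨x, y, rfl⟩ | ⟨m, rfl⟩ | rfl
      · exact ⟨Sum.inl (x, y), rfl⟩
      · exact ⟨Sum.inr (some m), rfl⟩
      · exact ⟨Sum.inr none, rfl⟩
  let φ := (Equiv.ofBijective χ hχ).symm.trans (Equiv.ofBijective _ (hvec_bijective (F := F)))
  have hφ : ∀ (l : L) (f : (Fin 3 → F) →ₗ[F] F), (∀ i, χ i ∈ l ↔ f (hvec i) = 0) →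
      ∀ p : P, p ∈ l ↔ (φ p).submodule ≤ LinearMap.ker f := fun l f h p => by
    obtain ⟨i, rfl⟩ := hχ.2 p
    have : φ (χ i) = Projectivization.mk F (hvec i) (hvec_ne_zero i) := by
      simp only [φ, Equiv.trans_apply, Equiv.ofBijective_symm_apply_apply, Equiv.ofBijective_apply]
    rw [this, Projectivization.submodule_mk, Submodule.span_singleton_le_iff_mem, h,
      LinearMap.mem_ker]
  have h1 : ∀ (m b t : F), t ≠ 0 → ∀ i, χ i ∈ C.ln m b ↔
      form (t * m) (-t) (t * b) (hvec i) = 0 := fun m b t ht i => by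
    rcases i with ⟨x, y⟩ | _ | m'
    · change C.pt x y ∈ _ ↔ t * m * x + -t * y + t * b * 1 = 0
      rw [C.pt_ln, hC, show t * m * x + -t * y + t * b * 1 = t * (x * m + b - y) by ring,
        mul_eq_zero, sub_eq_zero, or_iff_right ht, eq_comm]
    · change C.V ∈ _ ↔ t * m * 0 + -t * 1 + t * b * 0 = 0
      simp [C.V_ln, ht]
    · change C.dir m' ∈ _ ↔ t * m * 1 + -t * m' + t * b * 0 = 0
      rw [C.dir_ln, show t * m * 1 + -t * m' + t * b * 0 = t * (m - m') by ring,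
        mul_eq_zero, sub_eq_zero, or_iff_right ht, eq_comm]
  have h2 : ∀ (k t : F), t ≠ 0 → ∀ i, χ i ∈ C.vl k ↔
      form t 0 (-(t * k)) (hvec i) = 0 := fun k t ht i => by
    rcases i with ⟨x, y⟩ | _ | m'
    · change C.pt x y ∈ _ ↔ t * x + 0 * y + -(t * k) * 1 = 0
      rw [C.pt_vl, show t * x + 0 * y + -(t * k) * 1 = t * (x - k) by ring,
        mul_eq_zero, sub_eq_zero, or_iff_right ht]
    · change C.V ∈ _ ↔ t * 0 + 0 * 1 + -(t * k) * 0 = 0
      simp [C.V_vl]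
    · change C.dir m' ∈ _ ↔ t * 1 + 0 * m' + -(t * k) * 0 = 0
      simp [C.dir_vl, ht]
  have h3 : ∀ (t : F), t ≠ 0 → ∀ i, χ i ∈ C.inf ↔ form 0 0 t (hvec i) = 0 := fun t ht i => by
    rcases i with ⟨x, y⟩ | _ | m'
    · change C.pt x y ∈ _ ↔ 0 * x + 0 * y + t * 1 = 0
      simp [C.pt_inf, ht]
    · change C.V ∈ _ ↔ 0 * 0 + 0 * 1 + t * 0 = 0
      simp [C.V_inf]
    · change C.dir m' ∈ _ ↔ 0 * 1 + 0 * m' + t * 0 = 0
      simp [C.dir_inf]
  refine ⟨φ, fun l => ?_, fun W hW => ?_⟩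
  · rcases C.lns l with ⟨m, b, rfl⟩ | ⟨k, rfl⟩ | rfl
    · exact ⟨_, finrank_ker_form fun e => by
        simpa [form_apply] using LinearMap.congr_fun e ![0, 1, 0], hφ _ _ (h1 m b 1 one_ne_zero)⟩
    · exact ⟨_, finrank_ker_form fun e => by
        simpa [form_apply] using LinearMap.congr_fun e ![1, 0, 0], hφ _ _ (h2 k 1 one_ne_zero)⟩
    · exact ⟨_, finrank_ker_form fun e => by
        simpa [form_apply] using LinearMap.congr_fun e ![0, 0, 1], hφ _ _ (h3 1 one_ne_zero)⟩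
  · obtain ⟨f, hf, hWf⟩ := W.exists_le_ker_of_lt_top (lt_top_iff_ne_top.2 fun e => by
      rw [e, finrank_top, Module.finrank_fin_fun] at hW
      omega)
    obtain rfl : W = LinearMap.ker f :=
      Submodule.eq_of_le_of_finrank_eq hWf (hW.trans (finrank_ker_form hf).symm)
    obtain ⟨a, b, c, rfl⟩ : ∃ a b c, f = form a b c := by
      refine ⟨f ![1, 0, 0], f ![0, 1, 0], f ![0, 0, 1], LinearMap.ext fun v => ?_⟩
      have : v = v 0 • ![1, 0, 0] + v 1 • ![0, 1, 0] + v 2 • ![0, 0, 1] := by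
        ext i
        fin_cases i <;> simp
      rw [form_apply]
      conv_lhs => rw [this]
      simp only [map_add, map_smul, smul_eq_mul, mul_comm]
    by_cases hb : b = 0
    · subst hb
      by_cases ha : a = 0
      · subst ha
        exact ⟨_, hφ _ _ (h3 c fun e => hf (by rw [e]; simp [form]))⟩
      · have := hφ _ _ (h2 (-c / a) a ha)
        rw [mul_div_cancel₀ _ ha, neg_neg] at this
        exact ⟨_, this⟩
    · have := hφ _ _ (h1 (a / -b) (c / -b) (-b) (neg_ne_zero.2 hb))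
      rw [mul_div_cancel₀ _ (neg_ne_zero.2 hb), mul_div_cancel₀ _ (neg_ne_zero.2 hb),
        neg_neg] at this
      exact ⟨_, this⟩

end Final

/-- A finite Moufang plane is the plane over a finite field. -/
theorem IsMoufang.desarguesian (hM : IsMoufang G P L) :
    ∃ (F : Type) (_ : Field F) (_ : Fintype F) (φ : P ≃ Projectivization F (Fin 3 → F)),
      (∀ l : L, ∃ W : Submodule F (Fin 3 → F), Module.finrank F W = 2 ∧
          ∀ p : P, p ∈ l ↔ (φ p).submodule ≤ W) ∧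
      (∀ W : Submodule F (Fin 3 → F), Module.finrank F W = 2 →
          ∃ l : L, ∀ p : P, p ∈ l ↔ (φ p).submodule ≤ W) := by
  obtain ⟨F, _, _, C, hC⟩ := hM.exists_field_coord
  exact ⟨F, inferInstance, inferInstance, C.desarguesian hC⟩

end Cfsg.Lib.Perm.Plane
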