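import Cfsg.Agent.Perm.ItoDesign
import Cfsg.Agent.Perm.Derange2
import Cfsg.Agent.Perm.ONanDefs
import Cfsg.Agent.FT.Core

/-!
# Ito's theorems on subgroups of index the degree in doubly transitive groups

Reduction to O'Nan's theorem on abelian normal subgroups of a point stabiliser.
-/

set_option autoImplicit false
set_option linter.unusedSectionVars false

open Finset MulAction Cfsg Cfsg.Lib.FT
open scoped Classical

namespace Cfsg.Lib.Perm.Ito

/-- If every non-identity element has exactly one fixed point there is a global fixed point. -/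
theorem exists_fixed {K X : Type*} [Group K] [Finite K] [MulAction K X] [Finite X] [Nontrivial K]
    (h : ∀ g : K, g ≠ 1 → ∃! x : X, g • x = x) : ∃ x : X, ∀ g : K, g • x = x := by
  have := Fintype.ofFinite K
  have := Fintype.ofFinite X
  let A : X → Finset K := fun x => {g | g ≠ 1 ∧ ∃ y ∈ orbit K x, g • y = y}
  have hA : ∀ x, #(A x) + Nat.card (orbit K x) = Nat.card K := fun x => by
    have : Nonempty (orbit K x) := ⟨⟨x, mem_orbit_self x⟩⟩
    have h1 := Derange.burnside K (orbit K x)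
    rw [Derange.card_quotient_eq_one, one_mul, ← add_sum_erase _ _ (mem_univ (1 : K)),
      fixedBy_one_eq_univ, Nat.card_univ] at h1
    rw [← h1, add_comm]
    congr 1
    rw [card_eq_sum_ones, sum_filter, ← add_sum_erase _ _ (mem_univ (1 : K))]
    simp only [ne_eq, not_true_eq_false, false_and, if_false, zero_add]
    refine sum_congr rfl fun g hg => ?_
    have hg1 := (mem_erase.1 hg).1
    split_ifs with h2
    · obtain ⟨y, hy, e⟩ := h2.2
      refine (Nat.card_eq_one_iff_exists.2 ⟨⟨⟨y, hy⟩, Subtype.ext e⟩, fun z => ?_⟩).symm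
      exact Subtype.ext (Subtype.ext ((h g hg1).unique (congrArg Subtype.val z.2) e))
    · refine (Derange.card_fixedBy_eq_zero_iff.2 fun z e => h2 ⟨hg1, z.1, z.2, ?_⟩).symm
      exact congrArg Subtype.val e
  have hB : ∀ (x : X) (g : K), g ≠ 1 → g • x = x → 2 * Nat.card (orbit K x) ≤ Nat.card K :=
    fun x g hg e => by
      have h1 : Nat.card (orbit K x) * Nat.card (stabilizer K x) = Nat.card K := by
        rw [← Nat.card_prod]; exact Nat.card_congr (orbitProdStabilizerEquivGroup K x)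
      have h2 : 1 < Nat.card (stabilizer K x) :=
        (Subgroup.one_lt_card_iff_ne_bot _).2 fun h3 => hg (by
          have : g ∈ stabilizer K x := e
          rwa [h3, Subgroup.mem_bot] at this)
      nlinarith
  obtain ⟨g, hg⟩ := exists_ne (1 : K)
  obtain ⟨x, hx, -⟩ := h g hg
  refine ⟨x, fun a => ?_⟩
  by_contra ha
  have h2 : 1 < Nat.card (orbit K x) := by
    rw [Finite.one_lt_card_iff_nontrivial]
    exact ⟨⟨a • x, mem_orbit x a⟩, ⟨x, mem_orbit_self x⟩, fun e => ha (congrArg Subtype.val e)⟩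
  have hsub : ∀ x, A x ⊆ univ.erase 1 := fun x g hg =>
    mem_erase.2 ⟨(mem_filter.1 hg).2.1, mem_univ _⟩
  have hcard : #(univ.erase (1 : K)) + 1 = Nat.card K := by
    rw [card_erase_add_one (mem_univ _), card_univ, Nat.card_eq_fintype_card]
  obtain ⟨g', hg', hg''⟩ := exists_mem_notMem_of_card_lt_card (s := A x) (t := univ.erase 1)
    (by have := hA x; omega)
  have hg1 := (mem_erase.1 hg').1
  obtain ⟨y, hy, -⟩ := h g' hg1
  have hdisj : Disjoint (A x) (A y) := by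
    rw [disjoint_left]
    intro b hb hb'
    obtain ⟨hb1, z, hz, e⟩ := (mem_filter.1 hb).2
    obtain ⟨-, z', hz', e'⟩ := (mem_filter.1 hb').2
    obtain rfl := (h b hb1).unique e e'
    refine hg'' (mem_filter.2 ⟨mem_univ _, hg1, y, ?_, hy⟩)
    rw [← orbit_eq_iff.2 hz, orbit_eq_iff.2 hz']
    exact mem_orbit_self y
  have := card_le_card (union_subset (hsub x) (hsub y))
  rw [card_union_of_disjoint hdisj] at this
  have := hA x
  have := hA y
  have := hB x g hg hx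
  have := hB y g' hg1 hy
  omega

variable {G P B : Type*} [Group G] [MulAction G P] [MulAction G B]

/-- the pointwise stabiliser of a block -/
def kerB (G : Type*) [Group G] [MulAction G P] (I : P → B → Prop) (b : B) : Subgroup G where
  carrier := {g | ∀ x, I x b → g • x = x}
  mul_mem' ha hb x hx := by rw [mul_smul, hb x hx, ha x hx]
  one_mem' x _ := one_smul _ _
  inv_mem' ha x hx := by rw [inv_smul_eq_iff, ha x hx]

/-- the elements of `kerB b` fixing every block of the pencil of `b` and `c` -/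
def kerF (G : Type*) [Group G] [MulAction G P] [MulAction G B] (I : P → B → Prop) (b c : B) :
    Subgroup G where
  carrier := {g | (∀ x, I x b → g • x = x) ∧ ∀ e, (∀ x, I x b → I x c → I x e) → g • e = e}
  mul_mem' ha hb := ⟨fun x hx => by rw [mul_smul, hb.1 x hx, ha.1 x hx],
    fun x hx => by rw [mul_smul, hb.2 x hx, ha.2 x hx]⟩
  one_mem' := ⟨fun x _ => one_smul _ _, fun x _ => one_smul _ _⟩
  inv_mem' ha := ⟨fun x hx => by rw [inv_smul_eq_iff, ha.1 x hx],
    fun x hx => by rw [inv_smul_eq_iff, ha.2 x hx]⟩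

variable [Fintype P] [Fintype B] [Finite G] {I : P → B → Prop} {k l : ℕ}

namespace SD

theorem eqv' (D : SD G I k l) (g : G) (x : P) (b : B) : I x (g • b) ↔ I (g⁻¹ • x) b := by
  rw [← D.eqv g⁻¹, inv_smul_smul]

theorem conj_mem_kerB (D : SD G I k l) (g : G) {b : B} {a : G} (ha : a ∈ kerB G I b) :
    g * a * g⁻¹ ∈ kerB G I (g • b) := fun x hx => by
  rw [mul_smul, mul_smul, ha _ ((D.eqv' g x b).1 hx), smul_inv_smul]

theorem conj_mem_kerF (D : SD G I k l) (g : G) {b c : B} {a : G} (ha : a ∈ kerF G I b c) :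
    g * a * g⁻¹ ∈ kerF G I (g • b) (g • c) := by
  refine ⟨D.conj_mem_kerB g ha.1, fun e he => ?_⟩
  rw [mul_smul, mul_smul, ha.2 (g⁻¹ • e) fun x h1 h2 => ?_, smul_inv_smul]
  rw [D.eqv', inv_inv]
  exact he _ ((D.eqv g x b).2 h1) ((D.eqv g x c).2 h2)

theorem eq_one_of_two (D : SD G I k l) (hf : ∀ g : G, (∀ x : P, g • x = x) → g = 1) {b c : B}
    (hbc : b ≠ c) {g : G} (h1 : g ∈ kerB G I b) (h2 : g ∈ kerB G I c) : g = 1 :=
  hf g (D.fix_of_two hbc h1 h2)

theorem faithful_blk (D : SD G I k l) (hf : ∀ g : G, (∀ x : P, g • x = x) → g = 1) (g : G)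
    (h : ∀ b : B, g • b = b) : g = 1 :=
  hf g fun _ => D.dual.smul_blk_of_fix fun b _ => h b

/-- commutator lemma: elements of two axis groups fixing each other's axis commute -/
theorem comm_of_fix (D : SD G I k l) (hf : ∀ g : G, (∀ x : P, g • x = x) → g = 1) {b c : B}
    (hbc : b ≠ c) {x y : G} (hx : x ∈ kerB G I b) (hy : y ∈ kerB G I c) (hxc : x • c = c)
    (hyb : y • b = b) : x * y = y * x := by
  have h1 : x * y * x⁻¹ * y⁻¹ ∈ kerB G I c :=
    mul_mem (by simpa only [hxc] using D.conj_mem_kerB x hy) (inv_mem hy)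
  have h2 : x * y * x⁻¹ * y⁻¹ ∈ kerB G I b := by
    have := mul_mem hx (show y * x⁻¹ * y⁻¹ ∈ kerB G I b by
      simpa only [hyb] using D.conj_mem_kerB y (inv_mem hx))
    simpa only [mul_assoc] using this
  have := D.eq_one_of_two hf hbc h2 h1
  rwa [mul_inv_eq_one, mul_inv_eq_iff_eq_mul] at this

/-- there is an elation with axis `b` -/
theorem exists_elation (D : SD G I k l) (hf : ∀ g : G, (∀ x : P, g • x = x) → g = 1) {b : B}
    (hfix : ∀ u : P, ∃ h : G, h • b = b ∧ h • u ≠ u) (hK : kerB G I b ≠ ⊥) :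
    ∃ g : G, g ≠ 1 ∧ ∀ x, g • x = x ↔ I x b := by
  by_contra hn
  have hinv : ∀ (g : G) u, g • b = b → ¬ I u b → ¬ I (g • u) b := fun g u hg hu h =>
    hu (by rwa [← hg, D.eqv] at h)
  let S : SubMulAction (kerB G I b) P :=
    ⟨{u | ¬ I u b}, fun g u hu => hinv g u (D.smul_blk_of_fix g.2) hu⟩
  have := (Subgroup.nontrivial_iff_ne_bot _).2 hK
  obtain ⟨u, hu⟩ := exists_fixed (K := kerB G I b) (X := S) fun g hg => by
    have hg' : (g : G) ≠ 1 := fun e => hg (Subtype.ext e)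
    obtain ⟨u, hu, e⟩ : ∃ u, ¬ I u b ∧ (g : G) • u = u := by
      by_contra h
      push Not at h
      exact hn ⟨g, hg', fun x => ⟨fun e => by_contra fun hx => h x hx e, g.2 x⟩⟩
    refine ⟨⟨u, hu⟩, Subtype.ext e, fun y hy => Subtype.ext ?_⟩
    by_contra hne
    exact hg' (D.faithful_blk hf g
      (D.fix_of_two_off g.2 hne y.2 hu (congrArg Subtype.val hy) e))
  obtain ⟨h, hb, hu'⟩ := hfix u
  obtain ⟨g, hg⟩ := exists_ne (1 : kerB G I b)
  refine hg (Subtype.ext (D.faithful_blk hf g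
    (D.fix_of_two_off g.2 hu' (hinv h u hb u.2) u.2 ?_ (congrArg Subtype.val (hu g)))))
  have h1 : h⁻¹ * g * h⁻¹⁻¹ ∈ kerB G I b := by
    simpa only [show h⁻¹ • b = b by rw [inv_smul_eq_iff, hb]] using D.conj_mem_kerB h⁻¹ g.2
  have h2 : (h⁻¹ * g * h⁻¹⁻¹) • (u : P) = u := congrArg Subtype.val (hu ⟨_, h1⟩)
  rwa [inv_inv, mul_smul, mul_smul, inv_smul_eq_iff] at h2

theorem exists_kerF_ne_bot (D : SD G I k l) (hf : ∀ g : G, (∀ x : P, g • x = x) → g = 1) {b : B}
    (hfix : ∀ u : P, ∃ h : G, h • b = b ∧ h • u ≠ u) (hK : kerB G I b ≠ ⊥) :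
    ∃ c, c ≠ b ∧ ∃ g ∈ kerF G I b c, g ≠ 1 := by
  obtain ⟨g, hg, h⟩ := D.exists_elation hf hfix hK
  have h1 : 1 < #{c : B | g • c = c} := by
    rw [← D.fix_eq g]
    simp only [h, D.kb]
    have := D.lt
    omega
  obtain ⟨c, hc, hcb⟩ := exists_mem_ne h1 b
  refine ⟨c, hcb, g, ⟨fun x hx => (h x).2 hx, fun e he => ?_⟩, hg⟩
  by_cases heb : e = b
  · exact heb ▸ D.smul_blk_of_fix fun x hx => (h x).2 hx
  refine D.fix_of_trace h hcb heb (fun x hx => ⟨he x hx, fun hxe => ?_⟩) (mem_filter.1 hc).2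
  have hsub : ({x | I x b ∧ I x c} : Finset P) ⊆ ({x | I x b ∧ I x e} : Finset P) :=
      fun y hy => by
    simp only [mem_filter, mem_univ, true_and] at hy ⊢
    exact ⟨hy.1, he y hy.1 hy.2⟩
  have := eq_of_subset_of_card_le hsub (by rw [D.lb _ _ hcb.symm, D.lb _ _ (Ne.symm heb)])
  have hx' : x ∈ ({x | I x b ∧ I x e} : Finset P) := by simp [hx, hxe]
  rw [← this] at hx'
  exact (mem_filter.1 hx').2.2

/-- the pencil groups are abelian -/
theorem kerF_comm (D : SD G I k l) (hf : ∀ g : G, (∀ x : P, g • x = x) → g = 1) {b c : B}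
    (hbc : b ≠ c) {a : G} (ha : a ∈ kerB G I b) (hac : a • c ≠ c) {x y : G}
    (hx : x ∈ kerF G I c b) (hy : y ∈ kerF G I c b) : x * y = y * x := by
  have hpen : ∀ (a : G), a ∈ kerB G I b → ∀ e, (∀ x, I x c → I x b → I x e) →
      ∀ x, I x c → I x b → I x (a • e) := fun a ha e he x h1 h2 => by
    rw [← ha x h2, D.eqv]; exact he x h1 h2
  have hxb : ∀ x ∈ kerF G I c b, x • b = b := fun x hx => hx.2 b fun _ _ h => h
  have hfixall : ∀ e, (∀ x, I x c → I x b → I x e) → (a * x⁻¹ * a⁻¹) • e = e := fun e he => by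
    rw [mul_smul, mul_smul, (inv_mem hx).2 _ (hpen _ (inv_mem ha) e he), smul_inv_smul]
  have h1 : (a * x⁻¹ * a⁻¹) * y = y * (a * x⁻¹ * a⁻¹) :=
    D.comm_of_fix hf hac (D.conj_mem_kerB a (inv_mem hx).1) hy.1 (hfixall c fun _ h _ => h)
      (hy.2 _ (hpen a ha c fun _ h _ => h))
  have h2 : x * (a * x⁻¹ * a⁻¹) ∈ kerB G I b := by
    have := mul_mem (show x * a * x⁻¹ ∈ kerB G I b by
      simpa only [hxb x hx] using D.conj_mem_kerB x ha) (inv_mem ha)
    simpa only [mul_assoc] using this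
  have h3 := D.comm_of_fix hf hbc h2 hy.1
    (by rw [mul_smul, hfixall c fun _ h _ => h, hx.2 c fun _ h _ => h]) (hxb y hy)
  rw [mul_assoc, h1, ← mul_assoc, ← mul_assoc y] at h3
  exact mul_right_cancel h3

/-- the axis group has a nontrivial Fitting subgroup -/
theorem fitting_ne_bot (D : SD G I k l) (hf : ∀ g : G, (∀ x : P, g • x = x) → g = 1)
    (h2 : ∀ a b c d : B, a ≠ b → c ≠ d → ∃ g : G, g • a = c ∧ g • b = d) {b : B}
    (hfix : ∀ u : P, ∃ h : G, h • b = b ∧ h • u ≠ u) (hK : kerB G I b ≠ ⊥) :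
    fittingOf (kerB G I b) ≠ ⊥ := by
  obtain ⟨c, hcb, g, hg, hg1⟩ := D.exists_kerF_ne_bot hf hfix hK
  -- an element of the axis group of `c` moving `b`
  obtain ⟨a, ha, hab⟩ : ∃ a ∈ kerB G I c, a • b ≠ b := by
    by_contra hn
    push Not at hn
    obtain ⟨t, ht, -⟩ := h2 b c c b hcb.symm hcb
    have h1 : t * g * t⁻¹ ∈ kerB G I c := ht ▸ D.conj_mem_kerB t hg.1
    refine hg1 ?_
    have h3 : t * g * t⁻¹ = 1 := D.faithful_blk hf _ fun e => by
      by_cases he : e = c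
      · exact he ▸ D.smul_blk_of_fix h1
      obtain ⟨s, hs, hs'⟩ := h2 c e c b (Ne.symm he) hcb
      have h4 := hn _ (hs ▸ D.conj_mem_kerB s h1 :)
      rwa [← hs', mul_smul, mul_smul, inv_smul_smul, smul_left_cancel_iff] at h4
    rwa [mul_inv_eq_one, mul_eq_left] at h3
  have hcomm : IsMulCommutative (kerF G I b c) :=
    ⟨⟨fun x y => Subtype.ext (D.kerF_comm hf hcb ha hab x.2 y.2)⟩⟩
  have hnil : Group.IsNilpotent (kerF G I b c) := by
    let : CommGroup (kerF G I b c) := {mul_comm := hcomm.1.1}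
    infer_instance
  have hle : kerF G I b c ≤ fittingOf (kerB G I b) := by
    refine Fitting_max ⟨fun x hx => hx.1, fun x hx => ?_⟩ hnil
    have key : ∀ x ∈ kerB G I b, ∀ y ∈ kerF G I b c, x * y * x⁻¹ ∈ kerF G I b c := by
      intro x hx y hy
      refine ⟨show _ ∈ kerB G I b by
        simpa only [D.smul_blk_of_fix hx] using D.conj_mem_kerB x hy.1, fun e he => ?_⟩
      rw [mul_smul, mul_smul, hy.2 (x⁻¹ • e) fun z h1 h2 => ?_, smul_inv_smul]
      rw [← (inv_mem hx) z h1, D.eqv]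
      exact he z h1 h2
    refine Subgroup.mem_normalizer_iff.2 fun y => ⟨key x hx y, fun h => ?_⟩
    simpa [mul_assoc] using key _ (inv_mem hx) _ h
  exact fun e => hg1 (by simpa [e] using hle hg)

/-- double transitivity on blocks -/
theorem two_trans_blk (D : SD G I k l) [IsPretransitive G B]
    (h2 : IsMultiplyPretransitive G P 2) [Nontrivial P] (a b c d : B) (hab : a ≠ b) (hcd : c ≠ d) :
    ∃ g : G, g • a = c ∧ g • b = d := by
  have := Fintype.ofFinite G
  have := isPretransitive_of_is_two_pretransitive (G := G) (α := P)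
  have h1 := Derange.burnside G (P × P)
  have h3 := Derange.burnside G (B × B)
  have h4 : ∀ g : G, Nat.card (fixedBy P g) = Nat.card (fixedBy B g) := fun g => by
    have := D.fix_eq g
    rw [← Fintype.card_subtype, ← Fintype.card_subtype, ← Nat.card_eq_fintype_card,
      ← Nat.card_eq_fintype_card] at this
    exact this
  simp only [Derange.card_fixedBy_prod, h4] at h1 h3
  rw [h3, Derange.rank_eq_two h2] at h1
  have h5 := Nat.eq_of_mul_eq_mul_right Nat.card_pos h1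
  obtain ⟨y, -, hy⟩ := (Nat.card_eq_two_iff' (Quotient.mk'' (a, a))).1 h5
  have h6 := (hy _ (Derange.mk_diag_ne (G := G) (a := a) hcd)).trans
    (hy _ (Derange.mk_diag_ne (G := G) (a := a) hab)).symm
  obtain ⟨g, hg⟩ := orbitRel_apply.1 (Quotient.exact' h6)
  exact ⟨g, congrArg Prod.fst hg, congrArg Prod.snd hg⟩

/-- the final step: an abelian normal subgroup of the block stabiliser -/
theorem pslConcl (D : SD G I k l) (hab : ONan.AbFor G B)
    (hf : ∀ g : G, (∀ x : P, g • x = x) → g = 1)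
    (h2 : ∀ a b c d : B, a ≠ b → c ≠ d → ∃ g : G, g • a = c ∧ g • b = d) {b : B} {K : Subgroup G}
    (hKb : ∀ g ∈ K, g • b = b) (hn : ∀ g : G, g • b = b → ∀ a ∈ K, g * a * g⁻¹ ∈ K)
    (hF : fittingOf K ≠ ⊥) {u u' : P} (hu : u ≠ u') (hKu : ∀ g ∈ K, g • u = u)
    (hKu' : ∀ g ∈ K, g • u' = u') : ONan.PslConcl G B := by
  have hle : centerOf (fittingOf K) ≤ K := inf_le_left.trans (Fitting_sub K)
  have hn' : ∀ g : G, g • b = b → g ∈ Subgroup.normalizer (fittingOf K : Set G) := fun g hg => by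
    refine norm_Fitting K (Subgroup.mem_normalizer_iff.2 fun y => ⟨hn g hg y, fun h => ?_⟩)
    simpa [mul_assoc] using hn g⁻¹ (by rw [inv_smul_eq_iff, hg]) _ h
  refine hab h2 (D.faithful_blk hf) b (centerOf (fittingOf K)) (fun a ha => hKb a (hle ha))
    (fun g hg a ha => ⟨(Subgroup.mem_normalizer_iff.1 (hn' g hg) a).1 ha.1, ?_⟩)
    (fun x hx y hy => hy.2 x hx.1) ?_
  · intro y hy
    have h1 : g⁻¹ * y * g⁻¹⁻¹ ∈ fittingOf K :=
      (Subgroup.mem_normalizer_iff.1 (inv_mem (hn' g hg)) y).1 hy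
    have h3 := ha.2 _ h1
    rw [inv_inv] at h3
    calc y * (g * a * g⁻¹) = g * (g⁻¹ * y * g * a) * g⁻¹ := by group
      _ = g * a * g⁻¹ * y := by rw [h3]; group
  · have h1 : centerOf (fittingOf K) ≠ ⊥ := fun e => hF ((center_nil_eq1 (Fitting_nil K)).1 e)
    obtain ⟨⟨a, ha⟩, ha1⟩ := Subgroup.ne_bot_iff_exists_ne_one.1 h1
    refine ⟨a, ha, fun e => ha1 (Subtype.ext e), ?_⟩
    have h3 : 1 < #{c : B | a • c = c} := by
      rw [← D.fix_eq a]
      exact one_lt_card.2 ⟨u, by simp [hKu a (hle ha)], u', by simp [hKu' a (hle ha)], hu⟩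
    obtain ⟨c, hc, hcb⟩ := exists_mem_ne h3 b
    exact ⟨c, hcb, (mem_filter.1 hc).2⟩

end SD

section Cosets

variable {Ω : Type*} [MulAction G Ω]

/-- incidence of points and cosets -/
def Inc (H : Subgroup G) (a : Ω) (x : Ω) (q : G ⧸ H) : Prop := q.out⁻¹ • x ∈ orbit H a

theorem inc_mk (H : Subgroup G) (a x : Ω) (g : G) : Inc H a x g ↔ g⁻¹ • x ∈ orbit H a := by
  obtain ⟨h, e⟩ := QuotientGroup.mk_out_eq_mul H g
  rw [Inc, e, mul_inv_rev, mul_smul]
  refine ⟨fun h1 => ?_, fun h1 => mem_orbit_of_mem_orbit h⁻¹ h1⟩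
  have := mem_orbit_of_mem_orbit h h1
  rwa [Subgroup.smul_def, smul_inv_smul] at this

theorem inc_smul (H : Subgroup G) (a : Ω) (g : G) (x : Ω) (q : G ⧸ H) :
    Inc H a (g • x) (g • q) ↔ Inc H a x q := by
  obtain ⟨k, rfl⟩ := QuotientGroup.mk_surjective q
  rw [MulAction.Quotient.smul_mk, inc_mk, inc_mk, smul_eq_mul, mul_inv_rev, mul_smul, inv_smul_smul]

theorem inc_one (H : Subgroup G) (a x : Ω) : Inc H a x ((1 : G) : G ⧸ H) ↔ x ∈ orbit H a := by
  rw [inc_mk, inv_one, one_smul]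

theorem smul_one_iff (H : Subgroup G) (g : G) :
    g • ((1 : G) : G ⧸ H) = ((1 : G) : G ⧸ H) ↔ g ∈ H := by
  rw [MulAction.Quotient.smul_mk, smul_eq_mul, mul_one, QuotientGroup.eq, mul_one, inv_mem_iff]

theorem exists_sd [Fintype Ω] (h2 : IsMultiplyPretransitive G Ω 2) (H : Subgroup G)
    [Fintype (G ⧸ H)] (hidx : H.index = Nat.card Ω) (hnt : ¬ IsPretransitive H Ω)
    (hfix : ∀ a : Ω, ∃ h : H, h • a ≠ a) (a : Ω) : ∃ k l, SD G (Inc H a) k l := by
  have := isPretransitive_of_is_two_pretransitive (G := G) (α := Ω)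
  obtain ⟨u, hu⟩ : ∃ u : Ω, u ∉ orbit H a := by
    by_contra hn
    push Not at hn
    refine hnt ⟨fun x y => ?_⟩
    obtain ⟨g, rfl⟩ := hn x
    obtain ⟨g', rfl⟩ := hn y
    exact ⟨g' * g⁻¹, by simp [mul_smul]⟩
  have hau : a ≠ u := fun e => hu (e ▸ mem_orbit_self a)
  have hc : Fintype.card Ω = Fintype.card (G ⧸ H) := by
    rw [← Nat.card_eq_fintype_card, ← hidx, ← Nat.card_eq_fintype_card]; rfl
  have kb : ∀ q, #{x | Inc H a x q} = #{x | Inc H a x ((1 : G) : G ⧸ H)} := fun q => by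
    obtain ⟨g, rfl⟩ := exists_smul_eq G ((1 : G) : G ⧸ H) q
    exact (card_equiv (toPerm g) fun x => by
      simp only [mem_filter, mem_univ, true_and, toPerm_apply, inc_smul]).symm
  have kp : ∀ x, #{q | Inc H a x q} = #{q | Inc H a a q} := fun x => by
    obtain ⟨g, rfl⟩ := exists_smul_eq G a x
    exact (card_equiv (toPerm g) fun x => by simp [inc_smul]).symm
  have lp : ∀ x y, x ≠ y → #{q | Inc H a x q ∧ Inc H a y q} = #{q | Inc H a a q ∧ Inc H a u q} :=
    fun x y hxy => by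
      obtain ⟨g, rfl, rfl⟩ := is_two_pretransitive_iff.1 h2 hau hxy
      exact (card_equiv (toPerm g) fun x => by simp [inc_smul]).symm
  have hkr : #{q | Inc H a a q} = #{x | Inc H a x ((1 : G) : G ⧸ H)} := by
    have h1 : ∑ x, ∑ q, ind (Inc H a) x q = ∑ q, ∑ x, ind (Inc H a) x q := sum_comm
    simp only [sum_ind_left, sum_ind_right, kb, kp, sum_const, card_univ, hc, nsmul_eq_mul] at h1
    have h0 : (Fintype.card (G ⧸ H) : ℤ) ≠ 0 := by exact_mod_cast Fintype.card_ne_zero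
    exact_mod_cast mul_left_cancel₀ h0 h1
  have kp' := fun x => (kp x).trans hkr
  refine ⟨_, _, inc_smul H a, kb, kp', lp, lb_of kb kp' lp hc, hc, ?_⟩
  have hr := basic_rel kb kp' lp a
  obtain ⟨h, hh⟩ := hfix a
  obtain ⟨h', hh'⟩ := hfix u
  have h3 : 1 < #{x | Inc H a x ((1 : G) : G ⧸ H)} :=
    one_lt_card.2 ⟨h • a, by simp [inc_one], a, by simp [inc_one], hh⟩
  have h4 : 1 < #{x | ¬ Inc H a x ((1 : G) : G ⧸ H)} :=
    one_lt_card.2 ⟨h' • u, by
      simpa [inc_one] using fun e => hu (by simpa using mem_orbit_of_mem_orbit h'⁻¹ e),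
      u, by simp [inc_one, hu], hh'⟩
  have h5 := card_filter_add_card_filter_not (s := (univ : Finset Ω))
    fun x => Inc H a x ((1 : G) : G ⧸ H)
  rw [card_univ] at h5
  generalize #{x | Inc H a x ((1 : G) : G ⧸ H)} = k at *
  generalize #{q | Inc H a a q ∧ Inc H a u q} = l at *
  by_contra hlt
  have h6 : (k : ℤ) - 1 ≤ l := by omega
  have h7 : (k : ℤ) + 1 ≤ Fintype.card Ω - 1 := by omega
  have h8 : (2 : ℤ) ≤ k := by omega
  nlinarith

theorem concl_of_pslConcl (H : Subgroup G) (hidx : H.index = Nat.card Ω)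
    (h : ONan.PslConcl G (G ⧸ H)) :
    ∃ (m : ℕ) (F : Type) (_ : Field F) (_ : Fintype F), 2 ≤ m ∧
      Nat.card Ω = (Fintype.card F ^ (m + 1) - 1) / (Fintype.card F - 1) ∧ ∃ N : Subgroup G,
      N.Normal ∧ Nonempty (N ≃* Matrix.ProjectiveSpecialLinearGroup (Fin (m + 1)) F) ∧
      Subgroup.centralizer (N : Set G) = ⊥ := by
  obtain ⟨L, F, _, _, n, hn, h1, h2, h3, h4⟩ := h
  obtain ⟨m, rfl⟩ : ∃ m, n = m + 1 := ⟨n - 1, by omega⟩
  refine ⟨m, F, inferInstance, inferInstance, by omega, ?_, L, h1, h3, h2⟩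
  rw [← h4, ← hidx, Nat.mul_div_cancel _ (Nat.sub_pos_of_lt Fintype.one_lt_card)]
  rfl

/-- Ito's theorem, solvable case, from O'Nan's theorem. -/
theorem ito_solv [FaithfulSMul G Ω] [Finite Ω] (h2 : IsMultiplyPretransitive G Ω 2)
    (H : Subgroup G) (hab : ONan.AbFor G (G ⧸ H)) (hidx : H.index = Nat.card Ω)
    (hnt : ¬ IsPretransitive H Ω) (hfix : ∀ a : Ω, ∃ h : H, h • a ≠ a) (N : Subgroup H)
    (hN : N.Normal) (hN1 : N ≠ ⊥) (hsol : Group.IsSolvable N)
    (hNfix : ∃ a : Ω, ∀ x ∈ N, x • a = a) : ONan.PslConcl G (G ⧸ H) := by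
  have := Fintype.ofFinite Ω
  have := Fintype.ofFinite (G ⧸ H)
  obtain ⟨a, ha⟩ := hNfix
  obtain ⟨k, l, D⟩ := exists_sd h2 H hidx hnt hfix a
  obtain ⟨h, hh⟩ := hfix a
  have : Nontrivial Ω := ⟨_, _, hh⟩
  refine D.pslConcl hab (fun g hg => FaithfulSMul.eq_of_smul_eq_smul (α := Ω) (by simpa using hg))
    (D.two_trans_blk h2) (b := ((1 : G) : G ⧸ H)) (K := N.map H.subtype) ?_ ?_ ?_ hh ?_ ?_
  · rintro _ ⟨g, -, rfl⟩
    exact (smul_one_iff H _).2 g.2
  · rintro g hg _ ⟨x, hx, rfl⟩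
    exact ⟨_, hN.conj_mem x hx ⟨g, (smul_one_iff H _).1 hg⟩, rfl⟩
  · have : Group.IsSolvable (N.map H.subtype) :=
      Group.isSolvable_of_surjective (f := (N.equivMapOfInjective _ H.subtype_injective).toMonoidHom)
        (N.equivMapOfInjective _ H.subtype_injective).surjective
    rw [Ne, trivg_Fitting this, Subgroup.map_eq_bot_iff_of_injective _ H.subtype_injective]
    exact hN1
  · rintro _ ⟨g, hg, rfl⟩
    have := ha _ (hN.conj_mem g hg h⁻¹)
    rwa [inv_inv, mul_smul, mul_smul, inv_smul_eq_iff] at this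
  · rintro _ ⟨g, hg, rfl⟩
    exact ha g hg

/-- Ito's theorem, unfaithful case, from O'Nan's theorem. -/
theorem ito_unf [FaithfulSMul G Ω] [Finite Ω] (h2 : IsMultiplyPretransitive G Ω 2)
    (H : Subgroup G) (hab : ONan.AbFor G (G ⧸ H)) (hidx : H.index = Nat.card Ω)
    (hnt : ¬ IsPretransitive H Ω) (hfix : ∀ a : Ω, ∃ h : H, h • a ≠ a)
    (hunf : ∃ a : Ω, ∃ h : H, h ≠ 1 ∧ ∀ b ∈ orbit H a, h • b = b) : ONan.PslConcl G (G ⧸ H) := by
  have := Fintype.ofFinite Ω
  have := Fintype.ofFinite (G ⧸ H)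
  obtain ⟨a, g, hg1, hg⟩ := hunf
  obtain ⟨k, l, D⟩ := exists_sd h2 H hidx hnt hfix a
  obtain ⟨h, hh⟩ := hfix a
  have : Nontrivial Ω := ⟨_, _, hh⟩
  have hf : ∀ g : G, (∀ x : Ω, g • x = x) → g = 1 :=
    fun g hg => FaithfulSMul.eq_of_smul_eq_smul (α := Ω) (by simpa using hg)
  refine D.pslConcl hab hf (D.two_trans_blk h2) (b := ((1 : G) : G ⧸ H))
    (K := kerB G (Inc H a) ((1 : G) : G ⧸ H)) (fun g hg => D.smul_blk_of_fix hg)
    (fun g hg x hx => by simpa only [hg] using D.conj_mem_kerB g hx)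
    (D.fitting_ne_bot hf (D.two_trans_blk h2) (fun u => ?_) fun e => hg1 ?_) hh
    (fun g hg => hg _ (by simp [inc_one])) (fun g hg => hg _ (by simp [inc_one]))
  · obtain ⟨x, hx⟩ := hfix u
    exact ⟨x, (smul_one_iff H _).2 x.2, hx⟩
  · have : (g : G) ∈ kerB G (Inc H a) ((1 : G) : G ⧸ H) :=
      fun x hx => hg x ((inc_one H a x).1 hx)
    rw [e, Subgroup.mem_bot] at this
    exact Subtype.ext this

end Cosets

end Cfsg.Lib.Perm.Ito
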