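import Mathlib.Algebra.BigOperators.Ring.Finset
import Mathlib.Algebra.Order.BigOperators.Group.Finset
import Mathlib.GroupTheory.GroupAction.Defs
import Mathlib.Data.Fintype.BigOperators
import Mathlib.Tactic

/-!
# Symmetric designs with a group of automorphisms

Counting lemmas for a symmetric design `(v, k, l)` with `l + 2 ≤ k` on which a group acts.
-/

set_option autoImplicit false
set_option linter.unusedSectionVars false

open Finset
open scoped Classical

namespace Cfsg.Lib.Perm.Ito

variable {G P B : Type*} [Group G] [MulAction G P] [MulAction G B] [Fintype P] [Fintype B]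

/-- A symmetric design with an action of `G`. -/
structure SD (G : Type*) {P B : Type*} [Group G] [MulAction G P] [MulAction G B] [Fintype P]
    [Fintype B] (I : P → B → Prop) (k l : ℕ) : Prop where
  eqv : ∀ (g : G) x b, I (g • x) (g • b) ↔ I x b
  kb : ∀ b, #{x | I x b} = k
  kp : ∀ x, #{b | I x b} = k
  lp : ∀ x y, x ≠ y → #{b | I x b ∧ I y b} = l
  lb : ∀ b c, b ≠ c → #{x | I x b ∧ I x c} = l
  card : Fintype.card P = Fintype.card B
  lt : l + 2 ≤ k

/-- indicator of the incidence relation -/
noncomputable def ind (I : P → B → Prop) (x : P) (b : B) : ℤ := if I x b then 1 else 0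

theorem sum_ind_left (I : P → B → Prop) (b : B) : ∑ x, ind I x b = (#{x | I x b} : ℕ) := by
  simp [ind]

theorem sum_ind_right (I : P → B → Prop) (x : P) : ∑ b, ind I x b = (#{b | I x b} : ℕ) := by
  simp [ind]

theorem sum_ind_mul_left (I : P → B → Prop) (b c : B) :
    ∑ x, ind I x b * ind I x c = (#{x | I x b ∧ I x c} : ℕ) := by
  simp [ind, ite_and, ← sum_boole]
  refine sum_congr rfl fun x _ => ?_
  split_ifs <;> rfl

theorem sum_ind_mul_right (I : P → B → Prop) (x y : P) :
    ∑ b, ind I x b * ind I y b = (#{b | I x b ∧ I y b} : ℕ) := by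
  simp [ind, ite_and, ← sum_boole]
  refine sum_congr rfl fun x _ => ?_
  split_ifs <;> rfl

theorem sum_ite_eq_const {X : Type*} [Fintype X] (x : X) (a b : ℤ) :
    ∑ y, (if x = y then a else b) = a + (Fintype.card X - 1) * b := by
  rw [← add_sum_erase _ _ (mem_univ x), if_pos rfl,
    sum_congr rfl fun y hy => if_neg (mem_erase.1 hy).1.symm, sum_const, card_erase_of_mem (mem_univ x),
    card_univ, nsmul_eq_mul, Nat.cast_sub (Fintype.card_pos_iff.2 ⟨x⟩)]
  simp

/-- the basic relation `l (v - 1) = k (k - 1)` -/
theorem basic_rel {I : P → B → Prop} {k l : ℕ} (kb : ∀ b, #{x | I x b} = k)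
    (kp : ∀ x, #{b | I x b} = k) (lp : ∀ x y, x ≠ y → #{b | I x b ∧ I y b} = l) (x : P) :
    (l : ℤ) * (Fintype.card P - 1) = k * (k - 1) := by
  have h1 : ∑ y, ∑ b, ind I x b * ind I y b = k + (Fintype.card P - 1) * (l : ℤ) := by
    rw [← sum_ite_eq_const x]
    refine sum_congr rfl fun y _ => ?_
    rw [sum_ind_mul_right]
    split_ifs with h
    · subst h; simp [kp]
    · rw [lp x y h]
  rw [sum_comm] at h1
  simp only [← mul_sum, sum_ind_left, kb, ← sum_mul, sum_ind_right, kp] at h1
  linarith

/-- two blocks meet in `l` points -/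
theorem lb_of {I : P → B → Prop} {k l : ℕ} (kb : ∀ b, #{x | I x b} = k)
    (kp : ∀ x, #{b | I x b} = k) (lp : ∀ x y, x ≠ y → #{b | I x b ∧ I y b} = l)
    (hc : Fintype.card P = Fintype.card B) (b c : B) (hbc : b ≠ c) :
    #{x | I x b ∧ I x c} = l := by
  rcases isEmpty_or_nonempty P with hP | ⟨⟨x0⟩⟩
  · have : Fintype.card B = 0 := by rw [← hc]; simp
    exact ((Fintype.card_eq_zero_iff.1 this).false b).elim
  have hr := basic_rel kb kp lp x0
  let m : B → ℤ := fun c => ∑ x, ind I x b * ind I x c
  have hmb : m b = k := by simp [m, sum_ind_mul_left, kb]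
  have h1 : ∑ c, m c = k * k := by
    simp only [m]
    rw [sum_comm]
    simp only [← mul_sum, sum_ind_right, kp, ← sum_mul, sum_ind_left, kb]
  have h2 : ∑ c, m c * m c = k * (k + (k - 1) * l) := by
    simp only [m, sum_mul_sum]
    rw [sum_comm]
    have : ∀ x, ∑ c, ∑ y, ind I x b * ind I x c * (ind I y b * ind I y c) =
        ind I x b * (k + (k - 1) * l) := fun x => by
      rw [sum_comm]
      have e : ∀ y, ∑ c, ind I x b * ind I x c * (ind I y b * ind I y c) =
          ind I x b * (ind I y b * l + if x = y then ind I y b * (k - l) else 0) := fun y => by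
        rw [sum_congr rfl fun c _ => show ind I x b * ind I x c * (ind I y b * ind I y c) =
          ind I x b * ind I y b * (ind I x c * ind I y c) by ring, ← mul_sum, sum_ind_mul_right]
        split_ifs with h
        · subst h; simp only [and_self, kp]; ring
        · rw [lp x y h]; ring
      simp only [e, ← mul_sum, sum_add_distrib, ← sum_mul, sum_ind_left, kb, sum_ite_eq, mem_univ,
        if_true]
      simp only [ind]
      split_ifs <;> ring
    simp only [this, ← sum_mul, sum_ind_left, kb]
  have h3 : ∑ c ∈ univ.erase b, (m c - l) ^ 2 = 0 := by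
    have e : ∑ c, (m c - l) ^ 2 = ∑ c, m c * m c - 2 * l * ∑ c, m c + Fintype.card B * l ^ 2 := by
      rw [mul_sum, ← sum_sub_distrib, ← card_univ, ← nsmul_eq_mul, ← sum_const, ← sum_add_distrib]
      exact sum_congr rfl fun c _ => by ring
    rw [← add_sum_erase _ _ (mem_univ b), h1, h2, hmb, ← hc] at e
    linear_combination e + l * hr
  have h4 := (sum_eq_zero_iff_of_nonneg fun c _ => sq_nonneg _).1 h3 c
    (mem_erase.2 ⟨hbc.symm, mem_univ _⟩)
  have h5 : m c = l := by
    have := pow_eq_zero_iff (two_ne_zero) |>.1 h4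
    linarith
  simp only [m, sum_ind_mul_left] at h5
  exact_mod_cast h5

namespace SD

variable {I : P → B → Prop} {k l : ℕ}

theorem dual (D : SD G I k l) : SD G (fun b x => I x b) k l :=
  ⟨fun g b x => D.eqv g x b, D.kp, D.kb, D.lb, D.lp, D.card.symm, D.lt⟩

theorem ind_smul (D : SD G I k l) (g : G) (x : P) (b : B) : ind I (g • x) (g • b) = ind I x b := by
  simp only [ind, D.eqv]

theorem sum_blk (D : SD G I k l) (b c : B) :
    ∑ x, ind I x b * ind I x c = if b = c then (k : ℤ) else l := by
  rw [sum_ind_mul_left]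
  split_ifs with h
  · subst h; simp [D.kb]
  · rw [D.lb b c h]

theorem sum_pt (D : SD G I k l) (x y : P) :
    ∑ b, ind I x b * ind I y b = if x = y then (k : ℤ) else l := D.dual.sum_blk x y

/-- an automorphism fixes as many points as blocks -/
theorem fix_eq (D : SD G I k l) (g : G) : #{x : P | g • x = x} = #{b : B | g • b = b} := by
  have h1 : ∑ x, ∑ b, ind I (g • x) (g • b) * ind I x (g • b) =
      (k - l : ℤ) * #{x : P | g • x = x} + l * Fintype.card P := by
    have : ∀ x, ∑ b, ind I (g • x) (g • b) * ind I x (g • b) =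
        (k - l : ℤ) * (if g • x = x then 1 else 0) + l := fun x => by
      rw [show ∑ b, ind I (g • x) (g • b) * ind I x (g • b) = _ from
        Equiv.sum_comp (MulAction.toPerm g) fun b => ind I (g • x) b * ind I x b, D.sum_pt]
      split_ifs <;> ring
    simp only [this, sum_add_distrib, ← mul_sum, sum_boole, sum_const, card_univ, nsmul_eq_mul]
    ring
  have h2 : ∑ b, ∑ x, ind I (g • x) (g • b) * ind I x (g • b) =
      (k - l : ℤ) * #{b : B | g • b = b} + l * Fintype.card B := by
    have : ∀ b, ∑ x, ind I (g • x) (g • b) * ind I x (g • b) =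
        (k - l : ℤ) * (if g • b = b then 1 else 0) + l := fun b => by
      simp only [D.ind_smul, D.sum_blk, eq_comm (a := b)]
      split_ifs <;> ring
    simp only [this, sum_add_distrib, ← mul_sum, sum_boole, sum_const, card_univ, nsmul_eq_mul]
    ring
  rw [sum_comm, h2, D.card] at h1
  have hkl : (k - l : ℤ) ≠ 0 := by have := D.lt; omega
  have := mul_left_cancel₀ hkl (add_right_cancel h1)
  exact_mod_cast this.symm

/-- blocks are determined by their points -/
theorem blk_eq (D : SD G I k l) {b c : B} (h : ∀ x, I x b → I x c) : b = c := by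
  by_contra hne
  have h1 := D.lb b c hne
  rw [filter_congr (q := fun x => I x b) fun x _ => ⟨fun h => h.1, fun hx => ⟨hx, h x hx⟩⟩,
    D.kb] at h1
  have := D.lt
  omega

theorem smul_blk_of_fix (D : SD G I k l) {g : G} {b : B} (h : ∀ x, I x b → g • x = x) :
    g • b = b :=
  (D.blk_eq fun x hx => by rw [← h x hx]; exact (D.eqv g x b).2 hx).symm

/-- A block moved by `g` contains at most `l` points `x` with `x ∈ c ∩ g c`: if `g` fixes the block
`b` pointwise these are exactly the points of `c ∩ b`. -/
theorem mem_of_mem_smul (D : SD G I k l) {g : G} {b c : B} (h : ∀ x, I x b → g • x = x)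
    (hc : g • c ≠ c) {x : P} (h1 : I x c) (h2 : I x (g • c)) : I x b := by
  have hcb : c ≠ b := fun e => hc (e ▸ D.smul_blk_of_fix h)
  have hsub : ({x | I x c ∧ I x b} : Finset P) ⊆ ({x | I x c ∧ I x (g • c)} : Finset P) :=
      fun y hy => by
    simp only [mem_filter, mem_univ, true_and] at hy ⊢
    exact ⟨hy.1, by rw [← h y hy.2]; exact (D.eqv g y c).2 hy.1⟩
  have := eq_of_subset_of_card_le hsub (by rw [D.lb _ _ hcb, D.lb _ _ hc.symm])
  have hx : x ∈ ({x | I x c ∧ I x (g • c)} : Finset P) := by simp [h1, h2]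
  rw [← this] at hx
  exact (mem_filter.1 hx).2.2

/-- an automorphism fixing two blocks pointwise is trivial on points -/
theorem fix_of_two (D : SD G I k l) {g : G} {b b' : B} (hb : b ≠ b') (h : ∀ x, I x b → g • x = x)
    (h' : ∀ x, I x b' → g • x = x) (u : P) : g • u = u := by
  by_contra hu
  -- non-fixed blocks through `u`
  have hcard : 2 ≤ #{c | I u c ∧ g • c ≠ c} := by
    have h1 : #{c | I u c ∧ g • c = c} ≤ l := by
      rw [← D.lp u (g • u) (Ne.symm hu)]
      refine card_le_card fun c hc => ?_
      simp only [mem_filter, mem_univ, true_and] at hc ⊢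
      exact ⟨hc.1, by rw [← hc.2]; exact (D.eqv g u c).2 hc.1⟩
    have h2 := card_filter_add_card_filter_not (s := ({c | I u c} : Finset B))
      (fun c => g • c = c)
    rw [D.kp, filter_filter, filter_filter] at h2
    have := D.lt
    simp only [ne_eq]
    omega
  obtain ⟨c, hc, c', hc', hcc⟩ := one_lt_card.1 hcard
  simp only [mem_filter, mem_univ, true_and] at hc hc'
  have key : ∀ c, g • c ≠ c → ∀ x, I x b ∧ I x b' → I x c := fun c hc => by
    have hcb : c ≠ b := fun e => hc (e ▸ D.smul_blk_of_fix h)
    have hsub : ({x | I x c ∧ I x b} : Finset P) ⊆ ({x | I x b ∧ I x b'} : Finset P) :=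
        fun y hy => by
      simp only [mem_filter, mem_univ, true_and] at hy ⊢
      exact ⟨hy.2, D.mem_of_mem_smul h' hc hy.1 (by rw [← h y hy.2]; exact (D.eqv g y c).2 hy.1)⟩
    have := eq_of_subset_of_card_le hsub (by rw [D.lb _ _ hcb, D.lb _ _ hb])
    intro x hx
    have hx' : x ∈ ({x | I x b ∧ I x b'} : Finset P) := by simp [hx]
    rw [← this] at hx'
    exact (mem_filter.1 hx').2.1
  have hsub : insert u ({x | I x b ∧ I x b'} : Finset P) ⊆ ({x | I x c ∧ I x c'} : Finset P) :=
      fun y hy => by
    simp only [mem_insert, mem_filter, mem_univ, true_and] at hy ⊢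
    rcases hy with rfl | hy
    · exact ⟨hc.1, hc'.1⟩
    · exact ⟨key c hc.2 y hy, key c' hc'.2 y hy⟩
  have := card_le_card hsub
  rw [card_insert_of_notMem (fun hu' => hu (h u (mem_filter.1 hu').2.1)), D.lb _ _ hb,
    D.lb _ _ hcc] at this
  omega

/-- an automorphism fixing `b` pointwise and a point `u` off `b` fixes all blocks through `u` -/
theorem fix_blk_of_fix_off (D : SD G I k l) {g : G} {b : B} (h : ∀ x, I x b → g • x = x) {u : P}
    (hu : ¬ I u b) (hg : g • u = u) (c : B) (hc : I u c) : g • c = c := by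
  by_contra hne
  exact hu (D.mem_of_mem_smul h hne hc (by rw [← hg]; exact (D.eqv g u c).2 hc))

/-- an automorphism fixing `b` pointwise and two points off `b` is trivial on blocks -/
theorem fix_of_two_off (D : SD G I k l) {g : G} {b : B} (h : ∀ x, I x b → g • x = x) {u u' : P}
    (huu : u ≠ u') (hu : ¬ I u b) (hu' : ¬ I u' b) (hg : g • u = u) (hg' : g • u' = u') (c : B) :
    g • c = c :=
  D.dual.fix_of_two huu (D.fix_blk_of_fix_off h hu hg) (D.fix_blk_of_fix_off h hu' hg') c

/-- an elation: whether it fixes a block depends only on the trace of the block on the axis -/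
theorem fix_of_trace (D : SD G I k l) {g : G} {b : B} (h : ∀ x, g • x = x ↔ I x b) {c e : B}
    (hc : c ≠ b) (he : e ≠ b) (hce : ∀ x, I x b → (I x c ↔ I x e)) (hg : g • c = c) :
    g • e = e := by
  let φ : B → ℤ := fun f => if g • f = f then 1 else 0
  have hφ : ∑ f, φ f = k := by
    simp only [φ, sum_boole, ← D.fix_eq g, h, D.kb]
  let r : P → ℤ := fun u => ∑ f, φ f * ind I u f
  have hr : ∀ u, ¬ I u b → r u = l := fun u hu => by
    have hne : u ≠ g • u := fun e => hu ((h u).1 e.symm)
    have := D.sum_pt u (g • u)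
    rw [if_neg hne] at this
    rw [← this]
    refine sum_congr rfl fun f _ => ?_
    simp only [φ, ind]
    by_cases h1 : I u f
    · by_cases h2 : g • f = f
      · have : I (g • u) f := by rw [← h2]; exact (D.eqv g u f).2 h1
        simp [h1, h2, this]
      · have : ¬ I (g • u) f := fun h3 => by
          have h4 := D.mem_of_mem_smul (fun x hx => (h x).2 hx) h2 h3 ((D.eqv g u f).2 h1)
          have h5 := (h _).2 h4
          exact hne (smul_left_cancel g h5).symm
        simp [h2, this]
    · simp [h1]
  have key : ∀ e, e ≠ b → ∑ u, ind I u e * ind I u b * r u = l * l + (k - l) * φ e := fun e he => by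
    have h1 : ∑ u, ind I u e * r u = k * l + (k - l) * φ e := by
      simp only [r, mul_sum]
      rw [sum_comm]
      have : ∀ f, ∑ u, ind I u e * (φ f * ind I u f) =
          φ f * l + if e = f then (k - l) * φ f else 0 := fun f => by
        rw [sum_congr rfl fun u _ => show ind I u e * (φ f * ind I u f) =
          φ f * (ind I u e * ind I u f) by ring, ← mul_sum, D.sum_blk]
        split_ifs <;> ring
      simp only [this, sum_add_distrib, ← sum_mul, hφ, sum_ite_eq, mem_univ, if_true]
    have h2 : ∑ u, ind I u e * r u = ∑ u, ind I u e * ind I u b * r u +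
        (∑ u, ind I u e - ∑ u, ind I u e * ind I u b) * l := by
      rw [← sum_sub_distrib, sum_mul, ← sum_add_distrib]
      refine sum_congr rfl fun u _ => ?_
      by_cases hu : I u b
      · simp [ind, hu]
      · rw [hr u hu]; simp [ind, hu]
    rw [D.sum_blk, if_neg he, sum_ind_left, D.kb] at h2
    linear_combination h1 - h2
  have h3 : ∑ u, ind I u c * ind I u b * r u = ∑ u, ind I u e * ind I u b * r u := by
    refine sum_congr rfl fun u _ => ?_
    by_cases hu : I u b
    · simp only [ind, hce u hu]
    · simp [ind, hu]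
  rw [key c hc, key e he] at h3
  have hkl : (k - l : ℤ) ≠ 0 := by have := D.lt; omega
  have h4 := mul_left_cancel₀ hkl (add_left_cancel h3)
  simp only [φ, hg, if_true] at h4
  by_contra hne
  simp [hne] at h4

end SD

end Cfsg.Lib.Perm.Ito
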