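import Cfsg.Agent.Perm.O6048Char
import Cfsg.Agent.Perm.PlaneElation
import Cfsg.Agent.Solv.FrobCount
import Cfsg.Agent.U3.OddMain

/-!
# A simple group of order 6048 is `PSU₃(3)`
-/

set_option autoImplicit false

open Cfsg Subgroup MulAction

namespace Cfsg.Lib.Perm.O6048

variable {G : Type*} [Group G]

theorem dvd_card_of_classes [Fintype G] (S : Finset G) {r : ℕ}
    (hS : ∀ g ∈ S, ∀ h, IsConj g h → h ∈ S)
    (hr : ∀ g ∈ S, r ∣ (centralizer ({g} : Set G)).index) : r ∣ S.card := by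
  classical
  rw [Finset.card_eq_sum_card_image ConjClasses.mk S]
  refine Finset.dvd_sum fun c hc => ?_
  obtain ⟨g, hg, rfl⟩ := Finset.mem_image.1 hc
  refine (hr g hg).trans (dvd_of_eq ?_)
  rw [← Char.card_isConj_eq_index, Nat.subtype_card]
  intro h
  simp only [Finset.mem_filter, ConjClasses.mk_eq_mk_iff_isConj]
  exact ⟨fun h => h.2.symm, fun h' => ⟨hS g hg h h', h'.symm⟩⟩

theorem inv_eq_sq {z : G} (hz : orderOf z = 3) : z⁻¹ = z ^ 2 := by
  rw [inv_eq_iff_mul_eq_one, ← pow_succ']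
  exact orderOf_dvd_iff_pow_eq_one.1 hz.dvd

theorem mem_zpowers_three [Finite G] {z w : G} (hz : orderOf z = 3) (h : w ∈ zpowers z) :
    w = 1 ∨ w = z ∨ w = z⁻¹ := by
  classical
  have h3 := mem_zpowers_iff_mem_range_orderOf.1 h
  simp only [hz, Finset.mem_image, Finset.mem_range] at h3
  obtain ⟨i, hi, rfl⟩ := h3
  rw [inv_eq_sq hz]
  interval_cases i <;> simp

theorem sum_zpowers_three [Finite G] {z : G} (hz : orderOf z = 3) [Fintype (zpowers z)]
    (f : G → ℤ) : ∑ x : zpowers z, f x = f 1 + f z + f z⁻¹ := by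
  have : ∑ i ∈ Finset.range (orderOf z), f (z ^ i) = ∑ x : zpowers z, f x := by
    rw [← Fin.sum_univ_eq_sum_range fun i => f (z ^ i)]
    exact Fintype.sum_equiv (finEquivZPowers (isOfFinOrder_of_finite z)) _ _ fun i => by
      rw [finEquivZPowers_apply]
  rw [← this, hz, inv_eq_sq hz]
  simp [Finset.sum_range_succ]

theorem sum_const_off (f : G → ℤ) (H : Subgroup G) [Fintype H] {k : ℤ}
    (h : ∀ x ∈ H, x ≠ 1 → f x = k) : ∑ x : H, f x = f 1 + k * (Nat.card H - 1) := by
  classical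
  rw [← Finset.add_sum_erase _ _ (Finset.mem_univ 1), Finset.sum_congr rfl
    (fun (a : H) ha => h a a.2 fun e => Finset.ne_of_mem_erase ha (Subtype.ext e)), Finset.sum_const,
    Finset.card_erase_of_mem (Finset.mem_univ _), Finset.card_univ, Nat.card_eq_fintype_card,
    nsmul_eq_mul, Nat.cast_sub Fintype.card_pos]
  simp [mul_comm]

/-- Nontrivial 3-elements. -/
def T3 (g : G) : Prop := g ≠ 1 ∧ g ^ 27 = 1

theorem T3.conj {g h : G} (hg : T3 g) (e : IsConj g h) : T3 h := by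
  obtain ⟨c, rfl⟩ := isConj_iff.1 e
  exact ⟨by simpa using hg.1, by rw [conj_pow, hg.2]; simp⟩

theorem T3.inv {g : G} (hg : T3 g) : T3 g⁻¹ := ⟨by simpa using hg.1, by simp [hg.2]⟩

theorem T3.order {g : G} (hg : T3 g) : ∃ k, orderOf g = 3 ^ k := by
  obtain ⟨i, -, h⟩ := (Nat.dvd_prime_pow Nat.prime_three).1
    (orderOf_dvd_of_pow_eq_one hg.2 : orderOf g ∣ 3 ^ 3)
  exact ⟨i, h⟩

theorem T3.ne_inv {g : G} (hg : T3 g) : g ≠ g⁻¹ := fun h => hg.1 <| by
  have h2 : g ^ 2 = 1 := by rw [sq]; nth_rw 1 [h]; exact inv_mul_cancel g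
  have := hg.2
  rwa [show 27 = 2 * 13 + 1 by rfl, pow_succ, pow_mul, h2, one_pow, one_mul] at this

variable [Fintype G] (hG : Nat.card G = 6048) {a : G → ℤ} (h : Chi a)

section
include hG

theorem card_syl3 (P : Sylow 3 G) : Nat.card (P : Subgroup G) = 27 := by
  rw [P.card_eq_multiplicity, hG,
    PrimeOne.factorization_eq (b := 3) Nat.prime_three (by norm_num) (by norm_num)]
  rfl

theorem t3_of_mem {P : Sylow 3 G} {g : G} (hg : g ∈ (P : Subgroup G)) (h1 : g ≠ 1) : T3 g :=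
  ⟨h1, by simpa [card_syl3 hG P] using
    congrArg Subtype.val (pow_card_eq_one' (x := (⟨g, hg⟩ : (P : Subgroup G))))⟩

end

omit [Fintype G] in
theorem T3.exists_sylow {g : G} (hg : T3 g) : ∃ P : Sylow 3 G, g ∈ (P : Subgroup G) := by
  obtain ⟨k, hk⟩ := hg.order
  obtain ⟨P, hP⟩ := (IsPGroup.of_card (by rw [Nat.card_zpowers, hk]) :
    IsPGroup 3 (zpowers g)).exists_le_sylow
  exact ⟨P, hP (mem_zpowers g)⟩

include h

theorem Chi.val {g : G} (hg : T3 g) : a g = -3 ∨ a g = 0 ∨ a g = 3 := by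
  obtain ⟨k, hk⟩ := hg.order
  have h1 := h.cong Nat.prime_three (Commute.one_right g) hk (by simp)
  have h2 := abs_lt.1 (h.lt hg.1)
  rw [mul_one, h.one] at h1
  omega

theorem Chi.inv (g : G) : a g⁻¹ = a g := by
  have h1 := orderOf_pos g
  rw [← h.pow g (m := orderOf g - 1) (by
    conv_rhs => rw [← Nat.sub_add_cancel h1]
    exact Nat.coprime_self_add_right.2 (Nat.coprime_one_right _))]
  congr 1
  rw [inv_eq_iff_mul_eq_one, ← pow_succ', Nat.sub_add_cancel h1, pow_orderOf_eq_one]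

theorem Chi.mul_eq_one {y k : G} (hy : T3 y) (hk : k ≠ 1) (hk8 : k ^ 8 = 1) (hc : Commute y k) :
    a (y * k) = 1 := by
  obtain ⟨i, hi⟩ := hy.order
  obtain ⟨j, -, hj⟩ := (Nat.dvd_prime_pow Nat.prime_two).1
    (orderOf_dvd_of_pow_eq_one hk8 : orderOf k ∣ 2 ^ 3)
  have h1 := hc.orderOf_mul_eq_mul_orderOf_of_coprime (by
    rw [hi, hj]; exact Nat.Coprime.pow _ _ (by norm_num))
  refine h.mixed (h1 ▸ Dvd.dvd.mul_left ?_ _) (h1 ▸ (three_dvd hy.1 hy.2).1.mul_right _)
  rw [hj]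
  refine dvd_pow_self _ ?_
  rintro rfl
  exact hk (orderOf_eq_one_iff.1 hj)

theorem Chi.not_comm {y k : G} (hy : T3 y) (h0 : a y = 0) (hk : k ≠ 1) (hk8 : k ^ 8 = 1) :
    ¬ Commute y k := fun hc => by
  obtain ⟨j, -, hj⟩ := (Nat.dvd_prime_pow Nat.prime_two).1
    (orderOf_dvd_of_pow_eq_one hk8 : orderOf k ∣ 2 ^ 3)
  have h1 := h.cong Nat.prime_two hc.symm hj (three_dvd hy.1 hy.2).2.1
  rw [← hc.eq, h.mul_eq_one hy hk hk8 hc, h0] at h1
  omega

include hG

theorem Chi.card_cent {y : G} (hy : T3 y) (h0 : a y = 0) :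
    Nat.card (centralizer ({y} : Set G)) ∣ 27 := by
  have h1 := card_subgroup_dvd_card (centralizer ({y} : Set G))
  rw [hG, show 6048 = 27 * (2 ^ 5 * 7) by norm_num] at h1
  refine Nat.Coprime.dvd_of_dvd_mul_right (Nat.Coprime.mul_right
    (((Nat.Prime.coprime_iff_not_dvd Nat.prime_two).2 fun h2 => ?_).symm.pow_right _)
    ((Nat.Prime.coprime_iff_not_dvd (by norm_num)).2 fun h7 => ?_).symm) h1
  · obtain ⟨t, ht⟩ := exists_prime_orderOf_dvd_card' 2 h2
    rw [← orderOf_coe] at ht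
    refine h.not_comm hy h0 (k := t) (fun e => by simp [e] at ht) ?_
      (mem_centralizer_singleton_iff.1 t.2).symm
    exact orderOf_dvd_iff_pow_eq_one.1 (by rw [ht]; norm_num)
  · exact (three_dvd hy.1 hy.2).2.2 (by rw [h.seven hy.1 h7])

open Classical in
theorem Chi.counts : (Finset.univ.filter fun g => T3 g ∧ a g = -3).card = 56 ∧
    (Finset.univ.filter fun g => T3 g ∧ a g = 0).card = 672 ∧ ∀ g, T3 g → a g ≠ 3 := by
  set A := Finset.univ.filter fun g => T3 g ∧ a g = -3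
  set B := Finset.univ.filter fun g => T3 g ∧ a g = 0
  set C := Finset.univ.filter fun g => T3 g ∧ a g = 3
  have key : ∀ f : ℤ → ℤ, ∑ g ∈ Finset.univ.filter (fun g : G => g ≠ 1 ∧ g ^ 27 = 1), f (a g) =
      A.card * f (-3) + B.card * f 0 + C.card * f 3 := fun f => by
    simp only [A, B, C, Finset.card_filter, Finset.sum_filter, Nat.cast_sum, Finset.sum_mul,
      ← Finset.sum_add_distrib]
    refine Finset.sum_congr rfl fun g _ => ?_
    by_cases hg : T3 g
    · rw [if_pos (show g ≠ 1 ∧ g ^ 27 = 1 from hg)]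
      rcases h.val hg with e | e | e <;> simp [hg, e]
    · rw [if_neg (show ¬ (g ≠ 1 ∧ g ^ 27 = 1) from hg)]
      simp [hg]
  have k1 := (key fun x => x - 1).symm.trans h.s1
  have k2 := (key fun x => (x - 1) * x).symm.trans h.s2
  have k3 := key fun _ => 1
  have k4 : 224 ∣ B.card := dvd_card_of_classes B (fun g hg x e => by
    simp only [B, Finset.mem_filter, Finset.mem_univ, true_and] at hg ⊢
    exact ⟨hg.1.conj e, h.conj e ▸ hg.2⟩) fun g hg => by
      simp only [B, Finset.mem_filter, Finset.mem_univ, true_and] at hg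
      obtain ⟨m, hm⟩ := h.card_cent hG hg.1 hg.2
      have h1 := card_mul_index (centralizer ({g} : Set G))
      refine ⟨m, Nat.eq_of_mul_eq_mul_left (Nat.card_pos (α := centralizer ({g} : Set G))) ?_⟩
      rw [h1, hG, mul_left_comm, ← hm]
      rfl
  have k5 := Solv.Frob.dvd_card_pow_eq_one (G := G) (n := 27) (by rw [hG]; norm_num)
  rw [Nat.subtype_card (insert 1 (Finset.univ.filter (fun g : G => g ≠ 1 ∧ g ^ 27 = 1)))
    (fun g => by by_cases hg : g = 1 <;> simp [hg]), Finset.card_insert_of_notMem (by simp)] at k5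
  simp only [Finset.sum_const, nsmul_eq_mul, mul_one] at k1 k2 k3
  have k6 : C.card = 0 := by omega
  refine ⟨by omega, by omega, fun g hg e => ?_⟩
  exact Finset.notMem_empty g (Finset.card_eq_zero.1 k6 ▸ (by simp [C, hg, e] : g ∈ C))

theorem Chi.val' {g : G} (hg : T3 g) : a g = -3 ∨ a g = 0 :=
  (h.val hg).imp_right fun e => e.resolve_right ((h.counts hG).2.2 g hg)

/-- Each Sylow 3-subgroup contains exactly two elements of the first type. -/
theorem Chi.exists_z (P : Sylow 3 G) [Fintype (P : Subgroup G)] :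
    ∑ x : (P : Subgroup G), a x = 0 ∧ ∃ z ∈ (P : Subgroup G), T3 z ∧ a z = -3 ∧
      ∀ w ∈ (P : Subgroup G), a w = -3 → w = z ∨ w = z⁻¹ := by
  classical
  set S := Finset.univ.filter fun x : (P : Subgroup G) => a x = -3
  have h1 : ∑ x : (P : Subgroup G), a x = 6 - 3 * S.card := by
    have : ∀ x : (P : Subgroup G), a x = (if x = 1 then 6 else 0) - 3 * if a x = -3 then 1 else 0 := by
      intro x
      by_cases hx : x = 1
      · simp [hx, h.one]
      · rcases h.val' hG (t3_of_mem hG x.2 fun e => hx (Subtype.ext e)) with e | e <;> simp [hx, e]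
    rw [Finset.sum_congr rfl fun x _ => this x, Finset.sum_sub_distrib, ← Finset.mul_sum]
    simp [S]
  obtain ⟨d, hd⟩ := h.fix (P : Subgroup G)
  rw [card_syl3 hG, h1] at hd
  have h2 : S.card = 2 := by omega
  refine ⟨by omega, ?_⟩
  obtain ⟨z, hz⟩ := Finset.card_pos.1 (by omega : 0 < S.card)
  have hz' := (Finset.mem_filter.1 hz).2
  have h3 : T3 (z : G) := t3_of_mem hG z.2 fun e => by rw [e, h.one] at hz'; omega
  refine ⟨z, z.2, h3, hz', fun w hw e => ?_⟩
  have h4 : ({z, z⁻¹} : Finset _) = S := Finset.eq_of_subset_of_card_le (by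
    intro x hx
    simp only [Finset.mem_insert, Finset.mem_singleton] at hx
    rcases hx with rfl | rfl
    · exact hz
    · simpa [S, h.inv] using hz') (by
      rw [h2, Finset.card_pair fun e => h3.ne_inv (congrArg Subtype.val e)])
  have h5 : (⟨w, hw⟩ : (P : Subgroup G)) ∈ S := by simpa [S] using e
  rw [← h4] at h5
  simpa [Subtype.ext_iff] using h5

theorem Chi.eq_or {P : Sylow 3 G} {z w : G} (hz : z ∈ (P : Subgroup G)) (hw : w ∈ (P : Subgroup G))
    (h1 : a z = -3) (h2 : a w = -3) : w = z ∨ w = z⁻¹ := by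
  have := Fintype.ofFinite (P : Subgroup G)
  obtain ⟨-, u, -, -, -, hu⟩ := h.exists_z hG P
  rcases hu z hz h1 with rfl | rfl <;> rcases hu w hw h2 with rfl | rfl <;> simp

theorem Chi.order_z {z : G} (hz : T3 z) (h1 : a z = -3) : orderOf z = 3 := by
  obtain ⟨P, hP⟩ := hz.exists_sylow
  have h2 := h.pow z (m := 2) ((Nat.Prime.coprime_iff_not_dvd Nat.prime_two).2
    (three_dvd hz.1 hz.2).2.1)
  rcases h.eq_or hG hP (pow_mem hP 2) h1 (h2.trans h1) with e | e
  · exact (hz.1 (by simpa [sq] using e)).elim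
  · exact orderOf_eq_prime (by rw [pow_succ, e, inv_mul_cancel]) hz.1

theorem Chi.conj_z {P : Sylow 3 G} {z g : G} (hz : z ∈ (P : Subgroup G)) (h1 : a z = -3)
    (hg : g * z * g⁻¹ ∈ (P : Subgroup G)) : Commute g z ∨ g * z * g⁻¹ = z⁻¹ :=
  (h.eq_or hG hz hg h1 ((h.conj (isConj_iff.2 ⟨g, rfl⟩)).symm.trans h1)).imp_left
    fun e => mul_inv_eq_iff_eq_mul.1 e

theorem Chi.comm_z {P : Sylow 3 G} {z g : G} (hz : z ∈ (P : Subgroup G)) (h1 : a z = -3)
    (hg : g ∈ (P : Subgroup G)) : Commute g z := by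
  refine (h.conj_z hG hz h1 (mul_mem (mul_mem hg hz) (inv_mem hg))).resolve_right fun e => ?_
  have hz1 : z ≠ 1 := fun e => by rw [e, h.one] at h1; omega
  have hg1 : g ≠ 1 := fun e' => (t3_of_mem hG hz hz1).ne_inv (by simpa [e'] using e)
  have h2 : Commute (g ^ 2) z := by
    have : g ^ 2 * z * (g ^ 2)⁻¹ = g * (g * z * g⁻¹) * g⁻¹ := by simp [sq, mul_assoc]
    rw [e, ← inv_inv (g * z⁻¹ * g⁻¹), show (g * z⁻¹ * g⁻¹)⁻¹ = g * z * g⁻¹ by group, e,
      inv_inv] at this
    exact mul_inv_eq_iff_eq_mul.1 this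
  have h3 := h2.pow_left 14
  rw [← pow_mul, show 2 * 14 = 27 + 1 by rfl, pow_succ, (t3_of_mem hG hg hg1).2, one_mul] at h3
  rw [h3.eq, mul_inv_cancel_right] at e
  exact (t3_of_mem hG hz hz1).ne_inv e

/-- An element of the first type lies in a unique Sylow 3-subgroup. -/
theorem Chi.mem_of_comm {P : Sylow 3 G} {z y : G} (hz : z ∈ (P : Subgroup G)) (h1 : a z = -3)
    (hy : T3 y) (h0 : a y = 0) (hc : Commute y z) : y ∈ (P : Subgroup G) := by
  classical
  obtain ⟨cA, cB, -⟩ := h.counts hG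
  set A := Finset.univ.filter fun g => T3 g ∧ a g = -3
  set B := Finset.univ.filter fun g => T3 g ∧ a g = 0
  have k1 := Finset.sum_card_bipartiteAbove_eq_sum_card_bipartiteBelow (s := A) (t := B)
    fun z y => Commute y z
  have k2 : ∀ y ∈ B, (A.bipartiteBelow (fun z y => Commute y z) y).card ≤ 2 := by
    intro y hy
    simp only [B, Finset.mem_filter, Finset.mem_univ, true_and] at hy
    obtain ⟨i, -, hi⟩ := (Nat.dvd_prime_pow (m := 3) Nat.prime_three).1
      (h.card_cent hG hy.1 hy.2)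
    obtain ⟨Q, hQ⟩ := (IsPGroup.of_card hi).exists_le_sylow
    have := Fintype.ofFinite (Q : Subgroup G)
    obtain ⟨-, u, -, -, -, hu⟩ := h.exists_z hG Q
    refine (Finset.card_le_card fun w hw => ?_).trans (Finset.card_le_two (a := u) (b := u⁻¹))
    simp only [Finset.mem_bipartiteBelow, A, Finset.mem_filter] at hw
    simpa using hu w (hQ (mem_centralizer_singleton_iff.2 hw.2.symm)) hw.1.2.2
  have k3 : ∀ {Q : Sylow 3 G} {z : G}, z ∈ (Q : Subgroup G) → a z = -3 →
      (B.filter (· ∈ (Q : Subgroup G))).card = 24 ∧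
      B.filter (· ∈ (Q : Subgroup G)) ⊆ B.bipartiteAbove (fun z y => Commute y z) z := by
    intro Q z hz h1
    have hz1 : z ≠ 1 := fun e => by rw [e, h.one] at h1; omega
    have hz3 := t3_of_mem hG hz hz1
    refine ⟨?_, fun y hy => ?_⟩
    · have e1 : (Finset.univ.filter (· ∈ (Q : Subgroup G))).card = 27 := by
        rw [← card_syl3 hG Q, Nat.subtype_card]
        simp
      have e2 : Finset.univ.filter (· ∈ (Q : Subgroup G)) =
          insert 1 (insert z (insert z⁻¹ (B.filter (· ∈ (Q : Subgroup G))))) := by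
        ext w
        simp only [B, Finset.mem_filter, Finset.mem_univ, true_and, Finset.mem_insert]
        refine ⟨fun hw => ?_, ?_⟩
        · by_cases hw1 : w = 1
          · exact Or.inl hw1
          rcases h.val' hG (t3_of_mem hG hw hw1) with e | e
          · exact Or.inr ((h.eq_or hG hz hw h1 e).imp_right Or.inl)
          · exact Or.inr (Or.inr (Or.inr ⟨⟨t3_of_mem hG hw hw1, e⟩, hw⟩))
        · rintro (rfl | rfl | rfl | hw)
          exacts [one_mem _, hz, inv_mem hz, hw.2]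
      rw [e2, Finset.card_insert_of_notMem (by simp [B, show ¬ T3 (1 : G) from fun h => h.1 rfl, hz1, hz1.symm]),
        Finset.card_insert_of_notMem (by simp [B, hz3.ne_inv, h1]),
        Finset.card_insert_of_notMem (by simp [B, h.inv, h1])] at e1
      omega
    · rw [Finset.mem_filter] at hy
      exact (Finset.mem_bipartiteAbove _).2 ⟨hy.1, h.comm_z hG hz h1 hy.2⟩
  have k4 : ∀ z ∈ A, 24 ≤ (B.bipartiteAbove (fun z y => Commute y z) z).card := by
    intro z hz
    simp only [A, Finset.mem_filter, Finset.mem_univ, true_and] at hz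
    obtain ⟨Q, hQ⟩ := hz.1.exists_sylow
    exact (k3 hQ hz.2).1 ▸ Finset.card_le_card (k3 hQ hz.2).2
  have k5 := Finset.sum_le_card_nsmul _ _ _ k2
  have hzA : z ∈ A := by
    simp only [A, Finset.mem_filter, Finset.mem_univ, true_and]
    exact ⟨t3_of_mem hG hz fun e => by rw [e, h.one] at h1; omega, h1⟩
  have k6 := Finset.card_nsmul_le_sum (A.erase z) _ _ fun w hw => k4 w (Finset.mem_of_mem_erase hw)
  rw [← k1, ← Finset.add_sum_erase _ _ hzA, cB] at k5
  rw [Finset.card_erase_of_mem hzA, cA] at k6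
  simp only [smul_eq_mul] at k5 k6
  have k7 := Finset.eq_of_subset_of_card_le (k3 hz h1).2 (by rw [(k3 hz h1).1]; omega)
  have : y ∈ B.bipartiteAbove (fun z y => Commute y z) z :=
    (Finset.mem_bipartiteAbove _).2 ⟨by simp [B, hy, h0], hc⟩
  rw [← k7] at this
  exact (Finset.mem_filter.1 this).2

theorem Chi.eq_of_z {P Q : Sylow 3 G} {z : G} (hP : z ∈ (P : Subgroup G))
    (hQ : z ∈ (Q : Subgroup G)) (h1 : a z = -3) : P = Q := by
  refine Sylow.ext (eq_of_le_of_card_ge (fun w hw => ?_) (by rw [card_syl3 hG, card_syl3 hG]))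
  by_cases hw1 : w = 1
  · exact hw1 ▸ one_mem _
  rcases h.val' hG (t3_of_mem hG hw hw1) with e | e
  · rcases h.eq_or hG hP hw h1 e with rfl | rfl
    exacts [hQ, inv_mem hQ]
  · exact h.mem_of_comm hG hQ h1 (t3_of_mem hG hw hw1) e (h.comm_z hG hP h1 hw)

theorem Chi.ti {P Q : Sylow 3 G} {y : G} (hP : y ∈ (P : Subgroup G))
    (hQ : y ∈ (Q : Subgroup G)) (h1 : y ≠ 1) : P = Q := by
  have hy := t3_of_mem hG hP h1
  rcases h.val' hG hy with e | e
  · exact h.eq_of_z hG hP hQ e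
  have := Fintype.ofFinite (P : Subgroup G)
  have := Fintype.ofFinite (Q : Subgroup G)
  obtain ⟨-, u, u1, -, u2, -⟩ := h.exists_z hG P
  obtain ⟨-, v, v1, -, v2, -⟩ := h.exists_z hG Q
  obtain ⟨i, -, hi⟩ := (Nat.dvd_prime_pow (m := 3) Nat.prime_three).1 (h.card_cent hG hy e)
  obtain ⟨R, hR⟩ := (IsPGroup.of_card hi).exists_le_sylow
  exact (h.eq_of_z hG u1 (hR (mem_centralizer_singleton_iff.2 (h.comm_z hG u1 u2 hP).symm))
    u2).trans (h.eq_of_z hG (hR (mem_centralizer_singleton_iff.2 (h.comm_z hG v1 v2 hQ).symm))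
      v1 v2)

theorem Chi.free {P Q : Sylow 3 G} (hne : Q ≠ P) {x : G} (hx : x ∈ (P : Subgroup G))
    (e : x • Q = Q) : x = 1 := by
  by_contra h1
  have h2 : zpowers x ≤ normalizer ((Q : Subgroup G) : Set G) :=
    zpowers_le.2 (Sylow.smul_eq_iff_mem_normalizer.1 e)
  have h3 := IsPGroup.inf_normalizer_sylow (P.isPGroup'.to_le (zpowers_le.2 hx)) Q
  exact hne (h.ti hG (h3.le ⟨mem_zpowers x, h2 (mem_zpowers x)⟩).2 hx h1)

omit h in
theorem exists_ne [IsSimpleGroup G] (P : Sylow 3 G) : ∃ Q : Sylow 3 G, Q ≠ P := by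
  have := Finite.one_lt_card_iff_nontrivial.1
    (PrimeOne.one_lt_card_sylow (not_comm hG) (p := 3) (by rw [hG]; norm_num))
  exact _root_.exists_ne P

omit h hG [Fintype G] in
theorem fix_of_mem {P : Sylow 3 G} {x : G} (hx : x ∈ (P : Subgroup G)) : x • P = P :=
  Sylow.smul_eq_iff_mem_normalizer.2 (le_normalizer hx)

theorem Chi.trans {P Q : Sylow 3 G} (hne : Q ≠ P) : Nat.card (Sylow 3 G) = 28 ∧
    ∀ R, R ≠ P → ∃ x ∈ (P : Subgroup G), x • Q = R := by
  classical
  let f : ↥(P : Subgroup G) → ({P}ᶜ : Set (Sylow 3 G)) := fun u => ⟨(u : G) • Q, fun e =>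
    hne (MulAction.injective (u : G) (Eq.trans e (fix_of_mem u.2).symm))⟩
  have hf : Function.Injective f := fun u v e => by
    have h1 : (u : G) • Q = (v : G) • Q := congrArg Subtype.val e
    rw [← inv_smul_eq_iff, ← mul_smul] at h1
    exact Subtype.ext (inv_mul_eq_one.1 (h.free hG hne (mul_mem (inv_mem v.2) u.2) h1)).symm
  have h1 := Nat.card_le_card_of_injective f hf
  have hc : Nat.card ({P}ᶜ : Set (Sylow 3 G)) = Nat.card (Sylow 3 G) - 1 := by
    rw [Nat.card_coe_set_eq, Set.ncard_compl, Set.ncard_singleton]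
  have h2 : ∀ R : Sylow 3 G, ∃ z : (Finset.univ.filter fun g => T3 g ∧ a g = -3),
      (z : G) ∈ (R : Subgroup G) := fun R => by
    have := Fintype.ofFinite (R : Subgroup G)
    obtain ⟨-, u, u1, u2, u3, -⟩ := h.exists_z hG R
    exact ⟨⟨u, by simp [u2, u3]⟩, u1⟩
  choose z hz using h2
  have h3 := Nat.card_le_card_of_injective z fun R S e =>
    h.eq_of_z hG (hz R) (e ▸ hz S) (Finset.mem_filter.1 (z R).2).2.2
  rw [Nat.card_eq_fintype_card (α := Finset.univ.filter _), Fintype.card_coe,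
    (h.counts hG).1] at h3
  have h4 := card_sylow_modEq_one 3 G
  have h5 := P.card_dvd_index
  have h6 := card_mul_index (P : Subgroup G)
  rw [card_syl3 hG] at h1 h6
  rw [show (P : Subgroup G).index = 224 by omega] at h5
  have h7 : Nat.card (Sylow 3 G) = 28 := by
    rw [hc] at h1
    unfold Nat.ModEq at h4
    generalize Nat.card (Sylow 3 G) = n at *
    have : 28 ≤ n := by omega
    interval_cases n <;> omega
  refine ⟨h7, fun R hR => ?_⟩
  obtain ⟨u, hu⟩ := (hf.bijective_of_nat_card_le (by rw [hc, h7, card_syl3 hG])).2 ⟨R, hR⟩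
  exact ⟨u, u.2, congrArg Subtype.val hu⟩

theorem Chi.card_H {P Q : Sylow 3 G} (hne : Q ≠ P) :
    Nat.card ↥(stabilizer G P ⊓ stabilizer G Q) = 8 := by
  obtain ⟨h1, h2⟩ := h.trans hG hne
  have h3 := Plane.card_eq_ncard_orbit_mul (stabilizer G P) Q
  have h4 : orbit (stabilizer G P) Q = {P}ᶜ := by
    ext R
    refine ⟨?_, fun hR => ?_⟩
    · rintro ⟨g, rfl⟩ e
      exact hne (MulAction.injective (g : G) (Eq.trans e (mem_stabilizer_iff.1 g.2).symm))
    · obtain ⟨x, hx, e⟩ := h2 R hR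
      exact ⟨⟨x, fix_of_mem hx⟩, e⟩
  have h5 := card_mul_index (stabilizer G P)
  rw [Sylow.stabilizer_eq_normalizer, ← P.card_eq_index_normalizer, h1, hG,
    ← Sylow.stabilizer_eq_normalizer, h3, h4, Set.ncard_compl, Set.ncard_singleton, h1] at h5
  omega

theorem Chi.cyc {P : Sylow 3 G} {H : Subgroup G} (hH : Nat.card H = 8)
    (hn : ∀ k ∈ H, ∀ x ∈ (P : Subgroup G), k * x * k⁻¹ ∈ (P : Subgroup G)) : IsCyclic H := by
  classical
  have := Fintype.ofFinite (P : Subgroup G)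
  obtain ⟨hs, z, hz, hz3, hza, hu⟩ := h.exists_z hG P
  have oz := h.order_z hG hz3 hza
  have h8 : ∀ k ∈ H, k ^ 8 = 1 := fun k hk =>
    orderOf_dvd_iff_pow_eq_one.1 (hH ▸ Subgroup.orderOf_dvd_natCard H hk)
  have c1 : ∀ k ∈ H, k ≠ 1 → ∀ y ∈ (P : Subgroup G), Commute y k → y = 1 ∨ y = z ∨ y = z⁻¹ := by
    intro k hk hk1 y hy hc
    by_cases hy1 : y = 1
    · exact Or.inl hy1
    exact Or.inr (hu y hy ((h.val' hG (t3_of_mem hG hy hy1)).resolve_right fun e =>
      h.not_comm (t3_of_mem hG hy hy1) e hk1 (h8 k hk) hc))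
  obtain ⟨k, hk, hkz⟩ : ∃ k ∈ H, k * z * k⁻¹ = z⁻¹ := by
    by_contra! hc
    have := Fintype.ofFinite H
    have := Fintype.ofFinite (zpowers z)
    obtain ⟨d, hd⟩ := h.fix H
    rw [sum_const_off (k := -2) a H fun k hk hk1 => by
      have h1 := (h.conj_z hG hz hza (hn k hk z hz)).resolve_right (hc k hk)
      have h2 := h.coset (zpowers z) (by rw [sum_zpowers_three oz, h.inv, hza, h.one]; rfl) k
      rw [sum_zpowers_three oz fun x => a (x * k), h.mul_eq_one hz3 hk1 (h8 k hk) h1.symm,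
        h.mul_eq_one hz3.inv hk1 (h8 k hk) h1.symm.inv_left, one_mul] at h2
      omega, hH, h.one] at hd
    omega
  have hnc : ¬ Commute z k := fun hc => by
    rw [← hc.eq, mul_inv_cancel_right] at hkz
    exact hz3.ne_inv hkz
  have hk1 : k ≠ 1 := fun e => hnc (e ▸ Commute.one_right z)
  have c2 : ∀ y ∈ (P : Subgroup G), Commute y k → y = 1 := fun y hy hc => by
    rcases c1 k hk hk1 y hy hc with e | rfl | rfl
    · exact e
    · exact (hnc hc).elim
    · exact (hnc (by simpa using hc)).elim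
  have c3 : a k = 0 := by
    let f : ↥(P : Subgroup G) → ↥(P : Subgroup G) := fun w =>
      ⟨w * (k * (w : G)⁻¹ * k⁻¹), mul_mem w.2 (hn k hk _ (inv_mem w.2))⟩
    have hf : Function.Injective f := fun u v e => by
      have h1 : (u : G) * (k * (u : G)⁻¹ * k⁻¹) = v * (k * (v : G)⁻¹ * k⁻¹) := congrArg Subtype.val e
      refine Subtype.ext (inv_mul_eq_one.1 (c2 _ (mul_mem (inv_mem v.2) u.2) ?_)).symm
      calc (v : G)⁻¹ * u * k = (v : G)⁻¹ * (u * (k * (u : G)⁻¹ * k⁻¹)) * (k * u) := by group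
        _ = _ := by rw [h1]; group
    have h1 := h.coset _ hs k
    rw [Finset.sum_congr rfl (g := fun _ => a k) fun x _ => by
      obtain ⟨w, rfl⟩ := Finite.surjective_of_injective hf x
      exact (h.conj (isConj_iff.2 ⟨w, by simp [f, mul_assoc]⟩)).symm] at h1
    simpa using h1
  have h2 : ¬ k ^ 2 = 1 := fun e => h.two (orderOf_eq_prime e hk1) c3
  have h4 : ¬ k ^ 4 = 1 := by
    intro e
    set t := k ^ 2 with ht
    have htH : t ∈ H := pow_mem hk 2
    have tt : t * t = 1 := by rw [ht, ← pow_add, e]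
    have ti : t⁻¹ = t := inv_eq_of_mul_eq_one_right tt
    have tz : t * z * t⁻¹ = z := by
      calc t * z * t⁻¹ = k * (k * z * k⁻¹) * k⁻¹ := by simp [ht, sq, mul_assoc]
        _ = z := by rw [hkz, ← conj_inv, hkz, inv_inv]
    have hcz : Nat.card (zpowers z) = 3 := by rw [Nat.card_zpowers, oz]
    have hB : ∀ y ∈ (P : Subgroup G), y ≠ 1 → t * y * t⁻¹ = y⁻¹ → a y = 0 := by
      intro y hy hy1 hi
      refine (h.val' hG (t3_of_mem hG hy hy1)).resolve_left fun e => ?_
      rcases hu y hy e with rfl | rfl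
      · exact hz3.ne_inv (tz.symm.trans hi)
      · rw [← conj_inv, tz] at hi
        exact hz3.inv.ne_inv hi
    obtain ⟨x, hx, hxz⟩ : ∃ x ∈ (P : Subgroup G), x ∉ zpowers z := by
      by_contra! hc
      have := card_le_of_le (show (P : Subgroup G) ≤ zpowers z from hc)
      rw [hcz, card_syl3 hG] at this
      omega
    obtain ⟨y, hy, hy1, hyt⟩ : ∃ y ∈ (P : Subgroup G), y ≠ 1 ∧ t * y * t⁻¹ = y⁻¹ := by
      refine ⟨x⁻¹ * (t * x * t⁻¹), mul_mem (inv_mem hx) (hn t htH x hx), fun e => hxz ?_, ?_⟩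
      · have h3 : Commute x t := (mul_inv_eq_iff_eq_mul.1 (inv_mul_eq_one.1 e).symm).symm
        rcases c1 t htH h2 x hx h3 with rfl | rfl | rfl
        exacts [one_mem _, mem_zpowers _, inv_mem (mem_zpowers _)]
      · calc _ = t * x⁻¹ * t * x * (t * t)⁻¹ := by group
          _ = t * x⁻¹ * t⁻¹ * x := by rw [tt, ti]; simp
          _ = _ := by group
    set w := k * y * k⁻¹ with hw
    have hwP : w ∈ (P : Subgroup G) := hn k hk y hy
    have kw : k * w * k⁻¹ = y⁻¹ := by rw [← hyt]; simp [hw, ht, sq, mul_assoc]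
    have tw : t * w * t⁻¹ = w⁻¹ := by
      calc t * w * t⁻¹ = k * (t * y * t⁻¹) * k⁻¹ := by simp [hw, ht, sq, mul_assoc]
        _ = _ := by rw [hyt, hw]; group
    have hc : y * w * y⁻¹ * w⁻¹ ∈ zpowers z := by
      let Z := (zpowers z).subgroupOf (P : Subgroup G)
      have hZ : Z.Normal := ⟨fun n hn g => by
        obtain ⟨i, hi⟩ := mem_zpowers_iff.1 (mem_subgroupOf.1 hn)
        have h5 : Commute (g : G) n := hi ▸ (h.comm_z hG hz hza g.2).zpow_right i
        rwa [show g * n * g⁻¹ = n from Subtype.ext (mul_inv_eq_iff_eq_mul.2 h5)]⟩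
      have h5 := Z.card_eq_card_quotient_mul_card_subgroup
      rw [card_syl3 hG, Nat.card_congr (subgroupOfEquivOfLe (zpowers_le.2 hz)).toEquiv, hcz] at h5
      have h6 := (IsPGroup.isMulCommutative_of_card_eq_prime_sq (p := 3) (G := _ ⧸ Z)
        (by omega)).is_comm.comm (QuotientGroup.mk ⟨y, hy⟩) (QuotientGroup.mk ⟨w, hwP⟩)
      rw [← mul_inv_eq_one, mul_inv_rev, ← mul_assoc] at h6
      simp only [← QuotientGroup.mk_inv, ← QuotientGroup.mk_mul, QuotientGroup.eq_one_iff] at h6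
      exact mem_subgroupOf.1 h6
    have hyw : Commute y w := by
      have h5 : Commute y (y * w * y⁻¹ * w⁻¹) := by
        obtain ⟨i, hi⟩ := mem_zpowers_iff.1 hc
        exact hi ▸ (h.comm_z hG hz hza hy).zpow_right i
      have h6 := c2 _ (mul_mem (mul_mem (mul_mem hy hwP) (inv_mem hy)) (inv_mem hwP)) (by
        refine (mul_inv_eq_iff_eq_mul.1 ?_).symm
        calc _ = (k * y * k⁻¹) * (k * w * k⁻¹) * (k * y * k⁻¹)⁻¹ * (k * w * k⁻¹)⁻¹ := by group
          _ = y⁻¹ * (y * w * y⁻¹ * w⁻¹ * y) := by rw [kw, ← hw]; group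
          _ = _ := by rw [← h5.eq]; group)
      exact commutatorElement_eq_one_iff_commute.1 h6
    let D := (P : Subgroup G) ⊓ centralizer {y} ⊓ centralizer {w}
    let A : Subgroup G :=
      { carrier := {x | x ∈ D ∧ (∀ u ∈ D, Commute x u) ∧ t * x * t⁻¹ = x⁻¹}
        one_mem' := ⟨one_mem _, fun u _ => Commute.one_left u, by simp⟩
        mul_mem' := fun {u v} hu hv => ⟨mul_mem hu.1 hv.1,
          fun s hs => (hu.2.1 s hs).mul_left (hv.2.1 s hs), by
            rw [(hu.2.1 v hv.1).eq, mul_inv_rev, ← hu.2.2, ← hv.2.2, ← (hu.2.1 v hv.1).eq]; group⟩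
        inv_mem' := fun {u} hu => ⟨inv_mem hu.1, fun s hs => (hu.2.1 s hs).inv_left, by
          rw [← conj_inv, hu.2.2]⟩ }
    have yA : y ∈ A := ⟨⟨⟨hy, mem_centralizer_singleton_iff.2 rfl⟩,
      mem_centralizer_singleton_iff.2 hyw⟩,
      fun u hu => (mem_centralizer_singleton_iff.1 hu.1.2).symm, hyt⟩
    have wA : w ∈ A := ⟨⟨⟨hwP, mem_centralizer_singleton_iff.2 hyw.symm⟩,
      mem_centralizer_singleton_iff.2 rfl⟩,
      fun u hu => (mem_centralizer_singleton_iff.1 hu.2).symm, tw⟩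
    have := Fintype.ofFinite A
    obtain ⟨d, hd⟩ := h.fix A
    rw [sum_const_off (k := 0) a A fun x hx hx1 => hB x hx.1.1.1 hx1 hx.2.2, h.one, zero_mul,
      add_zero] at hd
    have h5 : Nat.card A ∣ 27 := card_syl3 hG P ▸ card_dvd_of_le fun x hx => hx.1.1.1
    have h6 : Nat.card A ∣ 3 := by
      simpa using Nat.dvd_gcd h5 (⟨d, by rw [mul_comm]; exact_mod_cast hd⟩ : Nat.card A ∣ 6)
    have h7 : orderOf y = 3 := ((Nat.dvd_prime Nat.prime_three).1
      ((Subgroup.orderOf_dvd_natCard A yA).trans h6)).resolve_left (by simpa using hy1)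
    have h9 : zpowers y = A := eq_of_le_of_card_ge (zpowers_le.2 yA) (by
      rw [Nat.card_zpowers, h7]; exact Nat.le_of_dvd (by norm_num) h6)
    have hy3 := t3_of_mem hG hy hy1
    rcases mem_zpowers_three h7 (h9.ge wA) with e | e | e
    · exact hy1 (by simpa [hw] using e)
    · rw [e, ← hw, e] at kw
      exact hy3.ne_inv kw
    · rw [e, ← conj_inv, ← hw, e] at kw
      exact hy3.inv.ne_inv kw.symm
  refine isCyclic_of_orderOf_eq_card ⟨k, hk⟩ ?_
  rw [hH, orderOf_mk]
  exact orderOf_eq_prime_pow (p := 2) (n := 2) h4 (h8 k hk)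

omit h [Fintype G] in
/-- A simple group of order 6048 is `PSU₃(3)`. -/
theorem nonempty_equiv [Finite G] [IsSimpleGroup G] {E : Type*} [Field E] [Fintype E]
    (hE : Fintype.card E = 9) : Nonempty (G ≃* PSU 3 E 3) := by
  have := Fintype.ofFinite G
  obtain ⟨a, h⟩ := exists_Chi hG
  obtain ⟨P⟩ : Nonempty (Sylow 3 G) := inferInstance
  obtain ⟨Q, hne⟩ := exists_ne hG P
  have hn : ∀ g : G, g • P = P → ∀ x ∈ (P : Subgroup G), g * x * g⁻¹ ∈ (P : Subgroup G) :=
    fun g hg x hx => (mem_normalizer_iff.1 (Sylow.smul_eq_iff_mem_normalizer.1 hg) x).1 hx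
  let D : U3.OData G (Sylow 3 G) :=
    { a := P
      b := Q
      U := P
      p := 3
      n := 1
      hp := Nat.prime_three
      hp2 := by norm_num
      hn := le_rfl
      ne := hne
      tr := exists_smul_eq G P
      U_fix := fun x hx => fix_of_mem hx
      norm := hn
      trans := (h.trans hG hne).2
      free := fun x hx e => h.free hG hne hx e
      card_U := card_syl3 hG P
      cyc := h.cyc hG (h.card_H hG hne) fun k hk => hn k hk.1
      card_H := by rw [h.card_H hG hne]; rfl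
      faith := fun g hg => by
        rcases (toPermHom G (Sylow 3 G)).normal_ker.eq_bot_or_eq_top with h1 | h1
        · exact (h1.le (show g ∈ _ from Equiv.ext hg) : g ∈ (⊥ : Subgroup G))
        · obtain ⟨s, hs⟩ := exists_smul_eq G P Q
          exact (hne (hs.symm.trans (DFunLike.congr_fun (show s ∈ (toPermHom G (Sylow 3 G)).ker
            from h1 ▸ Subgroup.mem_top _) P))).elim }
  exact D.nonempty_equiv hE

end Cfsg.Lib.Perm.O6048
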