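import Cfsg.Agent.PrimeOne.A7Chi

/-!
# Simple groups of order 6048: the principal 7-block and the character of degree 6
-/

set_option autoImplicit false

open Cfsg Subgroup Cfsg.Lib.Char Cfsg.Lib.Known Cfsg.Lib.Spor.CKit Cfsg.Lib.PrimeOne
open Cfsg.Lib.Block hiding dg dg_cast

namespace Cfsg.Lib.Perm.O6048

open Princ

instance fact7 : Fact (Nat.Prime 7) := ⟨by norm_num⟩
instance fact3 : Fact (Nat.Prime 3) := ⟨by norm_num⟩

theorem dec_deg : ∀ d ∈ Nat.divisors 864, d ≠ 1 → d ^ 2 ≤ 6048 →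
    (d % 7 = 1 → d = 8 ∨ d = 36) ∧ (d % 7 = 6 → d = 6 ∨ d = 27 ∨ d = 48) ∧
      (d % 7 = 3 → d = 3 ∨ d = 24) ∧ (d % 7 = 4 → d = 4 ∨ d = 18 ∨ d = 32) := by decide +kernel

theorem arith7 {x y u : ℕ} {a b ε : ℤ} (hε : ε = 1 ∨ ε = -1) (f1 : a = 1 ∨ a = -1)
    (f4 : b = 1 ∨ b = -1) (e1 : ε * u = 1 + (a * x + b * y))
    (e2 : (u : ℤ) % 7 = ε * 3 % 7) (f2 : (x : ℤ) % 7 = a % 7) (f5 : (y : ℤ) % 7 = b % 7)
    (d1 : (x % 7 = 1 → x = 8 ∨ x = 36) ∧ (x % 7 = 6 → x = 6 ∨ x = 27 ∨ x = 48))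
    (d2 : (y % 7 = 1 → y = 8 ∨ y = 36) ∧ (y % 7 = 6 → y = 6 ∨ y = 27 ∨ y = 48))
    (d3 : (u % 7 = 3 → u = 3 ∨ u = 24) ∧ (u % 7 = 4 → u = 4 ∨ u = 18 ∨ u = 32))
    (hxy : x ≤ y) :
    (x = 6 ∧ a = -1 ∧ y = 8 ∧ b = 1 ∧ u = 3 ∧ ε = 1) ∨
      (x = 8 ∧ a = 1 ∧ y = 27 ∧ b = -1 ∧ u = 18 ∧ ε = -1) ∨
      (x = 6 ∧ a = -1 ∧ y = 27 ∧ b = -1 ∧ u = 32 ∧ ε = -1) := by
  have h1 : (a = 1 ∧ (x = 8 ∨ x = 36)) ∨ (a = -1 ∧ (x = 6 ∨ x = 27 ∨ x = 48)) :=
    f1.imp (fun h => ⟨h, d1.1 (by clear * - h f2; omega)⟩)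
      fun h => ⟨h, d1.2 (by clear * - h f2; omega)⟩
  have h2 : (b = 1 ∧ (y = 8 ∨ y = 36)) ∨ (b = -1 ∧ (y = 6 ∨ y = 27 ∨ y = 48)) :=
    f4.imp (fun h => ⟨h, d2.1 (by clear * - h f5; omega)⟩)
      fun h => ⟨h, d2.2 (by clear * - h f5; omega)⟩
  have h3 : (ε = 1 ∧ (u = 3 ∨ u = 24)) ∨ (ε = -1 ∧ (u = 4 ∨ u = 18 ∨ u = 32)) :=
    hε.imp (fun h => ⟨h, d3.1 (by clear * - h e2; omega)⟩)
      fun h => ⟨h, d3.2 (by clear * - h e2; omega)⟩
  clear d1 d2 d3 f2 f5 e2 hε f1 f4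
  rcases h1 with ⟨rfl, rfl | rfl⟩ | ⟨rfl, rfl | rfl | rfl⟩ <;>
    rcases h2 with ⟨rfl, rfl | rfl⟩ | ⟨rfl, rfl | rfl | rfl⟩ <;>
    rcases h3 with ⟨rfl, h3⟩ | ⟨rfl, h3⟩ <;> omega

variable {G : Type*} [Group G] [Finite G] [IsSimpleGroup G] (hG : Nat.card G = 6048)
include hG

theorem not_comm : ¬ IsMulCommutative G := not_comm_of_not_prime (by rw [hG]; norm_num)

omit [IsSimpleGroup G] in
theorem card_syl7 (P : Sylow 7 G) : Nat.card P = 7 :=
  PS.card_sylow_eq (by rw [hG]; norm_num) (by rw [hG]; norm_num) P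

theorem cent7 (P : Sylow 7 G) : centralizer ((P : Subgroup G) : Set G) = P := by
  obtain ⟨x, hx, h1⟩ := exists_ne_one (card_syl7 hG P)
  rw [← centralizer_singleton_eq (card_syl7 hG P) hx h1, centralizer_eq_zpowers_of_card
    (p := 2) (q := 3) (r := 7) (a := 5) (b := 3) Nat.prime_two Nat.prime_three (by norm_num)
    (by norm_num) (by norm_num) (by rw [hG]; norm_num) (orderOf_of_mem (card_syl7 hG P) hx h1),
    zpowers_eq (card_syl7 hG P) hx h1]

theorem orderOf_seven {g : G} (h1 : g ≠ 1) (h : 7 ∣ Nat.card (centralizer ({g} : Set G))) :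
    orderOf g = 7 := by
  obtain ⟨P⟩ : Nonempty (Sylow 7 G) := inferInstance
  exact orderOf_eq_of_dvd_card_centralizer (card_syl7 hG P) (cent7 hG P).le h1 h

theorem orderOf_seven' {g : G} (h : 7 ∣ orderOf g) : orderOf g = 7 := by
  obtain ⟨P⟩ : Nonempty (Sylow 7 G) := inferInstance
  exact orderOf_eq_of_dvd (card_syl7 hG P) (cent7 hG P).le h

theorem exists_block : ∃ χ φ θ θ' : IrrCharacter G, dg χ = 6 ∧ dg φ = 27 ∧ dg θ = 32 ∧
    dg θ' = 32 ∧ θ ≠ θ' ∧
    (∀ ψ, ψ = triv G ∨ ψ = χ ∨ ψ = φ ∨ ψ = θ ∨ ψ = θ' ∨ 7 ∣ dg ψ) ∧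
    (∀ g, 7 ∣ orderOf g → (χ : G → ℂ) g = -1 ∧ (φ : G → ℂ) g = -1 ∧
      (θ : G → ℂ) g + (θ' : G → ℂ) g = 1) ∧
    ∀ g, ¬ 7 ∣ orderOf g → (θ' : G → ℂ) g = (θ : G → ℂ) g ∧
      (θ : G → ℂ) g = (χ : G → ℂ) g + (φ : G → ℂ) g - 1 := by
  classical
  have := Fintype.ofFinite G
  obtain ⟨P⟩ : Nonempty (Sylow 7 G) := inferInstance
  have hP := card_syl7 hG P
  obtain ⟨M, hM⟩ := exists_isPModular (p := 7) (by norm_num)
  obtain ⟨t, X, Y, δ, ε, h⟩ := exists_B0 hM P hP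
  have hidx : (centralizer ((P : Subgroup G) : Set G)).index = 864 := by
    have := card_mul_index (centralizer ((P : Subgroup G) : Set G))
    rw [cent7 hG, hG, show Nat.card (P : Subgroup G) = 7 from hP] at this
    rw [cent7 hG]
    omega
  have het := h.card_eq
  rw [factorization_eq_one hP, pow_one] at het
  have h3 : (centralizer ((P : Subgroup G) : Set G)).relIndex
      (normalizer ((P : Subgroup G) : Set G)) = 3 := by
    have h1 := index_centralizer (P := P)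
    have h2 := card_sylow_modEq_one 7 G
    rw [hidx] at h1
    generalize (centralizer ((P : Subgroup G) : Set G)).relIndex
      (normalizer ((P : Subgroup G) : Set G)) = e at *
    have h4 : e ∣ 6 := ⟨t, by omega⟩
    have h5 := Nat.le_of_dvd (by norm_num) h4
    unfold Nat.ModEq at h2
    interval_cases e <;> omega
  rw [h3] at h het
  obtain rfl : t = 2 := by omega
  obtain ⟨x, hxP, hx1⟩ := exists_ne_one hP
  have hx : 7 ∣ orderOf x := by rw [orderOf_of_mem hP hxP hx1]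
  rw [← centralizer_singleton_eq hP hxP hx1] at hidx
  have hnp : ¬ (Nat.card G).Prime := by rw [hG]; norm_num
  have hd : ∀ χ : IrrCharacter G, χ ≠ triv G → deg χ ∣ 864 → _ := fun χ hχ hdv =>
    dec_deg (dg χ) (Nat.mem_divisors.2 ⟨hdv, by norm_num⟩)
      (fun e => hχ (eq_triv_of_dg_eq_one hnp e)) (by
        rw [← hG, ← sum_dg_sq]
        exact Finset.single_le_sum (f := fun χ => dg χ ^ 2) (fun _ _ => Nat.zero_le _)
          (Finset.mem_univ χ))
  obtain ⟨θ, θ', hθ, hY⟩ := Finset.card_eq_two.1 h.card_Y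
  obtain ⟨α, β, hαβ, hXe⟩ := Finset.card_eq_two.1
    (by rw [Finset.card_erase_of_mem h.triv_mem, h.card_X] : (X.erase (triv G)).card = 2)
  wlog hle : deg α ≤ deg β generalizing α β
  · exact this β α hαβ.symm (by rw [hXe, Finset.pair_comm]) (by omega)
  have hα := Finset.mem_erase.1 (hXe.ge (by simp : α ∈ ({α, β} : Finset _)))
  have hβ := Finset.mem_erase.1 (hXe.ge (by simp : β ∈ ({α, β} : Finset _)))
  have hθY : θ ∈ Y := by simp [hY]
  have hθY' : θ' ∈ Y := by simp [hY]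
  have hX : ∀ {A : Type} [AddCommMonoid A] (f : IrrCharacter G → A),
      ∑ χ ∈ X, f χ = f (triv G) + (f α + f β) := fun f => by
    rw [← Finset.add_sum_erase _ _ h.triv_mem, hXe, Finset.sum_pair hαβ]
  have e1 := h.deg_rel hθY
  rw [hX, h.δ_triv, deg_triv] at e1
  have key := arith7 h.sign (h.sign_X α hα.2) (h.sign_X β hβ.2) (by simpa using e1)
    (h.deg_Y_modEq' hθY) (h.deg_X_modEq' hα.2) (h.deg_X_modEq' hβ.2)
    ⟨(hd α hα.1 (hidx ▸ h.deg_X_dvd hα.2 hx)).1, (hd α hα.1 (hidx ▸ h.deg_X_dvd hα.2 hx)).2.1⟩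
    ⟨(hd β hβ.1 (hidx ▸ h.deg_X_dvd hβ.2 hx)).1, (hd β hβ.1 (hidx ▸ h.deg_X_dvd hβ.2 hx)).2.1⟩
    (hd θ (h.ne_triv hθY) (hidx ▸ h.deg_Y_dvd hθY hx)).2.2 hle
  have bt : ∀ q b : ℕ, q.Prime → q ≠ 7 → (Nat.card G).factorization q = b → b ≠ 0 →
      ∃ i j k : ℤ, (i = 0 ∨ (i = δ α * deg α ∧ ∀ n, deg α ≠ q ^ n)) ∧
        (j = 0 ∨ (j = δ β * deg β ∧ ∀ n, deg β ≠ q ^ n)) ∧
        (k = 0 ∨ (k = -(ε * deg θ) ∧ ∀ n, deg θ ≠ q ^ n)) ∧ (q : ℤ) ^ b ∣ 1 + (i + j) + k := by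
    intro q b hq hq7 hb hb0
    obtain ⟨M', hM'⟩ := exists_isPModular hq
    have hqn : q ∣ Nat.card G := Nat.dvd_of_factorization_pos (hb ▸ hb0)
    obtain ⟨d', hd'⟩ := exists_princOk (not_comm hG) hM' hqn
    have h1 := h.brauer_tuan hq hM' isPBlock_principalBlock' (fun g hg h7 => by
      rw [orderOf_seven' hG h7] at hg
      exact hq7 ((Nat.prime_dvd_prime_iff_eq hq (by norm_num)).1 hg)) hθY
    rw [Finset.sum_filter, hX, if_pos (triv_mem_principalBlock hM'), h.δ_triv, deg_triv, hb] at h1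
    refine ⟨_, _, _, ?_, ?_, ?_, by simpa using h1⟩
    · split_ifs with h2
      · exact Or.inr ⟨rfl, (hd' α h2 hα.1).2.1⟩
      · exact Or.inl rfl
    · split_ifs with h2
      · exact Or.inr ⟨rfl, (hd' β h2 hβ.1).2.1⟩
      · exact Or.inl rfl
    · split_ifs with h2
      · exact Or.inr ⟨rfl, (hd' θ h2 (h.ne_triv hθY)).2.1⟩
      · exact Or.inl rfl
  rcases key with ⟨k1, k2, k3, k4, k5, k6⟩ | ⟨k1, k2, k3, k4, k5, k6⟩ | ⟨k1, k2, k3, k4, k5, k6⟩
  · obtain ⟨i, j, k, hi, hj, hk, h1⟩ := bt 3 3 Nat.prime_three (by norm_num)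
      (by rw [hG]; exact factorization_eq Nat.prime_three (by norm_num) (by norm_num)) (by norm_num)
    obtain rfl : k = 0 := hk.resolve_right fun hk => hk.2 1 k5
    simp only [k1, k2, k3, k4] at hi hj
    omega
  · obtain ⟨i, j, k, hi, hj, hk, h1⟩ := bt 2 5 Nat.prime_two (by norm_num)
      (by rw [hG]; exact factorization_eq Nat.prime_two (by norm_num) (by norm_num)) (by norm_num)
    obtain rfl : i = 0 := hi.resolve_right fun hi => hi.2 3 k1
    simp only [k3, k4, k5, k6] at hj hk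
    omega
  refine ⟨α, β, θ, θ', k1, k3, k5, (h.deg_Y_eq hθY' hθY).trans k5, hθ, fun ψ => ?_,
    fun g hg => ⟨?_, ?_, ?_⟩, fun g hg => ⟨h.agree_Y _ hθY' _ hθY g hg, ?_⟩⟩
  · by_contra! h1
    rcases (h.union ψ).1 (mem_principalBlock_of_not_dvd hP (cent7 hG P).le hM h1.2.2.2.2.2)
      with h2 | h2
    · have := hXe.le (Finset.mem_erase.2 ⟨h1.1, h2⟩)
      simp only [Finset.mem_insert, Finset.mem_singleton] at this
      tauto
    · simp only [hY, Finset.mem_insert, Finset.mem_singleton] at h2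
      tauto
  · rw [h.val_X α hα.2 g hg, k2]; simp
  · rw [h.val_X β hβ.2 g hg, k4]; simp
  · have := h.sum_Y g hg
    rw [hY, Finset.sum_pair hθ, k6] at this
    simpa using this
  · have := h.rel θ hθY g hg
    rw [hX, h.δ_triv, k2, k4, k6, triv_apply] at this
    push_cast at this
    linear_combination -this

omit hG [IsSimpleGroup G] [Finite G] in
theorem three_dvd_or {g : G} (hG : Nat.card G = 6048) (h7 : ¬ 7 ∣ orderOf g)
    (h2 : ¬ 2 ∣ orderOf g) : g ^ 27 = 1 := by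
  have h1 := orderOf_dvd_natCard g
  rw [hG, show 6048 = 27 * (2 ^ 5 * 7) by norm_num] at h1
  refine orderOf_dvd_iff_pow_eq_one.1 (Nat.Coprime.dvd_of_dvd_mul_right ?_ h1)
  exact Nat.Coprime.mul_right (((Nat.Prime.coprime_iff_not_dvd Nat.prime_two).2 h2).symm.pow_right _)
    ((Nat.Prime.coprime_iff_not_dvd (by norm_num)).2 h7).symm

omit hG [IsSimpleGroup G] [Finite G] in
theorem three_dvd {g : G} (h1 : g ≠ 1) (h : g ^ 27 = 1) : 3 ∣ orderOf g ∧ ¬ 2 ∣ orderOf g ∧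
    ¬ 7 ∣ orderOf g := by
  have h2 : orderOf g ∣ 3 ^ 3 := orderOf_dvd_of_pow_eq_one h
  obtain ⟨i, hi, h3⟩ := (Nat.dvd_prime_pow Nat.prime_three).1 h2
  have h4 : orderOf g ≠ 1 := by simpa using h1
  rw [h3] at h4 ⊢
  interval_cases i <;> simp_all

end Cfsg.Lib.Perm.O6048

namespace Cfsg.Lib.Perm.O6048

open Princ

open Classical in
/-- The properties of the values `a` of the character of degree 6. -/
structure Chi {G : Type*} [Group G] [Fintype G] (a : G → ℤ) : Prop where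
  one : a 1 = 6
  conj : ∀ {g h : G}, IsConj g h → a g = a h
  pow : ∀ (g : G) {m : ℕ}, m.Coprime (orderOf g) → a (g ^ m) = a g
  lt : ∀ {g : G}, g ≠ 1 → |a g| < 6
  fix : ∀ (H : Subgroup G) [Fintype H], ∃ d : ℕ, ∑ x : H, a x = d * Nat.card H
  coset : ∀ (H : Subgroup G) [Fintype H], ∑ x : H, a x = 0 → ∀ g, ∑ x : H, a (x * g) = 0
  two : ∀ {g : G}, orderOf g = 2 → a g ≠ 0
  cong : ∀ {p k : ℕ} {u v : G}, p.Prime → Commute u v → orderOf u = p ^ k → ¬ p ∣ orderOf v →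
    (p : ℤ) ∣ a (u * v) - a v
  mixed : ∀ {g : G}, 2 ∣ orderOf g → 3 ∣ orderOf g → a g = 1
  seven : ∀ {g : G}, g ≠ 1 → 7 ∣ Nat.card (centralizer ({g} : Set G)) → orderOf g = 7
  s1 : ∑ g ∈ Finset.univ.filter (fun g : G => g ≠ 1 ∧ g ^ 27 = 1), (a g - 1) = -896
  s2 : ∑ g ∈ Finset.univ.filter (fun g : G => g ≠ 1 ∧ g ^ 27 = 1), (a g - 1) * a g = 672

variable {G : Type*} [Group G] [Fintype G] [IsSimpleGroup G] (hG : Nat.card G = 6048)
include hG

theorem exists_Chi : ∃ a : G → ℤ, Chi a := by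
  classical
  obtain ⟨χ, φ, θ, θ', h6, h27, h32, h32', hθ, hall, h7, hreg⟩ := exists_block hG
  have ht := dg_triv (G := G)
  choose a ha using exists_int_of_unique (χ := χ) fun ψ hψ => by
    rcases hall ψ with rfl | rfl | rfl | rfl | rfl | h7 <;> first | rfl | omega
  choose b hb using exists_int_of_unique (χ := φ) fun ψ hψ => by
    rcases hall ψ with rfl | rfl | rfl | rfl | rfl | h7 <;> first | rfl | omega
  have h1 : (χ : G → ℂ) 1 = 6 := by rw [dg_cast, h6]; rfl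
  have a1 : a 1 = 6 := by exact_mod_cast (ha 1).symm.trans h1
  have b1 : b 1 = 27 := by
    have := dg_cast φ
    rw [hb, h27] at this
    exact_mod_cast this
  have hφ : ∀ g, 3 ∣ orderOf g → (φ : G → ℂ) g = 0 := fun g hg =>
    apply_eq_zero φ Nat.prime_three h27 (t := 224) (by rw [hG]) (by norm_num) hg
  have hθ0 : ∀ g, 2 ∣ orderOf g → (θ : G → ℂ) g = 0 := fun g hg =>
    apply_eq_zero θ Nat.prime_two h32 (t := 189) (by rw [hG]) (by norm_num) hg
  have hn7 : ∀ g : G, 2 ∣ orderOf g → ¬ 7 ∣ orderOf g := fun g hg h => by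
    rw [orderOf_seven' hG h] at hg
    omega
  set T := Finset.univ.filter (fun g : G => g ≠ 1 ∧ g ^ 27 = 1) with hT
  set S := Finset.univ.filter (fun g : G => 7 ∣ orderOf g) with hS
  have key : ∀ (ψ : IrrCharacter G) (c : G → ℤ), (∀ g, (ψ : G → ℂ) g = c g) → ψ ≠ θ → ψ ≠ θ' →
      64 * c 1 + ∑ g ∈ S, c g + 2 * ∑ g ∈ T, (a g - 1) * c g = 0 := by
    intro ψ c hc h2 h3
    have e1 := classInner_irr θ ψ
    have e2 := classInner_irr θ' ψ
    rw [if_neg h2.symm] at e1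
    rw [if_neg h3.symm] at e2
    simp only [classInner, hc, map_intCast, mul_eq_zero, inv_eq_zero, card_ne_zero G,
      false_or] at e1 e2
    have e3 : ∑ g, ((θ : G → ℂ) g + (θ' : G → ℂ) g) * c g = 0 := by
      simp only [add_mul, Finset.sum_add_distrib, e1, e2, add_zero]
    have e4 : ∀ g, ((θ : G → ℂ) g + (θ' : G → ℂ) g) * c g = (((if g = 1 then 64 * c g else 0) +
        (if 7 ∣ orderOf g then c g else 0) +
        2 * (if g ≠ 1 ∧ g ^ 27 = 1 then (a g - 1) * c g else 0) : ℤ) : ℂ) := by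
      intro g
      by_cases hg1 : g = 1
      · subst hg1
        rw [dg_cast, dg_cast, h32, h32', if_pos rfl, if_neg (by simp), if_neg (by simp)]
        push_cast
        ring
      by_cases hg7 : 7 ∣ orderOf g
      · rw [(h7 g hg7).2.2, if_neg hg1, if_pos hg7, if_neg fun h => (three_dvd hg1 h.2).2.2 hg7]
        simp
      rw [(hreg g hg7).1, if_neg hg1, if_neg hg7]
      by_cases hg2 : 2 ∣ orderOf g
      · rw [hθ0 g hg2, if_neg fun h => (three_dvd hg1 h.2).2.1 hg2]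
        simp
      have h4 := three_dvd_or hG hg7 hg2
      rw [if_pos ⟨hg1, h4⟩, (hreg g hg7).2, hφ g (three_dvd hg1 h4).1, ha]
      push_cast
      ring
    simp only [e4, ← Int.cast_sum, Int.cast_eq_zero, Finset.sum_add_distrib, ← Finset.mul_sum,
      ← Finset.sum_filter] at e3
    rw [Finset.sum_filter, Finset.sum_ite_eq', if_pos (Finset.mem_univ _)] at e3
    exact e3
  have hne : ∀ ψ ρ : IrrCharacter G, dg ψ ≠ dg ρ → ψ ≠ ρ := fun ψ ρ h e => h (e ▸ rfl)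
  have k1 := key (triv G) (fun _ => 1) (fun g => by simp) (hne _ _ (by omega))
    (hne _ _ (by omega))
  have k2 := key χ a ha (hne _ _ (by omega)) (hne _ _ (by omega))
  have k3 := key φ b hb (hne _ _ (by omega)) (hne _ _ (by omega))
  rw [Finset.sum_congr rfl (g := fun _ => -1) fun g hg => by
    have := (h7 g (Finset.mem_filter.1 hg).2).1
    rw [ha] at this
    exact_mod_cast this] at k2
  rw [Finset.sum_congr rfl (g := fun _ => -1) fun g hg => by
    have := (h7 g (Finset.mem_filter.1 hg).2).2.1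
    rw [hb] at this
    exact_mod_cast this, Finset.sum_eq_zero (s := T) fun g hg => by
    have h4 := (Finset.mem_filter.1 hg).2
    have := hφ g (three_dvd h4.1 h4.2).1
    rw [hb] at this
    rw [show b g = 0 by exact_mod_cast this, mul_zero]] at k3
  simp only [Finset.sum_const, smul_neg, nsmul_eq_mul, mul_one] at k1 k2 k3
  refine ⟨a, a1, fun h => ?_, fun g m hm => ?_, fun hg => ?_, fun H _ => ?_, fun H _ h g => ?_,
    fun {g} hg h0 => ?_, fun {p k u v} hp huv hu hv => ?_, fun {g} h2 h3 => ?_,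
    fun h1 h => orderOf_seven hG h1 h, by convert (by omega : ∑ g ∈ T, (a g - 1) = -896),
    by convert (by omega : ∑ g ∈ T, (a g - 1) * a g = 672)⟩
  · have := χ.2.isClassFunction.eq_of_isConj h
    rw [ha, ha] at this
    exact_mod_cast this
  · obtain ⟨σ, hσ⟩ := exists_ringEquiv_apply_pow g hm
    have := hσ _ χ.2.isGeneralizedCharacter
    rw [ha, ha, map_intCast] at this
    exact_mod_cast this.symm
  · have := abs_lt_dg (by omega) hg (ha _)
    rwa [h6] at this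
  · obtain ⟨k, hk⟩ := exists_nat_sum χ.2.isCharacter H
    simp only [ha] at hk
    exact ⟨k, by exact_mod_cast hk⟩
  · have := sum_mul_eq_zero_of_sum_eq_zero χ.2.isCharacter H
      (by simp only [ha]; exact_mod_cast h) g
    simp only [ha] at this
    exact_mod_cast this
  · have hc : Nat.card (zpowers g) = 2 := by rw [Nat.card_zpowers, hg]
    have h2 := detChar_of_regular (H := zpowers g) (s := ⟨g, mem_zpowers g⟩)
      (χ := fun x => (χ : G → ℂ) x) (m := 3) (fun ⟨_, k, hk⟩ => ⟨k, Subtype.ext hk⟩)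
      (by rw [hc]; simpa using h1) (fun x hx => by
        have h3 := mem_zpowers_iff_mem_range_orderOf.1 x.2
        simp only [hg, Finset.mem_image, Finset.mem_range] at h3
        obtain ⟨i, hi, h3⟩ := h3
        interval_cases i
        · exact absurd (Subtype.ext (by simpa using h3.symm)) hx
        · rw [← h3, pow_one, ha, h0, Int.cast_zero]) (by rw [hc]; decide)
    rw [detChar_res χ.2.isCharacter] at h2
    have h3 := detChar_eq_one (commutator_eq_top (not_comm hG)) (χ : G → ℂ) g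
    simp only [h3] at h2
    norm_num at h2
  · obtain ⟨M, hM⟩ := exists_isPModular hp
    have := Cfsg.Agent.S0876.ideal_char_sub_pRegular hM χ.2.isCharacter huv hu hv
    rw [ha, ha, ← Int.cast_sub] at this
    exact (Loc.ideal_intCast_iff hM _).1 this
  · have := (hreg g (hn7 g h2)).2
    rw [hθ0 g h2, hφ g h3, ha] at this
    have h4 : ((a g : ℤ) : ℂ) = 1 := by linear_combination -this
    exact_mod_cast h4

end Cfsg.Lib.Perm.O6048
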