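import Mathlib.LinearAlgebra.Matrix.Charpoly.Minpoly
import Cfsg.Prelude.Def_Perm
import Cfsg.Agent.Perm.Commutant
import Cfsg.Agent.S0157
import Cfsg.Agent.S0669

/-!
Orbital matrices in the commutant of a permutation representation.
-/

set_option autoImplicit false

namespace Cfsg.Lib.Perm.Commutant

open Cfsg Module LinearMap Finset MulAction Matrix

variable {G : Type*} [Group G] {Ω : Type*} [Fintype Ω] [DecidableEq Ω] [MulAction G Ω]

omit [DecidableEq Ω] in
theorem character_permRep_eq : (Cfsg.permRep ℂ G Ω).character =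
    fun g : G => (Nat.card (MulAction.fixedBy Ω g) : ℂ) :=
  funext fun g => Cfsg.Lib.Char.character_permRep g

variable (G) in
/-- Invariant matrices. -/
def MInv (M : Matrix Ω Ω ℂ) : Prop := ∀ (g : G) x y, M (g • x) (g • y) = M x y

theorem toMatrix'_permRep (g : G) (x y : Ω) :
    toMatrix' (Cfsg.permRep ℂ G Ω g) x y = if g⁻¹ • x = y then 1 else 0 := by
  rw [toMatrix'_apply, ← Pi.single_apply]
  rfl

theorem MInv.commute {M : Matrix Ω Ω ℂ} (h : MInv G M) (g : G) :
    Commute (Cfsg.permRep ℂ G Ω g) (toLin' M) := by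
  refine LinearMap.ext fun f => funext fun x => ?_
  change ∑ y, M (g⁻¹ • x) y * f y = ∑ y, M x y * f (g⁻¹ • y)
  rw [← Equiv.sum_comp (MulAction.toPerm g⁻¹)]
  exact sum_congr rfl fun y _ => by rw [MulAction.toPerm_apply, h]

theorem mInv_toMatrix' {T : Module.End ℂ (Ω → ℂ)} (h : ∀ g, Commute (Cfsg.permRep ℂ G Ω g) T) :
    MInv G (toMatrix' T) := by
  intro g x y
  have h1 := congrFun (LinearMap.congr_fun (h g).eq fun z => if z = y then 1 else 0) (g • x)
  change T (fun z => if z = y then 1 else 0) (g⁻¹ • g • x) =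
    T (fun z => if g⁻¹ • z = y then 1 else 0) (g • x) at h1
  have h2 : ∀ y : Ω, (Pi.single y 1 : Ω → ℂ) = fun z => if z = y then 1 else 0 := fun y =>
    funext fun z => Pi.single_apply _ _ _
  rw [toMatrix'_apply, toMatrix'_apply, h2, h2]
  simp only [inv_smul_smul, inv_smul_eq_iff] at h1
  exact h1.symm

omit [DecidableEq Ω] in
theorem MInv.row_sum [IsPretransitive G Ω] {M : Matrix Ω Ω ℂ} (h : MInv G M) (x a : Ω) :
    ∑ y, M x y = ∑ y, M a y := by
  obtain ⟨g, hg⟩ := exists_smul_eq G a x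
  rw [← hg, ← Equiv.sum_comp (MulAction.toPerm g)]
  exact sum_congr rfl fun y _ => h g _ _

variable (G) in
open Classical in
/-- The orbital matrix of a pair. -/
noncomputable def orbMat (a b : Ω) : Matrix Ω Ω ℂ :=
  Matrix.of fun x y => if ∃ g : G, g • a = x ∧ g • b = y then 1 else 0

omit [Fintype Ω] [DecidableEq Ω] in
theorem orbMat_of_pos {a b x y : Ω} (h : ∃ g : G, g • a = x ∧ g • b = y) :
    orbMat G a b x y = 1 := by simp only [orbMat, Matrix.of_apply, if_pos h]

omit [Fintype Ω] [DecidableEq Ω] in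
theorem orbMat_of_neg {a b x y : Ω} (h : ¬ ∃ g : G, g • a = x ∧ g • b = y) :
    orbMat G a b x y = 0 := by simp only [orbMat, Matrix.of_apply, if_neg h]

omit [Fintype Ω] [DecidableEq Ω] in
theorem mInv_orbMat (a b : Ω) : MInv G (orbMat G a b) := by
  intro g x y
  by_cases h : ∃ k : G, k • a = x ∧ k • b = y
  · rw [orbMat_of_pos h]
    obtain ⟨k, rfl, rfl⟩ := h
    exact orbMat_of_pos ⟨g * k, mul_smul _ _ _, mul_smul _ _ _⟩
  · rw [orbMat_of_neg h]
    refine orbMat_of_neg fun ⟨k, h1, h2⟩ => h ⟨g⁻¹ * k, ?_, ?_⟩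
    · rw [mul_smul, h1, inv_smul_smul]
    · rw [mul_smul, h2, inv_smul_smul]

omit [Fintype Ω] [DecidableEq Ω] in
theorem orbMat_diag {a b : Ω} (hab : b ≠ a) (x : Ω) : orbMat G a b x x = 0 :=
  orbMat_of_neg fun ⟨g, h1, h2⟩ => hab (smul_left_cancel g (h2.trans h1.symm))

omit [DecidableEq Ω] in
theorem trace_orbMat {a b : Ω} (hab : b ≠ a) : (orbMat G a b).trace = 0 :=
  sum_eq_zero fun x _ => orbMat_diag hab x

omit [Fintype Ω] [DecidableEq Ω] in
theorem orbMat_mul_self (a b x y : Ω) : orbMat G a b x y * orbMat G a b x y = orbMat G a b x y := by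
  by_cases h : ∃ k : G, k • a = x ∧ k • b = y
  · rw [orbMat_of_pos h, one_mul]
  · rw [orbMat_of_neg h, zero_mul]

omit [DecidableEq Ω] in
theorem orbMat_row_sum [IsPretransitive G Ω] (a b x : Ω) :
    ∑ y, orbMat G a b x y = Nat.card (orbit (stabilizer G a) b) := by
  classical
  rw [(mInv_orbMat a b).row_sum x a, Nat.card_eq_fintype_card, Fintype.card_subtype, card_filter]
  push_cast
  refine sum_congr rfl fun y _ => ?_
  split_ifs with h
  · obtain ⟨⟨g, hg⟩, rfl⟩ := h
    exact orbMat_of_pos ⟨g, hg, rfl⟩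
  · refine orbMat_of_neg fun h' => h ?_
    obtain ⟨g, hg, rfl⟩ := h'
    exact ⟨⟨g, hg⟩, rfl⟩

theorem isIntegral_orbMat (a b : Ω) :
    IsIntegral ℤ (show Module.End ℂ (Ω → ℂ) from toLin' (orbMat G a b)) := by
  classical
  let N : Matrix Ω Ω ℤ := Matrix.of fun x y => if ∃ g : G, g • a = x ∧ g • b = y then 1 else 0
  have h1 := (Matrix.isIntegral N).map
    (((Matrix.toLinAlgEquiv' (R := ℂ) (n := Ω)).toRingHom.comp
      (Int.castRingHom ℂ).mapMatrix).toIntAlgHom)
  convert h1
  change toLin' _ = toLin' (N.map (Int.castRingHom ℂ))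
  congr 1
  ext x y
  simp [orbMat, N]

variable [Fintype G]

omit [DecidableEq Ω] in
theorem classInner_permRep_one [IsPretransitive G Ω] [Nonempty Ω] :
    classInner (Cfsg.permRep ℂ G Ω).character (fun _ => 1) = 1 := by
  rw [character_permRep_eq, Cfsg.Agent.S0157.inner_one, Nat.cast_eq_one, Nat.card_eq_one_iff_unique]
  exact ⟨(MulAction.pretransitive_iff_subsingleton_quotient G Ω).1 inferInstance,
    ⟨Quotient.mk'' (Classical.arbitrary Ω)⟩⟩

omit [DecidableEq Ω] in
theorem classInner_permRep_self [IsPretransitive G Ω] (a : Ω) :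
    classInner (Cfsg.permRep ℂ G Ω).character (Cfsg.permRep ℂ G Ω).character =
      Nat.card (orbitRel.Quotient (stabilizer G a) Ω) := by
  rw [← Cfsg.Agent.S0669.result, ← Cfsg.Agent.S0157.inner_one, character_permRep_eq]
  simp only [Cfsg.classInner, Cfsg.Agent.S0157.card_fixedBy_prod, Nat.cast_mul, map_natCast,
    map_one, mul_one]

theorem classInner_tau_one [IsPretransitive G Ω] {M : Matrix Ω Ω ℂ} (hM : MInv G M) (a : Ω) :
    classInner (tau (Cfsg.permRep ℂ G Ω) (toLin' M)) (fun _ => 1) = ∑ y, M a y := by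
  have : Nonempty Ω := ⟨a⟩
  let χ : IrrCharacter G := ⟨fun _ => 1, Cfsg.Lib.Char.isIrrCharacter_one⟩
  have h1 : idem (Cfsg.permRep ℂ G Ω) χ * toLin' M =
      (∑ y, M a y) • idem (Cfsg.permRep ℂ G Ω) χ := by
    rw [(commute_idem hM.commute χ).eq]
    refine LinearMap.ext fun f => funext fun x => ?_
    have h2 : ∀ y, idem (Cfsg.permRep ℂ G Ω) χ f y = idem (Cfsg.permRep ℂ G Ω) χ f x := by
      intro y
      obtain ⟨k, rfl⟩ := exists_smul_eq G x y
      simp only [idem, χ, one_smul, LinearMap.smul_apply, LinearMap.sum_apply, Pi.smul_apply,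
        Finset.sum_apply]
      congr 1
      rw [← Equiv.sum_comp (Equiv.mulLeft k)]
      refine sum_congr rfl fun g _ => ?_
      change f ((k * g)⁻¹ • k • x) = f (g⁻¹ • x)
      rw [_root_.mul_inv_rev, mul_smul, inv_smul_smul]
    change ∑ y, M x y * idem (Cfsg.permRep ℂ G Ω) χ f y = (∑ y, M a y) * _
    simp only [h2, ← sum_mul, hM.row_sum x a]
  have h2 := congrFun (tau_idem_mul hM.commute χ) 1
  rw [h1, tau_smul, tau_idem, classInner_permRep_one, one_smul] at h2
  simpa [χ] using h2.symm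

theorem transpose_idem (χ : G → ℂ) : (toMatrix' (idem (Cfsg.permRep ℂ G Ω) χ))ᵀ =
    toMatrix' (idem (Cfsg.permRep ℂ G Ω) fun g => χ g⁻¹) := by
  ext x y
  simp only [idem, map_smul, map_sum, transpose_apply, Matrix.smul_apply, Matrix.sum_apply,
    toMatrix'_permRep, inv_one, inv_inv]
  congr 1
  rw [← Equiv.sum_comp (Equiv.inv G)]
  refine sum_congr rfl fun g _ => ?_
  simp only [Equiv.inv_apply, inv_inv, inv_smul_eq_iff, eq_comm (a := x)]

/-- A common divisor of the degrees of the non-principal constituents divides the subdegrees. -/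
theorem dvd_subdegree [IsPretransitive G Ω] (f : ℕ)
    (hf : ∀ χ : G → ℂ, IsIrrCharacter G χ → χ ≠ (fun _ => 1) →
      classInner (Cfsg.permRep ℂ G Ω).character χ ≠ 0 → ∃ m : ℕ, χ 1 = (f : ℂ) * m)
    {a b : Ω} (hab : b ≠ a) : f ∣ Nat.card (orbit (stabilizer G a) b) := by
  classical
  have hA := (mInv_orbMat (G := G) a b).commute
  have h1 := (tau_isClassFunction hA).apply_eq_sum_irr 1
  let χ₀ : IrrCharacter G := ⟨fun _ => 1, Cfsg.Lib.Char.isIrrCharacter_one⟩
  rw [tau_apply_one, trace_toLin'_eq, trace_orbMat hab,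
    ← add_sum_erase _ _ (mem_univ χ₀), classInner_tau_one (mInv_orbMat a b) a, orbMat_row_sum,
    mul_one] at h1
  have h2 : ∀ χ ∈ univ.erase χ₀, ∃ z : ℂ, IsIntegral ℤ z ∧
      classInner (tau (Cfsg.permRep ℂ G Ω) (toLin' (orbMat G a b))) χ * (χ : G → ℂ) 1 = f * z := by
    intro χ hχ
    by_cases h : classInner (Cfsg.permRep ℂ G Ω).character χ = 0
    · exact ⟨0, isIntegral_zero, by rw [classInner_tau_eq_zero hA χ.2.isCharacter h]; simp⟩
    · obtain ⟨m, hm⟩ := hf χ χ.2 (fun h' => ne_of_mem_erase hχ (Subtype.ext h')) h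
      refine ⟨_, (isIntegral_classInner_tau hA (isIntegral_orbMat a b) χ.2.isCharacter).mul
        (isIntegral_natCast (R := ℤ) m), ?_⟩
      rw [hm]
      ring
  choose! z hz hz' using h2
  rw [sum_congr rfl hz', ← mul_sum] at h1
  rcases Nat.eq_zero_or_pos f with rfl | hf0
  · simp only [Nat.cast_zero, zero_mul, add_zero] at h1
    rw [Nat.cast_eq_zero.mp h1.symm]
  · refine Cfsg.Lib.Char.dvd_of_isIntegral_div hf0.ne' ?_
    have h3 : (f : ℂ) ≠ 0 := Nat.cast_ne_zero.mpr hf0.ne'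
    rw [show (Nat.card (orbit (stabilizer G a) b) : ℂ) / f = - ∑ χ ∈ univ.erase χ₀, z χ by
      field_simp
      linear_combination -h1]
    exact (IsIntegral.sum _ hz).neg

end Cfsg.Lib.Perm.Commutant
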