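import Mathlib.LinearAlgebra.Matrix.GeneralLinearGroup.Defs
import Mathlib.LinearAlgebra.Matrix.Notation
import Mathlib.Data.ZMod.Basic
import Mathlib.SetTheory.Cardinal.Finite
import Mathlib.Tactic.FinCases

/-!
A certificate for: a subgroup of `GL(2, R)` given by generators is regular on the non-zero vectors.
-/

set_option autoImplicit false

namespace Cfsg.Lib.Perm

open Matrix

variable {R : Type*} [CommRing R]

theorem gl2_mulVec_ne_zero (g : GeneralLinearGroup (Fin 2) R) {v : Fin 2 → R} (hv : v ≠ 0) :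
    (g : Matrix (Fin 2) (Fin 2) R) *ᵥ v ≠ 0 := by
  intro h
  apply hv
  have := congrArg (fun w => ((g⁻¹ : GeneralLinearGroup (Fin 2) R) : Matrix (Fin 2) (Fin 2) R) *ᵥ w) h
  simpa only [mulVec_mulVec, Units.inv_mul, one_mulVec, mulVec_zero] using this

/-- `τ` gives the second column of a group element from its first column, `D` is a distance to the
first basis vector. -/
theorem regular_of_certificate [Nontrivial R] [Finite R] (S : Set (GeneralLinearGroup (Fin 2) R))
    (τ : (Fin 2 → R) → (Fin 2 → R)) (D : (Fin 2 → R) → ℕ) (h1 : τ ![1, 0] = ![0, 1])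
    (hτ : ∀ g ∈ S, ∀ v, v ≠ 0 → τ ((g : Matrix (Fin 2) (Fin 2) R) *ᵥ v)
      = (g : Matrix (Fin 2) (Fin 2) R) *ᵥ τ v)
    (hD : ∀ v, v ≠ 0 → v = ![1, 0] ∨ ∃ g ∈ S, D ((g : Matrix (Fin 2) (Fin 2) R) *ᵥ v) < D v) :
    Nat.card (Subgroup.closure S) = Nat.card R ^ 2 - 1 ∧
    ∀ v w : Fin 2 → R, v ≠ 0 → w ≠ 0 → ∃! h : Subgroup.closure S,
      ((h : GeneralLinearGroup (Fin 2) R) : Matrix (Fin 2) (Fin 2) R) *ᵥ v = w := by
  classical
  have hall : ∀ g ∈ Subgroup.closure S, ∀ v, v ≠ 0 → τ ((g : Matrix (Fin 2) (Fin 2) R) *ᵥ v)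
      = (g : Matrix (Fin 2) (Fin 2) R) *ᵥ τ v := by
    intro g hg
    induction hg using Subgroup.closure_induction with
    | mem x hx => exact hτ x hx
    | one => intro v _; simp
    | mul x y _ _ hx hy =>
      intro v hv
      rw [Units.val_mul, ← mulVec_mulVec, ← mulVec_mulVec, hx _ (gl2_mulVec_ne_zero y hv), hy v hv]
    | inv x _ hx =>
      intro v hv
      have := hx _ (gl2_mulVec_ne_zero x⁻¹ hv)
      rw [mulVec_mulVec, Units.mul_inv, one_mulVec] at this
      rw [this, mulVec_mulVec, Units.inv_mul, one_mulVec]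
  have he : (![1, 0] : Fin 2 → R) ≠ 0 := fun h => one_ne_zero (congrFun h 0)
  have hstab : ∀ g ∈ Subgroup.closure S, (g : Matrix (Fin 2) (Fin 2) R) *ᵥ ![1, 0] = ![1, 0] →
      g = 1 := by
    intro g hg h
    have h2 := hall g hg _ he
    rw [h, h1] at h2
    ext i j
    have a1 := congrFun h i
    have a2 := congrFun h2 i
    fin_cases i <;> fin_cases j <;>
      simp [mulVec, dotProduct, Fin.sum_univ_two] at a1 a2 ⊢ <;> simp [a1, ← a2]
  have htr : ∀ n, ∀ v, v ≠ 0 → D v = n → ∃ h ∈ Subgroup.closure S,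
      (h : Matrix (Fin 2) (Fin 2) R) *ᵥ v = ![1, 0] := by
    intro n
    induction n using Nat.strong_induction_on with
    | _ n ih =>
      intro v hv hn
      rcases hD v hv with rfl | ⟨g, hg, hlt⟩
      · exact ⟨1, one_mem _, by simp⟩
      · obtain ⟨h, hh, hh'⟩ := ih _ (hn ▸ hlt) _ (gl2_mulVec_ne_zero g hv) rfl
        exact ⟨h * g, mul_mem hh (Subgroup.subset_closure hg), by
          rw [Units.val_mul, ← mulVec_mulVec, hh']⟩
  have hreg : ∀ v w : Fin 2 → R, v ≠ 0 → w ≠ 0 → ∃! h : Subgroup.closure S,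
      ((h : GeneralLinearGroup (Fin 2) R) : Matrix (Fin 2) (Fin 2) R) *ᵥ v = w := by
    intro v w hv hw
    obtain ⟨a, ha, ha'⟩ := htr _ v hv rfl
    obtain ⟨b, hb, hb'⟩ := htr _ w hw rfl
    have hav : ((a⁻¹ : GeneralLinearGroup (Fin 2) R) : Matrix (Fin 2) (Fin 2) R) *ᵥ ![1, 0] = v := by
      rw [← ha', mulVec_mulVec, Units.inv_mul, one_mulVec]
    have key : ∀ h ∈ Subgroup.closure S, (h : Matrix (Fin 2) (Fin 2) R) *ᵥ v = w →
        h = b⁻¹ * a := by
      intro h hh e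
      have := hstab (b * h * a⁻¹) (mul_mem (mul_mem hb hh) (inv_mem ha)) (by
        rw [Units.val_mul, Units.val_mul, ← mulVec_mulVec, ← mulVec_mulVec, hav, e, hb'])
      rw [mul_inv_eq_one] at this
      rw [← this, inv_mul_cancel_left]
    refine ⟨⟨b⁻¹ * a, mul_mem (inv_mem hb) ha⟩, ?_, fun h e => Subtype.ext (key h h.2 e)⟩
    change ((b⁻¹ * a : GeneralLinearGroup (Fin 2) R) : Matrix (Fin 2) (Fin 2) R) *ᵥ v = w
    rw [Units.val_mul, ← mulVec_mulVec, ha', ← hb', mulVec_mulVec, Units.inv_mul, one_mulVec]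
  refine ⟨?_, hreg⟩
  have e : Subgroup.closure S ≃ {w : Fin 2 → R // w ≠ 0} := by
    refine Equiv.ofBijective (fun h => ⟨((h : GeneralLinearGroup (Fin 2) R) :
      Matrix (Fin 2) (Fin 2) R) *ᵥ ![1, 0], gl2_mulVec_ne_zero _ he⟩) ⟨?_, ?_⟩
    · intro h h' e
      exact (hreg _ _ he (gl2_mulVec_ne_zero h' he)).unique (congrArg Subtype.val e) rfl
    · rintro ⟨w, hw⟩
      obtain ⟨h, hh, -⟩ := hreg _ _ he hw
      exact ⟨h, Subtype.ext hh⟩
  rw [Nat.card_congr e]
  have := Fintype.ofFinite R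
  simp [Nat.card_eq_fintype_card, Fintype.card_subtype_compl]

/-- Second column from a table packed in a natural number. -/
def packTau (p T : ℕ) (v : Fin 2 → ZMod p) : Fin 2 → ZMod p :=
  ![((T >>> (16 * ((v 0).val * p + (v 1).val))) % 256 : ℕ),
    ((T >>> (16 * ((v 0).val * p + (v 1).val) + 8)) % 256 : ℕ)]

/-- Distance from a table packed in a natural number. -/
def packDist (p T : ℕ) (v : Fin 2 → ZMod p) : ℕ :=
  (T >>> (8 * ((v 0).val * p + (v 1).val))) % 256

theorem forall_vec2 {X : Type*} {P : (Fin 2 → X) → Prop} (h : ∀ x y, P ![x, y]) (v : Fin 2 → X) :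
    P v := by
  have : v = ![v 0, v 1] := by ext i; fin_cases i <;> rfl
  rw [this]; exact h _ _

theorem mulVec_two (a b c d x y : R) :
    !![a, b; c, d] *ᵥ ![x, y] = ![a * x + b * y, c * x + d * y] := by
  ext i; fin_cases i <;> simp [mulVec, dotProduct, Fin.sum_univ_two]

end Cfsg.Lib.Perm
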