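import Mathlib.RingTheory.Polynomial.Cyclotomic.Roots
import Mathlib.RingTheory.RootsOfUnity.Complex
import Mathlib.Data.Matrix.Mul
import Mathlib.Algebra.Field.ZMod
import Mathlib.Tactic.LinearCombination

/-!
Fourier analysis on `ZMod p` for matrices commuting with a product of two `p`-cycles
(preparation for Wielandt's theorem on primitive groups of degree `2 p`).
-/

set_option autoImplicit false

namespace Cfsg.Lib.Perm.TwoP

open Finset

variable {p : ℕ} [hp : Fact p.Prime]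

/-- Fourier transform of a rational function on `ZMod p` at a `p`-th root of unity. -/
noncomputable def ft (ζ : ℂ) (f : ZMod p → ℚ) : ℂ := ∑ x, (f x : ℂ) * ζ ^ x.val

theorem pow_val_add {ζ : ℂ} (hζ : ζ ^ p = 1) (x y : ZMod p) :
    ζ ^ (x + y).val = ζ ^ x.val * ζ ^ y.val := by
  rw [ZMod.val_add, ← pow_add]
  conv_rhs => rw [← Nat.mod_add_div (x.val + y.val) p, pow_add, pow_mul, hζ, one_pow, mul_one]

theorem ft_add (ζ : ℂ) (f g : ZMod p → ℚ) : ft ζ (fun x => f x + g x) = ft ζ f + ft ζ g := by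
  simp [ft, add_mul, sum_add_distrib]

theorem ft_sub (ζ : ℂ) (f g : ZMod p → ℚ) : ft ζ (fun x => f x - g x) = ft ζ f - ft ζ g := by
  simp [ft, sub_mul, sum_sub_distrib]

theorem ft_ite (ζ : ℂ) (r : ℚ) : ft ζ (fun x : ZMod p => if x = 0 then r else 0) = r := by
  rw [ft, sum_eq_single 0]
  · simp
  · intro b _ hb
    simp [hb]
  · simp

theorem ft_conv {ζ : ℂ} (hζ : ζ ^ p = 1) (f g : ZMod p → ℚ) :
    ft ζ (fun x => ∑ y, f y * g (x - y)) = ft ζ f * ft ζ g := by
  simp only [ft, Rat.cast_sum, Rat.cast_mul, sum_mul, mul_sum]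
  rw [sum_comm]
  conv_rhs => rw [sum_comm]
  refine sum_congr rfl fun y _ => ?_
  rw [← Equiv.sum_comp (Equiv.addLeft y)]
  refine sum_congr rfl fun x _ => ?_
  simp only [Equiv.coe_addLeft, add_sub_cancel_left, pow_val_add hζ]
  ring

theorem ft_one (f : ZMod p → ℚ) : ft 1 f = ((∑ x, f x : ℚ) : ℂ) := by
  simp [ft]

theorem const_of_ft_eq_zero {ζ : ℂ} (hζ : IsPrimitiveRoot ζ p) {f : ZMod p → ℚ}
    (h : ft ζ f = 0) (x y : ZMod p) : f x = f y := by
  obtain ⟨n, rfl⟩ : ∃ n, p = n + 1 := ⟨p - 1, (Nat.sub_add_cancel hp.out.pos).symm⟩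
  exact (hζ.sum_eq_zero_iff_forall_eq hp.out f).mp h x y

theorem eq_zero_of_ft_eq_zero {ζ : ℂ} (hζ : IsPrimitiveRoot ζ p) {f : ZMod p → ℚ}
    (h : ft ζ f = 0) (h1 : ft 1 f = 0) (x : ZMod p) : f x = 0 := by
  rw [ft_one, Rat.cast_eq_zero, sum_congr rfl fun y _ => const_of_ft_eq_zero hζ h y x] at h1
  simpa [hp.out.ne_zero] using h1

variable {α : Type*} [Fintype α] [DecidableEq α] (e : Fin 2 × ZMod p ≃ α)

/-- The `2 × 2` matrix of Fourier coefficients. -/
noncomputable def hat (ζ : ℂ) (M : Matrix α α ℚ) (s t : Fin 2) : ℂ :=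
  ft ζ fun x => M (e (s, 0)) (e (t, x))

/-- The matrix commutes with the translations. -/
def CInv (M : Matrix α α ℚ) : Prop :=
  ∀ s t x y, M (e (s, x)) (e (t, y)) = M (e (s, 0)) (e (t, y - x))

omit [DecidableEq α] in
theorem sum_coord {β : Type*} [AddCommMonoid β] (f : α → β) :
    ∑ a, f a = ∑ x, f (e (0, x)) + ∑ x, f (e (1, x)) := by
  rw [← e.sum_comp, Fintype.sum_prod_type, Fin.sum_univ_two]

omit [DecidableEq α] in
theorem hat_mul {ζ : ℂ} (hζ : ζ ^ p = 1) (M : Matrix α α ℚ) {N : Matrix α α ℚ} (hN : CInv e N)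
    (s t : Fin 2) :
    hat e ζ (M * N) s t = hat e ζ M s 0 * hat e ζ N 0 t + hat e ζ M s 1 * hat e ζ N 1 t := by
  simp only [hat]
  rw [← ft_conv hζ, ← ft_conv hζ, ← ft_add]
  congr 1
  ext x
  rw [Matrix.mul_apply, sum_coord e]
  simp only [hN _ _ _ x]

omit [Fintype α] [DecidableEq α] in
theorem hat_zero (ζ : ℂ) (s t : Fin 2) : hat e ζ 0 s t = 0 := by simp [hat, ft]

/-- The partial trace. -/
def ptr (M : Matrix α α ℚ) (x : ZMod p) : ℚ := M (e (0, 0)) (e (0, x)) + M (e (1, 0)) (e (1, x))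

omit [Fintype α] [DecidableEq α] in
theorem ft_ptr (ζ : ℂ) (M : Matrix α α ℚ) :
    ft ζ (ptr e M) = hat e ζ M 0 0 + hat e ζ M 1 1 := ft_add ζ _ _

theorem trace_mul_of_common_kernel {x00 x01 x10 x11 y00 y01 y10 y11 v0 v1 : ℂ}
    (hv : v0 ≠ 0 ∨ v1 ≠ 0) (h1 : x00 * v0 + x01 * v1 = 0) (h2 : x10 * v0 + x11 * v1 = 0)
    (h3 : y00 * v0 + y01 * v1 = 0) (h4 : y10 * v0 + y11 * v1 = 0) :
    (x00 * y00 + x01 * y10) + (x10 * y01 + x11 * y11) = (x00 + x11) * (y00 + y11) := by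
  rcases hv with hv | hv
  · apply mul_left_cancel₀ hv
    linear_combination x01 * h4 + y01 * h2 - y11 * h1 - x11 * h3
  · apply mul_left_cancel₀ hv
    linear_combination y10 * h1 + x10 * h3 - x00 * h4 - y00 * h2

omit [DecidableEq α] in
/-- If `X` and `Y` kill `E`, whose partial trace is the delta function, then the partial trace is
multiplicative on `X`, `Y`. -/
theorem ptr_mul {ζ : ℂ} (hζ : IsPrimitiveRoot ζ p) {E X Y : Matrix α α ℚ} (hE : CInv e E)
    (hY : CInv e Y) (hE1 : ∀ x, ptr e E x = if x = 0 then 1 else 0) (hX0 : X * E = 0)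
    (hY0 : Y * E = 0) (x : ZMod p) : ptr e (X * Y) x = ∑ y, ptr e X y * ptr e Y (x - y) := by
  have key : ∀ η : ℂ, η ^ p = 1 →
      ft η (fun x => ptr e (X * Y) x - ∑ y, ptr e X y * ptr e Y (x - y)) = 0 := by
    intro η hη
    rw [ft_sub, ft_conv hη, sub_eq_zero]
    rw [ft_ptr, ft_ptr, ft_ptr, hat_mul e hη X hY, hat_mul e hη X hY]
    have h1 : hat e η E 0 0 + hat e η E 1 1 = 1 := by
      rw [← ft_ptr, show ptr e E = fun x => if x = 0 then 1 else 0 from funext hE1, ft_ite]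
      simp
    have hX : ∀ s t, hat e η X s 0 * hat e η E 0 t + hat e η X s 1 * hat e η E 1 t = 0 := by
      intro s t
      rw [← hat_mul e hη X hE, hX0, hat_zero]
    have hY' : ∀ s t, hat e η Y s 0 * hat e η E 0 t + hat e η Y s 1 * hat e η E 1 t = 0 := by
      intro s t
      rw [← hat_mul e hη Y hE, hY0, hat_zero]
    by_cases h0 : hat e η E 0 0 = 0
    · refine trace_mul_of_common_kernel (v0 := hat e η E 0 1) (v1 := hat e η E 1 1) (Or.inr ?_)
        (hX 0 1) (hX 1 1) (hY' 0 1) (hY' 1 1)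
      rw [h0, zero_add] at h1
      rw [h1]
      exact one_ne_zero
    · exact trace_mul_of_common_kernel (Or.inl h0) (hX 0 0) (hX 1 0) (hY' 0 0) (hY' 1 0)
  exact sub_eq_zero.mp (eq_zero_of_ft_eq_zero hζ (key ζ hζ.pow_eq_one) (key 1 (one_pow p)) x)

theorem idem_cases {a b c d : ℂ} (h1 : a * a + b * c = a) (h2 : a * b + b * d = b)
    (h3 : c * a + d * c = c) (h4 : c * b + d * d = d) :
    a + d = 1 ∨ (a = 0 ∧ b = 0) ∨ (a = 1 ∧ b = 0 ∧ c = 0 ∧ d = 1) := by
  by_cases h : a + d = 1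
  · exact Or.inl h
  right
  have h' : a + d - 1 ≠ 0 := sub_ne_zero.mpr h
  have hb : b = 0 := (mul_eq_zero.mp (by linear_combination h2 : b * (a + d - 1) = 0)).resolve_right h'
  have hc : c = 0 := (mul_eq_zero.mp (by linear_combination h3 : c * (a + d - 1) = 0)).resolve_right h'
  subst hb hc
  rcases mul_eq_zero.mp (by linear_combination h1 : a * (a - 1) = 0) with ha | ha
  · exact Or.inl ⟨ha, rfl⟩
  · right
    have ha' : a = 1 := by linear_combination ha
    rcases mul_eq_zero.mp (by linear_combination h4 : d * (d - 1) = 0) with hd | hd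
    · exact absurd (by rw [ha', hd, add_zero]) h
    · exact ⟨ha', rfl, rfl, by linear_combination hd⟩

end Cfsg.Lib.Perm.TwoP
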