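import Mathlib.GroupTheory.GroupAction.MultipleTransitivity
import Mathlib.Tactic.Positivity
import Mathlib.Tactic.FieldSimp
import Cfsg.Agent.Perm.TwoPFourier

/-!
Wielandt's theorem on primitive groups of degree `2 p` containing a product of two `p`-cycles:
the centraliser algebra argument.
-/

set_option autoImplicit false

namespace Cfsg.Lib.Perm.TwoP

open Finset MulAction Matrix

variable {p : ℕ} [hp : Fact p.Prime] {α : Type*} [Fintype α] [DecidableEq α]
  (G : Type*) [Group G] [MulAction G α] (e : Fin 2 × ZMod p ≃ α)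

/-- `G`-invariant matrices. -/
def GInv (M : Matrix α α ℚ) : Prop := ∀ (g : G) x y, M (g • x) (g • y) = M x y

/-- The function `1` on the first cycle and `-1` on the second. -/
def ww (a : α) : ℚ := if (e.symm a).1 = 0 then 1 else -1

/-- Row sum. -/
def kk (M : Matrix α α ℚ) : ℚ := ∑ y, M (e (0, 0)) y

/-- Eigenvalue on `ww`. -/
def th (M : Matrix α α ℚ) : ℚ := ∑ y, M (e (0, 0)) y * ww e y

variable {G e}

omit [Fintype α] [DecidableEq α] hp in
@[simp] theorem ww_zero (x : ZMod p) : ww e (e (0, x)) = 1 := by simp [ww]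

omit [Fintype α] [DecidableEq α] hp in
@[simp] theorem ww_one (x : ZMod p) : ww e (e (1, x)) = -1 := by simp [ww]

omit [Fintype α] [DecidableEq α] hp in
theorem ww_mul_self (a : α) : ww e a * ww e a = 1 := by
  unfold ww; split_ifs <;> norm_num

omit [DecidableEq α] in
theorem sum_ww : ∑ a, ww e a = 0 := by
  rw [sum_coord e]; simp

omit [Fintype α] [DecidableEq α] in
theorem GInv.transpose {M : Matrix α α ℚ} (h : GInv G M) : GInv G Mᵀ := fun g x y => h g y x

omit [Fintype α] in
theorem gInv_one : GInv G (1 : Matrix α α ℚ) := fun g x y => by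
  simp [Matrix.one_apply]

omit [Fintype α] [DecidableEq α] in
theorem GInv.sub {M N : Matrix α α ℚ} (h : GInv G M) (h' : GInv G N) : GInv G (M - N) :=
  fun g x y => by simp [h g x y, h' g x y]

omit [Fintype α] [DecidableEq α] in
theorem GInv.smul {M : Matrix α α ℚ} (h : GInv G M) (r : ℚ) : GInv G (r • M) :=
  fun g x y => by simp [h g x y]

omit [Fintype α] [DecidableEq α] in
theorem GInv.cInv {c : G} (hc : ∀ s j, c • e (s, j) = e (s, j + 1)) {M : Matrix α α ℚ}
    (h : GInv G M) : CInv e M := by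
  have h1 : ∀ (n : ℕ) s j, c ^ n • e (s, j) = e (s, j + n) := by
    intro n s j
    induction n with
    | zero => simp
    | succ n ih => rw [pow_succ', mul_smul, ih, hc, Nat.cast_succ, add_assoc]
  intro s t x y
  rw [← h (c ^ x.val) (e (s, 0)), h1, h1]
  simp

omit [DecidableEq α] in
theorem GInv.row_sum [IsPretransitive G α] {M : Matrix α α ℚ} (h : GInv G M) (x : α) :
    ∑ y, M x y = kk e M := by
  obtain ⟨g, hg⟩ := exists_smul_eq G (e (0, 0)) x
  rw [kk, ← hg, ← Equiv.sum_comp (MulAction.toPerm g)]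
  exact sum_congr rfl fun y _ => h g _ _

omit [Fintype α] [DecidableEq α] in
theorem GInv.diag [IsPretransitive G α] {M : Matrix α α ℚ} (h : GInv G M) (x y : α) :
    M x x = M y y := by
  obtain ⟨g, hg⟩ := exists_smul_eq G y x
  rw [← hg, h]

omit [DecidableEq α] in
theorem GInv.mul_ww [IsPretransitive G α] {c : G} (hc : ∀ s j, c • e (s, j) = e (s, j + 1))
    {M : Matrix α α ℚ} (h : GInv G M) (x : α) : ∑ y, M x y * ww e y = th e M * ww e x := by
  have h1 : ∀ s i, ∑ y, M (e (s, i)) y * ww e y = ∑ y, M (e (s, 0)) y * ww e y := by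
    intro s i
    rw [sum_coord e, sum_coord e]
    simp only [h.cInv hc s _ i, ww_zero, ww_one]
    congr 1
    · exact Equiv.sum_comp (Equiv.subRight i) fun y => M (e (s, 0)) (e (0, y)) * 1
    · exact Equiv.sum_comp (Equiv.subRight i) fun y => M (e (s, 0)) (e (1, y)) * -1
  have h2 : ∑ x, ∑ y, M x y * ww e y = 0 := by
    rw [sum_comm]
    simp only [← sum_mul]
    have : ∀ y, ∑ x, M x y = kk e Mᵀ := fun y => h.transpose.row_sum y
    simp only [this, ← mul_sum, sum_ww, mul_zero]
  rw [sum_coord e] at h2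
  simp only [h1, sum_const, card_univ, ZMod.card, nsmul_eq_mul, ← mul_add, mul_eq_zero,
    Nat.cast_eq_zero, hp.out.ne_zero, false_or] at h2
  obtain ⟨⟨s, i⟩, rfl⟩ := e.surjective x
  rw [h1]
  fin_cases s
  · simp [th]
  · simp only [Fin.mk_one, ww_one, th]
    linear_combination h2

omit [DecidableEq α] in
theorem GInv.half_sum [IsPretransitive G α] {c : G} (hc : ∀ s j, c • e (s, j) = e (s, j + 1))
    {M : Matrix α α ℚ} (h : GInv G M) :
    2 * ∑ x, M (e (0, 0)) (e (0, x)) = kk e M + th e M ∧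
    2 * ∑ x, M (e (1, 0)) (e (1, x)) = kk e M + th e M ∧
    2 * ∑ x, M (e (0, 0)) (e (1, x)) = kk e M - th e M ∧
    2 * ∑ x, M (e (1, 0)) (e (0, x)) = kk e M - th e M := by
  have h1 := h.row_sum (e := e) (e (0, 0))
  have h2 := h.row_sum (e := e) (e (1, 0))
  have h3 := h.mul_ww hc (e (0, 0))
  have h4 := h.mul_ww hc (e (1, 0))
  rw [sum_coord e] at h1 h2 h3 h4
  simp only [ww_zero, ww_one, mul_one, mul_neg, sum_neg_distrib] at h3 h4
  refine ⟨?_, ?_, ?_, ?_⟩ <;> linarith

omit [DecidableEq α] in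
/-- The projection onto the common eigenspace through `ww`. -/
theorem exists_proj [Finite G] [IsPretransitive G α] {c : G}
    (hc : ∀ s j, c • e (s, j) = e (s, j + 1)) : ∃ E : Matrix α α ℚ, GInv G E ∧ Eᵀ = E ∧
      (∀ M, GInv G M → M * E = th e M • E) ∧ th e E = 1 ∧ kk e E = 0 := by
  have := Fintype.ofFinite G
  let E0 : Matrix α α ℚ := Matrix.of fun x y => ∑ g : G, ww e (g • x) * ww e (g • y)
  have hE0 : ∀ x y, E0 x y = ∑ g : G, ww e (g • x) * ww e (g • y) := fun x y => rfl
  have h1 : GInv G E0 := by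
    intro g x y
    rw [hE0, hE0, ← Equiv.sum_comp (Equiv.mulRight g) fun k : G => ww e (k • x) * ww e (k • y)]
    simp [mul_smul]
  have h2 : E0ᵀ = E0 := by
    ext x y
    simp [hE0, mul_comm]
  have h3 : ∀ M, GInv G M → M * E0 = th e M • E0 := by
    intro M hM
    ext x y
    simp only [Matrix.mul_apply, hE0, mul_sum, Matrix.smul_apply, smul_eq_mul]
    rw [sum_comm]
    refine sum_congr rfl fun g _ => ?_
    rw [← mul_assoc, ← hM.mul_ww hc, sum_mul,
      ← Equiv.sum_comp (MulAction.toPerm g) fun z => M (g • x) z * ww e z * ww e (g • y)]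
    refine sum_congr rfl fun z _ => ?_
    rw [MulAction.toPerm_apply, hM, mul_assoc]
  have h4 : th e E0 ≠ 0 := by
    intro h0
    have h5 := congrFun (congrFun (h3 E0 h1) (e (0, 0))) (e (0, 0))
    rw [h0, zero_smul, Matrix.mul_apply, Matrix.zero_apply] at h5
    have h6 : ∀ y, E0 y (e (0, 0)) = E0 (e (0, 0)) y := fun y => by
      rw [← Matrix.transpose_apply E0, h2]
    simp only [h6] at h5
    have h7 := (sum_eq_zero_iff_of_nonneg fun y _ => mul_self_nonneg _).mp h5 (e (0, 0))
      (mem_univ _)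
    rw [mul_self_eq_zero, hE0] at h7
    simp [ww_mul_self] at h7
  refine ⟨(th e E0)⁻¹ • E0, h1.smul _, by rw [transpose_smul, h2], fun M hM => ?_, ?_, ?_⟩
  · rw [Matrix.mul_smul, h3 M hM, smul_comm]
  · simp only [th, Matrix.smul_apply, smul_eq_mul, mul_assoc, ← mul_sum]
    exact inv_mul_cancel₀ h4
  · simp only [kk, Matrix.smul_apply, smul_eq_mul, ← mul_sum, hE0]
    rw [sum_comm]
    simp only [← mul_sum]
    have : ∀ g : G, ∑ y, ww e (g • y) = 0 := fun g => by
      rw [← sum_ww (e := e)]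
      exact Equiv.sum_comp (MulAction.toPerm g) (ww e)
    simp [this]

variable (G) in
open Classical in
/-- The orbital matrices. -/
noncomputable def orb (o : orbitRel.Quotient G (α × α)) : Matrix α α ℚ :=
  Matrix.of fun x y => if (Quotient.mk _ (x, y) : orbitRel.Quotient G (α × α)) = o then 1 else 0

omit [Fintype α] [DecidableEq α] in
theorem mk_smul (g : G) (x y : α) :
    (Quotient.mk _ (g • x, g • y) : orbitRel.Quotient G (α × α)) = Quotient.mk _ (x, y) :=
  Quotient.sound ⟨g, rfl⟩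

omit [Fintype α] [DecidableEq α] in
theorem mk_eq_iff {x y x' y' : α} :
    (Quotient.mk _ (x, y) : orbitRel.Quotient G (α × α)) = Quotient.mk _ (x', y') ↔
      ∃ g : G, g • x' = x ∧ g • y' = y := by
  rw [Quotient.eq]
  exact ⟨fun ⟨g, hg⟩ => ⟨g, congrArg Prod.fst hg, congrArg Prod.snd hg⟩,
    fun ⟨g, h1, h2⟩ => ⟨g, Prod.ext h1 h2⟩⟩

omit [Fintype α] [DecidableEq α] in
theorem gInv_orb (o : orbitRel.Quotient G (α × α)) : GInv G (orb G o) := fun g x y => by
  simp only [orb, Matrix.of_apply]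
  rw [mk_smul]

omit [Fintype α] [DecidableEq α] in
theorem orb_of_eq {o : orbitRel.Quotient G (α × α)} {x y : α} (h : Quotient.mk _ (x, y) = o) :
    orb G o x y = 1 := by simp [orb, h]

omit [Fintype α] [DecidableEq α] in
theorem orb_of_ne {o : orbitRel.Quotient G (α × α)} {x y : α} (h : Quotient.mk _ (x, y) ≠ o) :
    orb G o x y = 0 := by simp [orb, h]

omit [Fintype α] [DecidableEq α] in
theorem orb_nonneg (o : orbitRel.Quotient G (α × α)) (x y : α) : 0 ≤ orb G o x y := by
  by_cases h : Quotient.mk _ (x, y) = o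
  · rw [orb_of_eq h]; norm_num
  · rw [orb_of_ne h]

omit [Fintype α] [DecidableEq α] in
theorem orb_mul_self (o : orbitRel.Quotient G (α × α)) (x y : α) :
    orb G o x y * orb G o x y = orb G o x y := by
  by_cases h : Quotient.mk _ (x, y) = o
  · rw [orb_of_eq h]; norm_num
  · rw [orb_of_ne h]; norm_num

omit [Fintype α] [DecidableEq α] in
theorem GInv.eq_of_mk_eq {M : Matrix α α ℚ} (h : GInv G M) {x y x' y' : α}
    (hq : (Quotient.mk _ (x, y) : orbitRel.Quotient G (α × α)) = Quotient.mk _ (x', y')) :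
    M x y = M x' y' := by
  obtain ⟨g, rfl, rfl⟩ := mk_eq_iff.mp hq
  exact h g _ _

/-- An orbital is non-diagonal. -/
def NonDiag (o : orbitRel.Quotient G (α × α)) : Prop := ∀ x : α, Quotient.mk _ (x, x) ≠ o

omit [Fintype α] [DecidableEq α] in
theorem nonDiag_mk {x y : α} (h : x ≠ y) :
    NonDiag (Quotient.mk _ (x, y) : orbitRel.Quotient G (α × α)) := by
  intro z hz
  obtain ⟨g, h1, h2⟩ := mk_eq_iff.mp hz
  exact h (smul_left_cancel g (h1.trans h2.symm))

omit [DecidableEq α] in
theorem one_le_kk_orb [IsPretransitive G α] (o : orbitRel.Quotient G (α × α)) :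
    1 ≤ kk e (orb G o) := by
  obtain ⟨⟨x, y⟩, rfl⟩ := Quotient.exists_rep o
  rw [← (gInv_orb _).row_sum x, ← orb_of_eq (G := G) (x := x) (y := y) rfl]
  exact single_le_sum (f := fun z => orb G (Quotient.mk _ (x, y)) x z)
    (fun z _ => orb_nonneg _ _ _) (mem_univ y)

section Main

variable [IsPretransitive G α] {c : G} (hc : ∀ s j, c • e (s, j) = e (s, j + 1))
  {E : Matrix α α ℚ} (hE : GInv G E) (hEt : Eᵀ = E) (hEM : ∀ M, GInv G M → M * E = th e M • E)
  (hE1 : ∀ x, ptr e E x = if x = 0 then 1 else 0)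

include hE hE1 in
omit [Fintype α] [DecidableEq α] in
theorem proj_diag (x : α) : E x x = 1 / 2 := by
  have h := hE1 0
  rw [ptr, if_pos rfl, hE.diag (e (0, 0)) x, hE.diag (e (1, 0)) x] at h
  linarith

include hE hEt hEM hE1 in
omit [DecidableEq α] in
theorem th_transpose {M : Matrix α α ℚ} (hM : GInv G M) : th e Mᵀ = th e M := by
  have h1 : E * M = th e Mᵀ • E := by
    have := congrArg Matrix.transpose (hEM _ hM.transpose)
    rwa [transpose_mul, transpose_transpose, transpose_smul, hEt] at this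
  have h2 : E * (M * E) = (E * M) * E := (Matrix.mul_assoc _ _ _).symm
  rw [hEM M hM, h1, Matrix.mul_smul, Matrix.smul_mul] at h2
  have h3 := congrFun (congrFun h2 (e (0, 0))) (e (0, 0))
  simp only [Matrix.smul_apply, smul_eq_mul] at h3
  have h4 : (E * E) (e (0, 0)) (e (0, 0)) ≠ 0 := by
    intro h5
    rw [Matrix.mul_apply] at h5
    have h6 : ∀ y, E y (e (0, 0)) = E (e (0, 0)) y := fun y => by
      rw [← Matrix.transpose_apply E, hEt]
    simp only [h6] at h5
    have h7 := (sum_eq_zero_iff_of_nonneg fun y _ => mul_self_nonneg _).mp h5 (e (0, 0))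
      (mem_univ _)
    rw [proj_diag hE hE1] at h7
    norm_num at h7
  exact (mul_right_cancel₀ h4 h3).symm

include hE hEt hEM hE1 in
omit [DecidableEq α] in
theorem th_eq_zero_of_entry {x y : α} (h : E x y = 0) :
    th e (orb G (Quotient.mk _ (x, y))) = 0 := by
  have h1 := congrFun (congrFun (hEM _ (gInv_orb (G := G) (Quotient.mk _ (x, y)))) x) x
  rw [Matrix.mul_apply, Matrix.smul_apply, proj_diag hE hE1, sum_eq_zero] at h1
  · simpa using h1.symm
  · intro z _
    by_cases hz : (Quotient.mk _ (x, z) : orbitRel.Quotient G (α × α)) = Quotient.mk _ (x, y)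
    · rw [← Matrix.transpose_apply E x z, hEt, hE.eq_of_mk_eq hz, h, mul_zero]
    · rw [orb_of_ne hz, zero_mul]

include hc hE hEt hEM hE1 in
open Classical in
theorem rel_one {o o' : orbitRel.Quotient G (α × α)} (ho : NonDiag o) (ho' : NonDiag o') :
    2 * (if o = o' then kk e (orb G o) else 0) = 2 * th e (orb G o) * th e (orb G o') +
      ∑ x, ptr e (orb G o) x * ptr e (orb G o') x := by
  obtain ⟨ζ, hζ⟩ : ∃ ζ : ℂ, IsPrimitiveRoot ζ p := ⟨_, Complex.isPrimitiveRoot_exp p hp.out.ne_zero⟩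
  have hY : GInv G ((orb G o')ᵀ - th e (orb G o') • (1 : Matrix α α ℚ)) :=
    (gInv_orb o').transpose.sub (gInv_one.smul _)
  have h1 := ptr_mul e hζ (X := orb G o - th e (orb G o) • (1 : Matrix α α ℚ)) (hE.cInv hc)
    (hY.cInv hc) hE1 (by rw [Matrix.sub_mul, hEM _ (gInv_orb o)]; simp)
    (by rw [Matrix.sub_mul, hEM _ (gInv_orb o').transpose,
      th_transpose hE hEt hEM hE1 (gInv_orb o')]; simp) 0
  have h2 : ∀ x, ((orb G o - th e (orb G o) • (1 : Matrix α α ℚ)) *
      ((orb G o')ᵀ - th e (orb G o') • (1 : Matrix α α ℚ))) x x =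
      (if o = o' then kk e (orb G o) else 0) + th e (orb G o) * th e (orb G o') := by
    intro x
    simp only [Matrix.sub_mul, Matrix.mul_sub, Matrix.mul_smul, Matrix.smul_mul, Matrix.mul_one,
      Matrix.one_mul]
    simp only [Matrix.sub_apply, Matrix.smul_apply, transpose_apply, orb_of_ne (ho x),
      orb_of_ne (ho' x), Matrix.one_apply_eq, smul_eq_mul, Matrix.mul_apply]
    split_ifs with h
    · subst h
      simp only [orb_mul_self, (gInv_orb o).row_sum (e := e)]
      ring
    · rw [sum_eq_zero]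
      · ring
      · intro z _
        by_cases hz : Quotient.mk _ (x, z) = o
        · rw [orb_of_ne (o := o') (hz ▸ h), mul_zero]
        · rw [orb_of_ne hz, zero_mul]
  have h3 : ∀ y, ptr e (orb G o - th e (orb G o) • (1 : Matrix α α ℚ)) y =
      ptr e (orb G o) y - if y = 0 then 2 * th e (orb G o) else 0 := by
    intro y
    simp only [ptr, Matrix.sub_apply, Matrix.smul_apply, Matrix.one_apply, e.injective.eq_iff,
      Prod.mk.injEq, true_and, eq_comm (a := (0 : ZMod p))]
    split_ifs <;> simp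
    ring
  have h4 : ∀ y, ptr e ((orb G o')ᵀ - th e (orb G o') • (1 : Matrix α α ℚ)) (0 - y) =
      ptr e (orb G o') y - if y = 0 then 2 * th e (orb G o') else 0 := by
    intro y
    simp only [ptr, Matrix.sub_apply, Matrix.smul_apply, Matrix.one_apply, e.injective.eq_iff,
      Prod.mk.injEq, true_and, eq_comm (a := (0 : ZMod p)), transpose_apply,
      (gInv_orb o').cInv hc _ _ (-y), zero_sub, neg_neg, neg_eq_zero]
    split_ifs <;> simp
    ring
  have h5 : ptr e (orb G o) 0 = 0 := by simp [ptr, orb_of_ne (ho _)]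
  have h6 : ptr e (orb G o') 0 = 0 := by simp [ptr, orb_of_ne (ho' _)]
  rw [ptr, h2, h2] at h1
  simp only [h3, h4, sub_mul, mul_sub, sum_sub_distrib, ite_mul, mul_ite, zero_mul, mul_zero,
    sum_ite_eq', mem_univ, if_true, h5, h6] at h1
  linarith

end Main

end Cfsg.Lib.Perm.TwoP
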