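import Mathlib.GroupTheory.GroupAction.Primitive
import Mathlib.GroupTheory.GroupAction.Period
import Cfsg.Agent.Perm.TwoP

/-!
Wielandt's theorem on primitive groups of degree `2 p`: the endgame.
-/

set_option autoImplicit false

namespace Cfsg.Lib.Perm.TwoP

open Finset MulAction Matrix

variable {p : ℕ} [hp : Fact p.Prime] {α : Type*} [Fintype α] [DecidableEq α]
  {G : Type*} [Group G] [MulAction G α] {e : Fin 2 × ZMod p ≃ α}

omit [Fintype α] [DecidableEq α] in
theorem sum_orb [Fintype (orbitRel.Quotient G (α × α))] (x y : α) :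
    ∑ o, orb G o x y = 1 := by
  rw [sum_eq_single (Quotient.mk _ (x, y))]
  · exact orb_of_eq rfl
  · intro o _ ho
    exact orb_of_ne ho.symm
  · simp

omit [Fintype α] in
theorem orb_diag [IsPretransitive G α] (a : α) :
    orb G (Quotient.mk _ (a, a)) = (1 : Matrix α α ℚ) := by
  ext x y
  by_cases h : x = y
  · subst h
    obtain ⟨g, hg⟩ := exists_smul_eq G a x
    rw [orb_of_eq (mk_eq_iff.mpr ⟨g, hg, hg⟩), Matrix.one_apply_eq]
  · rw [orb_of_ne (nonDiag_mk h a).symm, Matrix.one_apply_ne h]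

omit [Fintype α] [DecidableEq α] in
theorem nonDiag_iff [IsPretransitive G α] (a : α) {o : orbitRel.Quotient G (α × α)} :
    NonDiag o ↔ o ≠ Quotient.mk _ (a, a) := by
  refine ⟨fun h => (h a).symm, fun h x hx => h ?_⟩
  obtain ⟨g, hg⟩ := exists_smul_eq G a x
  rw [← hx]
  exact mk_eq_iff.mpr ⟨g, hg, hg⟩

theorem th_one : th e (1 : Matrix α α ℚ) = 1 := by
  simp [th, Matrix.one_apply]

theorem kk_one : kk e (1 : Matrix α α ℚ) = 1 := by
  simp [kk, Matrix.one_apply]

omit [DecidableEq α] in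
theorem sum_th_orb [Fintype (orbitRel.Quotient G (α × α))] : ∑ o, th e (orb G o) = 0 := by
  simp only [th]
  rw [sum_comm]
  simp only [← sum_mul, sum_orb, one_mul, sum_ww]

omit [DecidableEq α] in
theorem sum_kk_orb [Fintype (orbitRel.Quotient G (α × α))] : ∑ o, kk e (orb G o) = 2 * p := by
  simp only [kk]
  rw [sum_comm]
  simp only [sum_orb]
  rw [sum_coord e]
  simp [two_mul]

omit [DecidableEq α] in
theorem th_orb_int (o : orbitRel.Quotient G (α × α)) : ∃ z : ℤ, th e (orb G o) = z := by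
  classical
  refine ⟨∑ y, (if (Quotient.mk _ (e (0, 0), y) : orbitRel.Quotient G (α × α)) = o then 1 else 0) *
    (if (e.symm y).1 = 0 then 1 else -1), ?_⟩
  simp only [th, orb, ww, Matrix.of_apply]
  push_cast
  refine sum_congr rfl fun y _ => ?_
  congr

section Main

variable [IsPretransitive G α] {c : G} (hc : ∀ s j, c • e (s, j) = e (s, j + 1))
  {E : Matrix α α ℚ} (hE : GInv G E) (hEt : Eᵀ = E) (hEM : ∀ M, GInv G M → M * E = th e M • E)
  (hE1 : ∀ x, ptr e E x = if x = 0 then 1 else 0)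

include hc hE hEt hEM hE1 in
theorem kk_orb_eq {o : orbitRel.Quotient G (α × α)} (ho : NonDiag o) :
    kk e (orb G o) = 2 * th e (orb G o) ^ 2 + th e (orb G o) +
      2 * ∑ x, orb G o (e (0, 0)) (e (0, x)) * orb G o (e (1, 0)) (e (1, x)) := by
  have h1 := rel_one hc hE hEt hEM hE1 ho ho
  obtain ⟨h2, h3, -⟩ := (gInv_orb o).half_sum hc
  rw [if_pos rfl] at h1
  have h4 : ∀ x, ptr e (orb G o) x * ptr e (orb G o) x = orb G o (e (0, 0)) (e (0, x)) +
      orb G o (e (1, 0)) (e (1, x)) +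
      2 * (orb G o (e (0, 0)) (e (0, x)) * orb G o (e (1, 0)) (e (1, x))) := by
    intro x
    rw [ptr]
    linear_combination orb_mul_self o (e (0, 0)) (e (0, x)) + orb_mul_self o (e (1, 0)) (e (1, x))
  simp only [h4, sum_add_distrib, ← mul_sum] at h1
  linarith

include hc hE hEt hEM hE1 in
theorem kk_orb_eq_of_th_ne_zero {o : orbitRel.Quotient G (α × α)} (ho : NonDiag o)
    (hθ : th e (orb G o) ≠ 0) :
    kk e (orb G o) = th e (orb G o) * (2 * th e (orb G o) + 1) := by
  rw [kk_orb_eq hc hE hEt hEM hE1 ho, sum_eq_zero]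
  · ring
  intro x _
  by_cases h1 : Quotient.mk _ (e (0, 0), e (0, x)) = o
  swap
  · rw [orb_of_ne h1, zero_mul]
  by_cases h2 : Quotient.mk _ (e (1, 0), e (1, x)) = o
  swap
  · rw [orb_of_ne h2, mul_zero]
  exfalso
  have hx : x ≠ 0 := by
    rintro rfl
    exact ho _ h1
  have h3 := hE1 x
  rw [if_neg hx, ptr, ← hE.eq_of_mk_eq (h1.trans h2.symm)] at h3
  apply hθ
  rw [← h1]
  exact th_eq_zero_of_entry hE hEt hEM hE1 (by linarith)

theorem exists_th_ne_zero : ∃ o : orbitRel.Quotient G (α × α), NonDiag o ∧ th e (orb G o) ≠ 0 := by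
  have := Fintype.ofFinite (orbitRel.Quotient G (α × α))
  by_contra! h
  have h1 := sum_th_orb (G := G) (e := e)
  rw [sum_eq_single (Quotient.mk _ (e (0, 0), e (0, 0))), orb_diag, th_one] at h1
  · exact one_ne_zero h1
  · intro o _ ho
    exact h o ((nonDiag_iff _).mpr ho)
  · simp

include hc hE hEt hEM hE1 in
theorem th_ne_zero
    (hk : ∀ o : orbitRel.Quotient G (α × α), NonDiag o → kk e (orb G o) ≠ 1)
    {o : orbitRel.Quotient G (α × α)} (ho : NonDiag o) : th e (orb G o) ≠ 0 := by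
  intro hθ
  obtain ⟨ζ, hζ⟩ : ∃ ζ : ℂ, IsPrimitiveRoot ζ p := ⟨_, Complex.isPrimitiveRoot_exp p hp.out.ne_zero⟩
  have h1 := kk_orb_eq hc hE hEt hEM hE1 ho
  obtain ⟨h2, h3, -⟩ := (gInv_orb o).half_sum hc
  rw [hθ] at h1 h2 h3
  have h4 : ∀ x, orb G o (e (0, 0)) (e (0, x)) = orb G o (e (1, 0)) (e (1, x)) := by
    have h5 : ∑ x, (orb G o (e (0, 0)) (e (0, x)) - orb G o (e (1, 0)) (e (1, x))) *
        (orb G o (e (0, 0)) (e (0, x)) - orb G o (e (1, 0)) (e (1, x))) = 0 := by
      simp only [mul_sub, sub_mul, orb_mul_self, sum_sub_distrib,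
        mul_comm (orb G o (e (1, 0)) _) (orb G o (e (0, 0)) _)]
      linarith
    intro x
    have := (sum_eq_zero_iff_of_nonneg fun y _ => mul_self_nonneg _).mp h5 x (mem_univ _)
    rwa [mul_self_eq_zero, sub_eq_zero] at this
  have h5 : hat e ζ (orb G o) 1 1 = hat e ζ (orb G o) 0 0 := by
    simp only [hat, h4]
  have h6 : orb G o * E = 0 := by rw [hEM _ (gInv_orb o), hθ, zero_smul]
  have h7 : E * orb G o = 0 := by
    have := congrArg Matrix.transpose (hEM _ (gInv_orb o).transpose)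
    rwa [transpose_mul, transpose_transpose, transpose_smul, hEt,
      th_transpose hE hEt hEM hE1 (gInv_orb o), hθ, zero_smul] at this
  have h8 := hat_mul e hζ.pow_eq_one (orb G o) (hE.cInv hc) 0 0
  have h9 := hat_mul e hζ.pow_eq_one E ((gInv_orb o).cInv hc) 1 1
  rw [h6, hat_zero] at h8
  rw [h7, hat_zero, h5] at h9
  have h10 : hat e ζ (orb G o) 0 0 * (hat e ζ E 0 0 - hat e ζ E 1 1) = 0 := by
    linear_combination h9 - h8
  rcases mul_eq_zero.mp h10 with h11 | h11
  · have h12 : ∀ x, orb G o (e (0, 0)) (e (0, x)) = 0 := fun x =>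
      (const_of_ft_eq_zero hζ h11 x 0).trans (orb_of_ne (ho _))
    have := one_le_kk_orb (e := e) o
    simp only [h12, sum_const_zero] at h2
    linarith
  · obtain ⟨h12, h13, -⟩ := hE.half_sum hc
    have h14 : ∀ x, E (e (0, 0)) (e (0, x)) - E (e (1, 0)) (e (1, x)) = 0 := by
      refine eq_zero_of_ft_eq_zero hζ ?_ ?_
      · rw [ft_sub]
        exact h11
      · rw [ft_one, sum_sub_distrib, Rat.cast_eq_zero]
        linarith
    obtain ⟨o', ho', hθ'⟩ := exists_th_ne_zero (G := G) (e := e)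
    have h15 : ∀ x, orb G o' (e (0, 0)) (e (0, x)) = 0 := by
      intro x
      refine orb_of_ne fun h16 => ?_
      have hx : x ≠ 0 := by
        rintro rfl
        exact ho' _ h16
      have h17 := hE1 x
      have h18 := h14 x
      rw [if_neg hx, ptr] at h17
      apply hθ'
      rw [← h16]
      exact th_eq_zero_of_entry hE hEt hEM hE1 (by linarith)
    obtain ⟨h16, -⟩ := (gInv_orb o').half_sum hc
    simp only [h15, sum_const_zero] at h16
    have h17 := kk_orb_eq_of_th_ne_zero hc hE hEt hEM hE1 ho' hθ'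
    have h18 : th e (orb G o') * (th e (orb G o') + 1) = 0 := by linarith
    have h19 := (mul_eq_zero.mp h18).resolve_left hθ'
    exact hk o' ho' (by linarith)

include hc hE hEt hEM hE1 in
theorem th_mul_th_nonpos {o o' : orbitRel.Quotient G (α × α)} (ho : NonDiag o) (ho' : NonDiag o')
    (h : o ≠ o') : th e (orb G o) * th e (orb G o') ≤ 0 := by
  have h1 := rel_one hc hE hEt hEM hE1 ho ho'
  rw [if_neg h] at h1
  have h2 : 0 ≤ ∑ x, ptr e (orb G o) x * ptr e (orb G o') x :=
    sum_nonneg fun x _ => mul_nonneg (add_nonneg (orb_nonneg _ _ _) (orb_nonneg _ _ _))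
      (add_nonneg (orb_nonneg _ _ _) (orb_nonneg _ _ _))
  linarith

include hc hE hEt hEM hE1 in
theorem endgame
    (hk : ∀ o : orbitRel.Quotient G (α × α), NonDiag o → kk e (orb G o) ≠ 1) :
    IsMultiplyPretransitive G α 2 ∨ (Nat.card (orbitRel.Quotient G (α × α)) = 3 ∧
      ∃ m : ℕ, 0 < m ∧ p = 2 * m ^ 2 + 2 * m + 1 ∧ ∀ o : orbitRel.Quotient G (α × α), NonDiag o →
        kk e (orb G o) = (m * (2 * m + 1) : ℕ) ∨ kk e (orb G o) = ((m + 1) * (2 * m + 1) : ℕ)) := by
  classical
  have := Fintype.ofFinite (orbitRel.Quotient G (α × α))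
  have hne := fun o ho => th_ne_zero hc hE hEt hEM hE1 hk (o := o) ho
  by_cases h : ∀ o o' : orbitRel.Quotient G (α × α), NonDiag o → NonDiag o' → o = o'
  · left
    rw [is_two_pretransitive_iff]
    intro a b a' b' hab hab'
    exact mk_eq_iff.mp (h _ _ (nonDiag_mk hab') (nonDiag_mk hab))
  right
  push Not at h
  obtain ⟨o1, o2, ho1, ho2, h12, hpos⟩ : ∃ o1 o2 : orbitRel.Quotient G (α × α), NonDiag o1 ∧
      NonDiag o2 ∧ o1 ≠ o2 ∧ 0 < th e (orb G o1) := by
    obtain ⟨o, o', ho, ho', h⟩ := h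
    rcases lt_or_gt_of_ne (hne o ho) with h1 | h1
    · refine ⟨o', o, ho', ho, h.symm, ?_⟩
      have h2 := th_mul_th_nonpos hc hE hEt hEM hE1 ho ho' h
      exact lt_of_le_of_ne (nonneg_of_mul_nonpos_right h2 h1) (hne o' ho').symm
    · exact ⟨o, o', ho, ho', h, h1⟩
  have hneg : ∀ o, NonDiag o → o ≠ o1 → th e (orb G o) < 0 := fun o ho h =>
    lt_of_le_of_ne (nonpos_of_mul_nonpos_left (th_mul_th_nonpos hc hE hEt hEM hE1 ho ho1 h) hpos)
      (hne o ho)
  have hall : ∀ o, NonDiag o → o = o1 ∨ o = o2 := by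
    intro o ho
    by_contra! h
    have h1 := th_mul_th_nonpos hc hE hEt hEM hE1 ho ho2 h.2
    have h2 := mul_pos_of_neg_of_neg (hneg o ho h.1) (hneg o2 ho2 h12.symm)
    linarith
  set o0 : orbitRel.Quotient G (α × α) := Quotient.mk _ (e (0, 0), e (0, 0)) with ho0
  have h01 : o0 ≠ o1 := ho1 _
  have h02 : o0 ≠ o2 := ho2 _
  have huniv : (univ : Finset (orbitRel.Quotient G (α × α))) = {o0, o1, o2} := by
    ext o
    simp only [mem_univ, mem_insert, mem_singleton, true_iff]
    by_cases h : o = o0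
    · exact Or.inl h
    · exact Or.inr (hall o ((nonDiag_iff _).mpr h))
  have hs1 := sum_th_orb (G := G) (e := e)
  have hs2 := sum_kk_orb (G := G) (e := e)
  rw [huniv, sum_insert (by simp [h01, h02]), sum_pair h12, ho0, orb_diag] at hs1 hs2
  rw [th_one] at hs1
  rw [kk_one] at hs2
  have hk1 := kk_orb_eq_of_th_ne_zero hc hE hEt hEM hE1 ho1 (hne _ ho1)
  have hk2 := kk_orb_eq_of_th_ne_zero hc hE hEt hEM hE1 ho2 (hne _ ho2)
  obtain ⟨z, hz⟩ := th_orb_int (e := e) o1
  rw [hz] at hpos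
  obtain ⟨m, rfl⟩ := Int.eq_ofNat_of_zero_le (Int.cast_pos.mp hpos).le
  rw [Int.cast_natCast] at hz hpos
  have hz2 : th e (orb G o2) = -(m + 1) := by linarith
  rw [hz] at hk1
  rw [hz2] at hk2
  refine ⟨?_, m, Nat.cast_pos.mp hpos, ?_, ?_⟩
  · rw [Nat.card_eq_fintype_card, ← card_univ, huniv, card_insert_of_notMem (by simp [h01, h02]),
      card_pair h12]
  · have : (p : ℚ) = 2 * m ^ 2 + 2 * m + 1 := by linarith
    exact_mod_cast this
  · intro o ho
    rcases hall o ho with rfl | rfl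
    · left
      rw [hk1]
      push_cast
      ring
    · right
      rw [hk2]
      push_cast
      ring

end Main

omit [DecidableEq α] in
theorem kk_orb_mk [IsPretransitive G α] (a b : α) :
    kk e (orb G (Quotient.mk _ (a, b))) = Nat.card (orbit (stabilizer G a) b) := by
  classical
  rw [← (gInv_orb _).row_sum a, Nat.card_eq_fintype_card, Fintype.card_subtype, card_filter]
  push_cast
  refine sum_congr rfl fun y _ => ?_
  split_ifs with h
  · obtain ⟨⟨g, hg⟩, rfl⟩ := h
    exact orb_of_eq (mk_eq_iff.mpr ⟨g, hg, rfl⟩)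
  · refine orb_of_ne fun h' => h ?_
    obtain ⟨g, hg, rfl⟩ := mk_eq_iff.mp h'
    exact ⟨⟨g, hg⟩, rfl⟩

theorem main [Finite G] (hG : IsPreprimitive G α) {c : G}
    (hc : ∀ s j, c • e (s, j) = e (s, j + 1))
    (hk : ∀ o : orbitRel.Quotient G (α × α), NonDiag o → kk e (orb G o) ≠ 1) :
    IsMultiplyPretransitive G α 2 ∨ (Nat.card (orbitRel.Quotient G (α × α)) = 3 ∧
      ∃ m : ℕ, 0 < m ∧ p = 2 * m ^ 2 + 2 * m + 1 ∧ ∀ o : orbitRel.Quotient G (α × α), NonDiag o →
        kk e (orb G o) = (m * (2 * m + 1) : ℕ) ∨ kk e (orb G o) = ((m + 1) * (2 * m + 1) : ℕ)) := by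
  obtain ⟨E, hE, hEt, hEM, hth, hkk⟩ := exists_proj (e := e) hc
  obtain ⟨ζ, hζ⟩ : ∃ ζ : ℂ, IsPrimitiveRoot ζ p := ⟨_, Complex.isPrimitiveRoot_exp p hp.out.ne_zero⟩
  have hEE : E * E = E := by rw [hEM E hE, hth, one_smul]
  have hm := fun s t => hat_mul e hζ.pow_eq_one E (hE.cInv hc) s t
  simp only [hEE] at hm
  obtain ⟨h1, h2, h3, h4⟩ := hE.half_sum hc
  rw [hth, hkk] at h1 h2 h3 h4
  have hp0 : (p : ℚ) ≠ 0 := Nat.cast_ne_zero.mpr hp.out.ne_zero
  rcases idem_cases (hm 0 0).symm (hm 0 1).symm (hm 1 0).symm (hm 1 1).symm with h | h | h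
  · refine endgame hc hE hEt hEM ?_ hk
    intro x
    rw [← sub_eq_zero]
    refine eq_zero_of_ft_eq_zero (f := fun x => ptr e E x - if x = 0 then 1 else 0) hζ ?_ ?_ x
    · rw [ft_sub, ft_ite, ft_ptr, h]
      simp
    · rw [ft_one, Rat.cast_eq_zero]
      simp only [ptr, sum_sub_distrib, sum_add_distrib, sum_ite_eq', mem_univ, if_true]
      linarith
  · exfalso
    have h5 := const_of_ft_eq_zero hζ h.1
    have h6 := const_of_ft_eq_zero hζ h.2
    have h7 : ∀ i j, E (e (0, i)) (e (0, j)) = 1 / (2 * p) := by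
      intro i j
      rw [hE.cInv hc]
      simp only [h5 _ (j - i), sum_const, card_univ, ZMod.card, nsmul_eq_mul] at h1
      field_simp
      linarith
    have h8 : ∀ i j, E (e (0, i)) (e (1, j)) = - 1 / (2 * p) := by
      intro i j
      rw [hE.cInv hc]
      simp only [h6 _ (j - i), sum_const, card_univ, ZMod.card, nsmul_eq_mul] at h3
      field_simp
      linarith
    have hB : IsBlock G (Set.range fun j => e (0, j)) := by
      rw [isBlock_iff_smul_eq_of_mem]
      rintro g _ ⟨i, rfl⟩ ⟨i', hi'⟩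
      refine Set.eq_of_subset_of_ncard_le ?_ (Set.ncard_smul_set _ _).ge (Set.toFinite _)
      rintro _ ⟨_, ⟨j, rfl⟩, rfl⟩
      obtain ⟨⟨s, j'⟩, hj'⟩ := e.surjective (g • e (0, j))
      have h9 := hE g (e (0, i)) (e (0, j))
      simp only at hi'
      rw [← hi', ← hj', h7 i j] at h9
      fin_cases s
      · exact ⟨j', hj'⟩
      · exfalso
        rw [Fin.mk_one, h8] at h9
        field_simp at h9
        norm_num at h9
    rcases hG.isTrivialBlock_of_isBlock hB with h9 | h9
    · have := h9 ⟨0, rfl⟩ ⟨1, rfl⟩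
      simp at this
    · obtain ⟨j, hj⟩ : e (1, 0) ∈ Set.range fun j => e (0, j) := h9 ▸ Set.mem_univ _
      simp at hj
  · left
    have h5 := const_of_ft_eq_zero hζ (f := fun x => E (e (0, 0)) (e (0, x)) -
      if x = 0 then 1 else 0) (by rw [ft_sub, ft_ite]; exact sub_eq_zero.mpr (h.1.trans Rat.cast_one.symm))
    have h6 := const_of_ft_eq_zero hζ h.2.1
    have h7 : ∀ y, E (e (0, 0)) y = (if e (0, 0) = y then 1 else 0) - 1 / (2 * p) := by
      intro y
      obtain ⟨⟨s, j⟩, rfl⟩ := e.surjective y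
      fin_cases s
      · have h8 : ∑ x, (E (e (0, 0)) (e (0, x)) - if x = 0 then 1 else 0) = -1 / 2 := by
          simp only [sum_sub_distrib, sum_ite_eq', mem_univ, if_true]
          linarith
        simp only [h5 _ j, sum_const, card_univ, ZMod.card, nsmul_eq_mul] at h8
        simp only [Fin.zero_eta, e.injective.eq_iff, Prod.mk.injEq, true_and,
          eq_comm (a := (0 : ZMod p))]
        field_simp
        linarith
      · simp only [h6 _ j, sum_const, card_univ, ZMod.card, nsmul_eq_mul] at h3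
        simp only [Fin.mk_one, e.injective.eq_iff, Prod.mk.injEq, zero_ne_one, false_and, if_false]
        field_simp
        linarith
    have h8 : ∀ x y, E x y = (if x = y then 1 else 0) - 1 / (2 * p) := by
      intro x y
      obtain ⟨g, rfl⟩ := exists_smul_eq G (e (0, 0)) x
      obtain ⟨y, rfl⟩ := (MulAction.toPerm g).surjective y
      rw [MulAction.toPerm_apply, hE, h7]
      simp
    have h9 : ∀ M, GInv G M → ∀ x y, x ≠ y → M x y = (kk e M - th e M) / (2 * p) := by
      intro M hM x y hxy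
      have := congrFun (congrFun (hEM M hM) x) y
      simp only [Matrix.mul_apply, h8, Matrix.smul_apply, smul_eq_mul, if_neg hxy, mul_sub,
        sum_sub_distrib, mul_ite, mul_one, mul_zero, sum_ite_eq', mem_univ, if_true, ← sum_mul,
        hM.row_sum (e := e)] at this
      linear_combination this
    rw [is_two_pretransitive_iff]
    intro a b a' b' hab hab'
    refine mk_eq_iff.mp ?_
    by_contra hne
    have h10 := h9 _ (gInv_orb (G := G) (Quotient.mk _ (a, b))) a b hab
    have h11 := h9 _ (gInv_orb (G := G) (Quotient.mk _ (a, b))) a' b' hab'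
    rw [orb_of_eq rfl] at h10
    rw [orb_of_ne hne] at h11
    linarith

omit e in
theorem exists_coord_two (hα : Fintype.card α = 2 * p) {c : G} (hc : orderOf c = p)
    (hfix : ∀ a : α, c • a ≠ a) :
    ∃ e : Fin 2 × ZMod p ≃ α, ∀ s j, c • e (s, j) = e (s, j + 1) := by
  let f : α → ZMod p → α := fun a j => c ^ j.val • a
  have hpow : ∀ a (n : ℕ), f a (n : ZMod p) = c ^ n • a := by
    intro a n
    change c ^ (n : ZMod p).val • a = _
    rw [ZMod.val_natCast, ← hc, pow_mod_orderOf]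
  have hf : ∀ a j, c • f a j = f a (j + 1) := by
    intro a j
    have := hpow a (j.val + 1)
    rw [Nat.cast_add, ZMod.natCast_zmod_val, Nat.cast_one] at this
    rw [this, pow_succ', mul_smul]
  have hadd : ∀ a (n : ℕ) j, c ^ n • f a j = f a (j + n) := by
    intro a n j
    induction n with
    | zero => simp
    | succ n ih => rw [pow_succ', mul_smul, ih, hf, Nat.cast_succ, add_assoc]
  have h0 : ∀ a, f a 0 = a := fun a => by simp [f]
  have hsub : ∀ a b i j, f a i = f b j → f a (i - j) = b := by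
    intro a b i j h
    have := congrArg (c ^ (-j).val • ·) h
    simp only [hadd, ZMod.natCast_zmod_val, add_neg_cancel, h0] at this
    rwa [sub_eq_add_neg]
  have hinj : ∀ a, Function.Injective (f a) := by
    intro a i j hij
    have h1 := pow_smul_eq_iff_period_dvd.mp (hsub _ _ _ _ hij)
    have h2 : period c a = p := by
      refine ((Nat.dvd_prime hp.out).mp (hc ▸ period_dvd_orderOf c a)).resolve_left ?_
      rw [period_eq_one_iff]
      exact hfix a
    rw [h2] at h1
    have h3 := Nat.eq_zero_of_dvd_of_lt h1 (ZMod.val_lt _)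
    rwa [ZMod.val_eq_zero, sub_eq_zero] at h3
  obtain ⟨a⟩ : Nonempty α := Fintype.card_pos_iff.mp (by have := hp.out.pos; omega)
  obtain ⟨b, hb⟩ : ∃ b, b ∉ Set.range (f a) := by
    by_contra! h
    have := Fintype.card_le_of_surjective (f a) h
    rw [ZMod.card] at this
    have := hp.out.pos
    omega
  have hF : Function.Injective fun x : Fin 2 × ZMod p => f (![a, b] x.1) x.2 := by
    rintro ⟨s, i⟩ ⟨t, j⟩ h
    fin_cases s <;> fin_cases t
    · exact Prod.ext rfl (hinj _ h)
    · exact absurd ⟨_, hsub _ _ _ _ h⟩ hb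
    · exact absurd ⟨_, hsub _ _ _ _ h.symm⟩ hb
    · exact Prod.ext rfl (hinj _ h)
  refine ⟨Equiv.ofBijective _ ((Fintype.bijective_iff_injective_and_card _).mpr ⟨hF, ?_⟩),
    fun s j => hf _ _⟩
  simp [hα]

end Cfsg.Lib.Perm.TwoP
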