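import Cfsg.Agent.Perm.WagLin
import Cfsg.Agent.Known.AltSchur
import Mathlib.GroupTheory.Perm.ViaEmbedding
import Mathlib.GroupTheory.SpecificGroups.Alternating.Simple

/-!
# Double covers of alternating groups and the deleted permutation module (helper96)
-/

set_option autoImplicit false

namespace Cfsg.Lib.Perm.Wag

open Module Equiv Cfsg.Lib.Known

variable {Ω : Type*} [Fintype Ω] [DecidableEq Ω] {Γ : Type*} [Group Γ] {f : Γ →* Perm Ω}

theorem exists_even {ι : Type*} [Fintype ι] (a b : ι → Ω) (ha : Function.Injective a)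
    (hb : Function.Injective b) (h : Fintype.card ι + 2 ≤ Fintype.card Ω) :
    ∃ σ : Perm Ω, Perm.sign σ = 1 ∧ ∀ i, σ (a i) = b i := by
  obtain ⟨σ, hσ⟩ := Perm.exists_extending_pair a b ha hb
  rcases Int.units_eq_one_or (Perm.sign σ) with h1 | h1
  · exact ⟨σ, h1, hσ⟩
  have h2 : 1 < (Finset.univ.image b)ᶜ.card := by
    rw [Finset.card_compl, Finset.card_image_of_injective _ hb, Finset.card_univ]; omega
  obtain ⟨x, hx, y, hy, hxy⟩ := Finset.one_lt_card.mp h2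
  simp only [Finset.mem_compl, Finset.mem_image, Finset.mem_univ, true_and, not_exists] at hx hy
  refine ⟨swap x y * σ, by rw [Perm.sign_mul, Perm.sign_swap hxy, h1]; rfl, fun i => ?_⟩
  rw [Perm.mul_apply, hσ, swap_apply_of_ne_of_ne (hx i) (hy i)]

theorem sign_of_odd {σ : Perm Ω} {n : ℕ} (hn : Odd n) (h : σ ^ n = 1) : Perm.sign σ = 1 := by
  rcases Int.units_eq_one_or (Perm.sign σ) with h1 | h1
  · exact h1
  · have := congrArg Perm.sign h
    rw [map_pow, h1, hn.neg_one_pow, map_one] at this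
    exact absurd this (by decide)

/-- A central extension of the alternating group with kernel of order at most `2`. -/
structure Cov (f : Γ →* Perm Ω) : Prop where
  cen : ∀ z, f z = 1 → ∀ g, g * z = z * g
  two : ∀ z z', f z = 1 → f z' = 1 → z ≠ 1 → z' ≠ 1 → z = z'
  sign : ∀ g, Perm.sign (f g) = 1
  surj : ∀ σ, Perm.sign σ = 1 → ∃ g, f g = σ

namespace Cov

theorem sq (h : Cov f) {z : Γ} (hz : f z = 1) : z ^ 2 = 1 := by
  by_cases h1 : z = 1
  · rw [h1, one_pow]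
  · rw [_root_.sq, mul_eq_one_iff_eq_inv]
    exact h.two _ _ hz (by rw [map_inv, hz, inv_one]) h1 (inv_ne_one.mpr h1)

theorem sq_eq (h : Cov f) {a b : Γ} (hab : f a = f b) : a ^ 2 = b ^ 2 := by
  have hz : f (a⁻¹ * b) = 1 := by rw [map_mul, map_inv, hab, inv_mul_cancel]
  rw [← mul_inv_cancel_left a b, Commute.mul_pow (h.cen _ hz a), h.sq hz, mul_one]

theorem eq_pow (h : Cov f) {a b : Γ} (hab : f a = f b) {n : ℕ} (hn : Odd n) (ha : a ^ n = 1) :
    a = b ^ (n + 1) := by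
  obtain ⟨m, rfl⟩ := hn
  rw [show 2 * m + 1 + 1 = 2 * (m + 1) by ring, pow_mul, ← h.sq_eq hab, ← pow_mul,
    show 2 * (m + 1) = 2 * m + 1 + 1 by ring, pow_succ, ha, one_mul]

theorem uniq (h : Cov f) {a b : Γ} (hab : f a = f b) {n : ℕ} (hn : Odd n) (ha : a ^ n = 1)
    (hb : b ^ n = 1) : a = b := by
  rw [h.eq_pow hab hn ha, pow_succ, hb, one_mul]

theorem lift (h : Cov f) {σ : Perm Ω} {n : ℕ} (hn : Odd n) (hσ : σ ^ n = 1) :
    ∃ g, f g = σ ∧ g ^ n = 1 := by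
  obtain ⟨g, rfl⟩ := h.surj σ (sign_of_odd hn hσ)
  refine ⟨g ^ (n + 1), by rw [map_pow, pow_succ, hσ, one_mul], ?_⟩
  obtain ⟨m, hm⟩ := hn
  rw [← pow_mul, mul_comm, pow_mul, show n + 1 = 2 * (m + 1) by omega, pow_mul,
    h.sq (by rw [map_pow, hσ]), one_pow]

theorem conj (h : Cov f) {g x y : Γ} (hg : f g * f x * (f g)⁻¹ = f y) {n : ℕ} (hn : Odd n)
    (hx : x ^ n = 1) (hy : y ^ n = 1) : g * x * g⁻¹ = y :=
  h.uniq (by rw [map_mul, map_mul, map_inv, hg]) hn (by rw [conj_pow, hx, mul_one, mul_inv_cancel])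
    hy

theorem comm (h : Cov f) {g x : Γ} (hg : Commute (f g) (f x)) {n : ℕ} (hn : Odd n)
    (hx : x ^ n = 1) : g * x = x * g :=
  mul_inv_eq_iff_eq_mul.mp (h.conj (by rw [hg.eq, mul_inv_cancel_right]) hn hx hx)

/-- A normal subgroup outside the kernel contains all elements of odd order. -/
theorem mem_of_normal (h : Cov f) (h5 : 5 ≤ Fintype.card Ω) (K : Subgroup Γ) [hK : K.Normal]
    {g : Γ} (hg : g ∈ K) (hg' : f g ≠ 1) {x : Γ} {n : ℕ} (hn : Odd n) (hx : x ^ n = 1) :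
    x ∈ K := by
  have := alternatingGroup.isSimpleGroup (α := Ω) (by rwa [Nat.card_eq_fintype_card])
  let φ : Γ →* alternatingGroup Ω := f.codRestrict _ fun g => Perm.mem_alternatingGroup.mpr (h.sign g)
  have hφ : Function.Surjective φ := fun σ => by
    obtain ⟨g, hg⟩ := h.surj σ (Perm.mem_alternatingGroup.mp σ.2)
    exact ⟨g, Subtype.ext hg⟩
  rcases (hK.map φ hφ).eq_bot_or_eq_top with h1 | h1
  · have h2 : φ g = 1 := Subgroup.mem_bot.mp (h1 ▸ Subgroup.mem_map_of_mem φ hg)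
    exact absurd (congrArg Subtype.val h2) hg'
  · obtain ⟨y, hy, hy'⟩ : φ x ∈ K.map φ := h1 ▸ Subgroup.mem_top _
    rw [h.eq_pow (congrArg Subtype.val hy').symm hn hx]
    exact pow_mem hy _

end Cov

section Pull

variable {Ω' : Type*} [Fintype Ω'] [DecidableEq Ω']

/-- The pullback of a cover along a homomorphism of symmetric groups. -/
def Pull (f : Γ →* Perm Ω) (j : Perm Ω' →* Perm Ω) : Subgroup (Γ × Perm Ω') :=
  (f.comp (MonoidHom.fst _ _)).eqLocus (j.comp (MonoidHom.snd _ _))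

/-- First projection. -/
def Pull.ι (f : Γ →* Perm Ω) (j : Perm Ω' →* Perm Ω) : Pull f j →* Γ :=
  (MonoidHom.fst _ _).comp (Subgroup.subtype _)

/-- Second projection. -/
def Pull.π (f : Γ →* Perm Ω) (j : Perm Ω' →* Perm Ω) : Pull f j →* Perm Ω' :=
  (MonoidHom.snd _ _).comp (Subgroup.subtype _)

omit [Fintype Ω] [DecidableEq Ω] [Fintype Ω'] [DecidableEq Ω'] in
theorem Pull.eq {j : Perm Ω' →* Perm Ω} (g : Pull f j) : f (Pull.ι f j g) = j (Pull.π f j g) := g.2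

theorem Cov.pull (h : Cov f) {j : Perm Ω' →* Perm Ω} (hj : ∀ σ, Perm.sign (j σ) = Perm.sign σ) :
    Cov (Pull.π f j) where
  cen z hz g := by
    have h1 : f (Pull.ι f j z) = 1 := by rw [Pull.eq, hz, map_one]
    refine Subtype.ext (Prod.ext (h.cen _ h1 _) ?_)
    change Pull.π f j (g * z) = Pull.π f j (z * g)
    rw [map_mul, map_mul, hz, mul_one, one_mul]
  two z z' hz hz' h1 h2 := by
    have key : ∀ z : Pull f j, Pull.π f j z = 1 → z ≠ 1 → Pull.ι f j z ≠ 1 := fun z hz h1 h2 =>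
      h1 (Subtype.ext (Prod.ext h2 hz))
    exact Subtype.ext (Prod.ext (h.two (Pull.ι f j z) (Pull.ι f j z') (by rw [Pull.eq, hz, map_one])
      (by rw [Pull.eq, hz', map_one]) (key z hz h1) (key z' hz' h2)) (hz.trans hz'.symm))
  sign g := by rw [← hj, ← Pull.eq, h.sign]
  surj σ hσ := by
    obtain ⟨g, hg⟩ := h.surj (j σ) (by rw [hj, hσ])
    exact ⟨⟨(g, σ), hg⟩, rfl⟩

theorem sign_via (e : Ω' ↪ Ω) (σ : Perm Ω') :
    Perm.sign (Perm.viaEmbeddingHom e σ) = Perm.sign σ := by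
  classical
  rw [Perm.viaEmbeddingHom_apply, Perm.viaEmbedding]
  convert Perm.sign_extendDomain σ (Equiv.ofInjective e.toFun e.injective)

omit [Fintype Ω] [Fintype Ω'] in
theorem via_swap (e : Ω' ↪ Ω) (a b : Ω') :
    Perm.viaEmbeddingHom e (swap a b) = swap (e a) (e b) := by
  ext x
  by_cases hx : x ∈ Set.range e
  · obtain ⟨x, rfl⟩ := hx
    rw [Perm.viaEmbeddingHom_apply, Perm.viaEmbedding_apply, e.injective.swap_apply]
  · rw [Perm.viaEmbeddingHom_apply, Perm.viaEmbedding_apply_of_notMem _ _ _ hx,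
      swap_apply_of_ne_of_ne (fun h => hx ⟨a, h.symm⟩) (fun h => hx ⟨b, h.symm⟩)]

omit [Fintype Ω] [Fintype Ω'] in
theorem via_c3 (e : Ω' ↪ Ω) (a b c : Ω') :
    Perm.viaEmbeddingHom e (c3 a b c) = c3 (e a) (e b) (e c) := by
  rw [c3, map_mul, via_swap, via_swap, c3]

end Pull

variable {k : Type*} [Field k] {V : Type*} [AddCommGroup V] [Module k V]

/-- The stabilizer of an operator under left multiplication. -/
def lstab (ρ : Γ →* End k V) (A : End k V) : Subgroup Γ where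
  carrier := {g | ρ g * A = A}
  one_mem' := by simp
  mul_mem' := fun {a b} ha hb => by
    change ρ (a * b) * A = A
    rw [map_mul, mul_assoc, hb, ha]
  inv_mem' := fun {a} ha => by
    change ρ a⁻¹ * A = A
    conv_lhs => rw [← ha, ← mul_assoc, ← map_mul, inv_mul_cancel, map_one, one_mul]

theorem mem_lstab {ρ : Γ →* End k V} {A : End k V} {g : Γ} :
    g ∈ lstab ρ A ↔ (ρ g - 1) * A = 0 := by
  rw [sub_mul, one_mul, sub_eq_zero]; rfl

/-- The condition that lifts of two disjoint `3`-cycles act with `(x - 1)(y - 1) = 0`. -/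
def HC (f : Γ →* Perm Ω) (ρ : Γ →* End k V) (t : Fin 6 → Ω) : Prop :=
  ∀ x y : Γ, x ^ 3 = 1 → y ^ 3 = 1 → f x = c3 (t 0) (t 1) (t 2) → f y = c3 (t 3) (t 4) (t 5) →
    (ρ x - 1) * (ρ y - 1) = 0

theorem HC.trans (h : Cov f) (h8 : 8 ≤ Fintype.card Ω) {ρ : Γ →* End k V} {t t' : Fin 6 → Ω}
    (ht : Function.Injective t) (ht' : Function.Injective t') (H : HC f ρ t) : HC f ρ t' := by
  intro x y hx hy hfx hfy
  obtain ⟨σ, hσ, hσ'⟩ := exists_even t' t ht' ht (by simpa using h8)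
  obtain ⟨g, rfl⟩ := h.surj σ hσ
  have := H (g * x * g⁻¹) (g * y * g⁻¹) (by rw [conj_pow, hx, mul_one, mul_inv_cancel])
    (by rw [conj_pow, hy, mul_one, mul_inv_cancel])
    (by rw [map_mul, map_mul, map_inv, hfx, conj_c3, hσ', hσ', hσ'])
    (by rw [map_mul, map_mul, map_inv, hfy, conj_c3, hσ', hσ', hσ'])
  have h1 : ρ g⁻¹ * ρ g = 1 := by rw [← map_mul, inv_mul_cancel, map_one]
  have h2 : ∀ x, ρ x - 1 = ρ g⁻¹ * (ρ (g * x * g⁻¹) - 1) * ρ g := fun x => by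
    rw [mul_sub, sub_mul, mul_one, h1, ← map_mul, ← map_mul]
    congr 2; group
  have h3 : ρ g * ρ g⁻¹ = 1 := by rw [← map_mul, mul_inv_cancel, map_one]
  rw [h2 x, h2 y, mul_assoc, mul_assoc, mul_assoc (ρ g⁻¹), ← mul_assoc (ρ g), h3, one_mul,
    ← mul_assoc _ _ (ρ g), this, zero_mul, mul_zero]

omit [DecidableEq Ω] in
theorem fresh (l : List Ω) (hl : l.length < Fintype.card Ω) : ∃ x, x ∉ l := by
  classical
  obtain ⟨x, -, hx⟩ := Finset.exists_mem_notMem_of_card_lt_card (s := l.toFinset)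
    (t := Finset.univ) (l.toFinset_card_le.trans_lt hl)
  exact ⟨x, fun h => hx (List.mem_toFinset.mpr h)⟩

omit [Fintype Ω] [DecidableEq Ω] in
theorem inj_of_nodup {n : ℕ} {t : Fin n → Ω} (h : (List.ofFn t).Nodup) : Function.Injective t :=
  List.nodup_ofFn.mp h

theorem Cov.exists_sub (h : Cov f) (h6 : 6 ≤ Fintype.card Ω) (S : Subgroup Γ) {α β i₀ j₀ : Ω}
    (hd : [i₀, j₀, α, β].Nodup)
    (hS : ∀ x, x ^ 3 = 1 → f x = c3 i₀ α β ∨ f x = c3 j₀ α β → x ∈ S) :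
    ∃ N : Subgroup Γ, (∀ σ, Perm.sign σ = 1 → ∃ g ∈ N, f g = σ) ∧ ∀ z ∈ N, f z = 1 → z ∈ S := by
  have hd' := hd
  simp only [List.nodup_cons, List.mem_cons, List.not_mem_nil, or_false, not_or] at hd'
  obtain ⟨⟨h1, h2, h3⟩, ⟨h4, h5⟩, hab, -⟩ := hd'
  have hX : ∀ i, ∃ y, i ≠ α → i ≠ β → f y = c3 i α β ∧ y ^ 3 = 1 := fun i => by
    by_cases hi : i ≠ α ∧ i ≠ β
    · obtain ⟨y, hy⟩ := h.lift (by decide) (c3_pow_three hi.1 hi.2 hab)
      exact ⟨y, fun _ _ => hy⟩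
    · exact ⟨1, fun h1 h2 => absurd ⟨h1, h2⟩ hi⟩
  choose X hX using hX
  by_cases hd1 : (X i₀ * X j₀) ^ 2 = 1
  · let s : Finset Ω := Finset.univ.filter fun i => i ≠ α ∧ i ≠ β
    have hs : ∀ i, i ∈ s ↔ i ≠ α ∧ i ≠ β := fun i => by simp [s]
    refine ⟨Subgroup.closure (X '' s), fun σ hσ => ?_, fun z hz hz1 => ?_⟩
    · exact altOn_le_of_c3 (P := Set.univ) (H := (Subgroup.closure (X '' s)).map f) hab
        (fun i _ h1 h2 => ⟨X i, Subgroup.subset_closure ⟨i, (hs i).2 ⟨h1, h2⟩, rfl⟩,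
          (hX i h1 h2).1⟩) ⟨hσ, fun _ h => absurd trivial h⟩
    · rw [injK_carmichael (f := f) X id hab s (fun _ _ _ _ e => e) (fun i hi => ((hs i).1 hi).1)
        (fun i hi => ((hs i).1 hi).2) (fun i hi => (hX i ((hs i).1 hi).1 ((hs i).1 hi).2).1)
        (fun i hi => (hX i ((hs i).1 hi).1 ((hs i).1 hi).2).2) (fun i hi j hj hij => ?_) z hz hz1]
      · exact one_mem _
      rw [hs] at hi hj
      obtain ⟨σ, hσ, hσ'⟩ := exists_even ![i₀, j₀, α, β] ![i, j, α, β]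
        (inj_of_nodup (by simpa using hd)) (inj_of_nodup (by simp [hi, hj, hij, hab]))
        (by simpa using h6)
      obtain ⟨g, rfl⟩ := h.surj σ hσ
      have e1 : g * X i₀ * g⁻¹ = X i := h.conj (by
        rw [(hX _ h2 h3).1, (hX _ hi.1 hi.2).1, conj_c3]
        exact congr (congr (congrArg _ (hσ' 0)) (hσ' 2)) (hσ' 3)) (by decide) (hX _ h2 h3).2
        (hX _ hi.1 hi.2).2
      have e2 : g * X j₀ * g⁻¹ = X j := h.conj (by
        rw [(hX _ h4 h5).1, (hX _ hj.1 hj.2).1, conj_c3]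
        exact congr (congr (congrArg _ (hσ' 1)) (hσ' 2)) (hσ' 3)) (by decide) (hX _ h4 h5).2
        (hX _ hj.1 hj.2).2
      rw [← e1, ← e2, conj_mul, conj_pow, hd1, mul_one, mul_inv_cancel]
  · refine ⟨⊤, fun σ hσ => (h.surj σ hσ).imp fun _ hg => ⟨trivial, hg⟩, fun z _ hz => ?_⟩
    by_cases hz1 : z = 1
    · exact hz1 ▸ one_mem _
    rw [h.two _ _ hz (by
      rw [map_pow, map_mul, (hX _ h2 h3).1, (hX _ h4 h5).1, c3_mul_sq h2 h3 hab h4 h5 h1]) hz1 hd1]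
    exact pow_mem (mul_mem (hS _ (hX _ h2 h3).2 (Or.inl (hX _ h2 h3).1))
      (hS _ (hX _ h4 h5).2 (Or.inr (hX _ h4 h5).1))) 2

theorem bound_of_cocycle [FiniteDimensional k V] (p : ℕ) [CharP k p] (h5 : 5 ≤ Fintype.card Ω)
    {D : Ω → Ω → V} (hD : ∀ a b c, D a b + D b c = D a c)
    (he : ∀ σ : Perm Ω, Perm.sign σ = 1 → ∃ A : End k V, ∀ a b, A (D a b) = D (σ a) (σ b))
    {b₀ b₁ : Ω} (hb : D b₀ b₁ ≠ 0) :
    Fintype.card Ω - 1 - (if p ∣ Fintype.card Ω then 1 else 0) ≤ finrank k V := by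
  let Ψ : (Ω → k) →ₗ[k] V × k :=
    (Fintype.linearCombination k (D b₀)).prod (Fintype.linearCombination k fun _ => 1)
  have hΨ : ∀ l, l ∈ LinearMap.ker Ψ ↔ ∑ b, l b • D b₀ b = 0 ∧ ∑ b, l b = 0 := fun l => by
    simp [Ψ, Fintype.linearCombination_apply]
  have h0 : ∀ a, D a a = 0 := fun a => by simpa using hD a a a
  have h1 : ∀ σ : Perm Ω, Perm.sign σ = 1 → ∀ l ∈ LinearMap.ker Ψ, l ∘ σ ∈ LinearMap.ker Ψ :=
    fun σ hσ l hl => by
      rw [hΨ] at hl ⊢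
      obtain ⟨A, hA⟩ := he σ⁻¹ (by simpa using hσ)
      refine ⟨?_, by simpa using (Equiv.sum_comp σ l).trans hl.2⟩
      have := congrArg A hl.1
      have hA' : ∀ b, A (D b₀ b) = D (σ⁻¹ b₀) b₀ + D b₀ (σ⁻¹ b) := fun b => by rw [hA, hD]
      simp only [map_sum, map_smul, hA', map_zero, smul_add,
        Finset.sum_add_distrib, ← Finset.sum_smul, hl.2, zero_smul, zero_add] at this
      rw [← this, eq_comm, ← Equiv.sum_comp σ]
      simp
  have h2 : ∀ l ∈ LinearMap.ker Ψ, ∀ a b, l a = l b := fun l hl a b => by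
    by_contra hab
    have hab' : a ≠ b := fun h => hab (h ▸ rfl)
    obtain ⟨c, hc⟩ := fresh [a, b] (by simp; omega)
    obtain ⟨d, hd⟩ := fresh [a, b, c] (by simp; omega)
    obtain ⟨e, he'⟩ := fresh [a, b, c, d] (by simp; omega)
    simp only [List.mem_cons, List.not_mem_nil, or_false, not_or] at hc hd he'
    have h3 := sub_mem (h1 (c3 a b c) (by simp [c3, hab', Ne.symm hc.1]) l hl) hl
    have h4 : ∀ x, x ≠ a → x ≠ b → x ≠ c → (l ∘ c3 a b c - l) x = 0 := fun x h1 h2 h3 => by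
      simp [c3_apply_of_ne h1 h2 h3]
    have h5 : (l ∘ c3 a b c - l) a ≠ 0 := by
      simpa [c3_apply_one hab' (Ne.symm hc.2), sub_eq_zero] using Ne.symm hab
    generalize l ∘ c3 a b c - l = m at h3 h4 h5
    have h6 := sub_mem (h1 (c3 a d e) (by simp [c3, Ne.symm hd.1, Ne.symm he'.1]) m h3) h3
    have h7 : m ∘ c3 a d e - m = m a • (Pi.single e 1 - Pi.single a 1) := by
      ext x
      by_cases h1 : x = a
      · simp [h1, c3_apply_one (Ne.symm hd.1) (Ne.symm he'.2.2.2), h4 d hd.1 hd.2.1 hd.2.2,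
          Ne.symm he'.1]
      by_cases h2 : x = d
      · simp [h2, c3_apply_two, h4 d hd.1 hd.2.1 hd.2.2, h4 e he'.1 he'.2.1 he'.2.2.1, hd.1,
          Ne.symm he'.2.2.2]
      by_cases h3 : x = e
      · simp [h3, c3_apply_three (Ne.symm he'.1) (Ne.symm he'.2.2.2),
          h4 e he'.1 he'.2.1 he'.2.2.1, he'.1]
      · simp [c3_apply_of_ne h1 h2 h3, h1, h3]
    rw [h7, Submodule.smul_mem_iff _ h5, LinearMap.mem_ker, Prod.ext_iff] at h6
    have h8 : D a e = 0 := by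
      have : Fintype.linearCombination k (D b₀) (Pi.single e 1 - Pi.single a 1) = 0 := h6.1
      simp only [map_sub, Fintype.linearCombination_apply_single, one_smul] at this
      rw [← this, ← hD b₀ a e, add_sub_cancel_left]
    obtain ⟨σ, hσ, hσ'⟩ := exists_even ![a, e] ![b₀, b₁] (inj_of_nodup (by simp [Ne.symm he'.1]))
      (inj_of_nodup (by simpa using fun h : b₀ = b₁ => hb (h ▸ h0 b₀))) (by simp; omega)
    obtain ⟨A, hA⟩ := he σ hσ
    exact hb ((congr (congrArg D (hσ' 0)) (hσ' 1)).symm.trans (by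
      simpa [h8] using (hA a e).symm))
  have h3 := Ψ.finrank_range_add_finrank_ker
  have h4 := (LinearMap.range Ψ).finrank_le
  rw [finrank_prod, finrank_self] at h4
  rw [finrank_fintype_fun_eq_card] at h3
  have h5 : finrank k (LinearMap.ker Ψ) ≤ if p ∣ Fintype.card Ω then 1 else 0 := by
    split_ifs with hp
    · refine (Submodule.finrank_mono (t := k ∙ fun _ => 1) fun l hl => ?_).trans
        (finrank_span_le_card _ |>.trans (by simp))
      exact Submodule.mem_span_singleton.mpr ⟨l b₀, funext fun a => by simp [h2 l hl a b₀]⟩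
    · rw [Nat.le_zero, Submodule.finrank_eq_zero, eq_bot_iff]
      intro l hl
      have := ((hΨ l).mp hl).2
      rw [Finset.sum_congr rfl fun a _ => h2 l hl a b₀, Finset.sum_const, nsmul_eq_mul, mul_eq_zero,
        Finset.card_univ, CharP.cast_eq_zero_iff k p, or_iff_right hp] at this
      exact funext fun a => (h2 l hl a b₀).trans this
  omega

/-- Equivariant families of vectors indexed by triples. -/
def Equi (f : Γ →* Perm Ω) (ρ : Γ →* End k V) (N : Subgroup Γ) (W : Ω → Ω → Ω → V) : Prop :=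
  ∀ g ∈ N, ∀ a b c, a ≠ b → a ≠ c → b ≠ c → ρ g (W a b c) = W (f g a) (f g b) (f g c)

section Heart

variable {ρ : Γ →* End k V} {N : Subgroup Γ} {W : Ω → Ω → Ω → V}

theorem Equi.rel (h : Cov f) (h7 : 7 ≤ Fintype.card Ω)
    (hN : ∀ σ, Perm.sign σ = 1 → ∃ g ∈ N, f g = σ)
    (H : ∀ t, Function.Injective t → HC f ρ t) (hW : Equi f ρ N W) {a a' b b' c : Ω}
    (h1 : a ≠ b) (h2 : a ≠ b') (h3 : a ≠ c) (h4 : a' ≠ b) (h5 : a' ≠ b') (h6 : a' ≠ c)
    (h8 : b ≠ c) (h9 : b' ≠ c) : W a b c - W a b' c = W a' b c - W a' b' c := by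
  rcases eq_or_ne a a' with rfl | ha
  · rfl
  rcases eq_or_ne b b' with rfl | hb
  · simp
  obtain ⟨e, he⟩ := fresh [a, a', b, b', c] (by simp; omega)
  obtain ⟨e', he'⟩ := fresh [a, a', b, b', c, e] (by simp; omega)
  simp only [List.mem_cons, List.not_mem_nil, or_false, not_or] at he he'
  obtain ⟨e1, e2, e3, e4, e5⟩ := he
  obtain ⟨f1, f2, f3, f4, f5, f6⟩ := he'
  have key : ∀ {a b c : Ω}, a ≠ b → a ≠ c → b ≠ c → ∃ x ∈ N, f x = c3 a b c ∧ x ^ 3 = 1 :=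
    fun h1 h2 h3 => by
      obtain ⟨x, hx, hx'⟩ := h.lift (by decide) (c3_pow_three h1 h2 h3)
      obtain ⟨g, hg, hg'⟩ := hN _ (h.sign x)
      exact ⟨x, h.eq_pow hg'.symm (by decide) hx' ▸ pow_mem hg _, hx, hx'⟩
  obtain ⟨x, hx, hx1, hx2⟩ := key ha (Ne.symm e1) (Ne.symm e2)
  obtain ⟨y, hy, hy1, hy2⟩ := key hb (Ne.symm f3) (Ne.symm f4)
  have := LinearMap.congr_fun (H ![a, a', e, b, b', e'] (inj_of_nodup (by
    simp [ha, hb, h1, h2, h4, h5, e3, e4, Ne.symm e1, Ne.symm e2, Ne.symm f1, Ne.symm f2,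
      Ne.symm f3, Ne.symm f4, Ne.symm f6])) x y hx2 hy2 hx1 hy1) (W a b c)
  simp only [End.mul_apply, LinearMap.sub_apply, End.one_apply, map_sub, LinearMap.zero_apply]
    at this
  rw [hW y hy _ _ _ h1 h3 h8, hy1, c3_apply_of_ne h1 h2 (Ne.symm f1), c3_apply_one hb (Ne.symm f4),
    c3_apply_of_ne h8.symm h9.symm (Ne.symm f5), hW x hx _ _ _ h2 h3 h9, hW x hx _ _ _ h1 h3 h8,
    hx1, c3_apply_one ha (Ne.symm e2), c3_apply_of_ne h2.symm h5.symm (Ne.symm e4),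
    c3_apply_of_ne h1.symm h4.symm (Ne.symm e3), c3_apply_of_ne h3.symm h6.symm (Ne.symm e5)]
    at this
  rw [← sub_eq_zero, ← this]
  abel

theorem Equi.mid [FiniteDimensional k V] (p : ℕ) [CharP k p] (h : Cov f) (h7 : 7 ≤ Fintype.card Ω)
    (hN : ∀ σ, Perm.sign σ = 1 → ∃ g ∈ N, f g = σ)
    (H : ∀ t, Function.Injective t → HC f ρ t) (hW : Equi f ρ N W)
    (hlt : finrank k V < Fintype.card Ω - 1 - if p ∣ Fintype.card Ω then 1 else 0) {a b b' c : Ω}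
    (h1 : a ≠ b) (h2 : a ≠ b') (h3 : a ≠ c) (h4 : b ≠ c) (h5 : b' ≠ c) : W a b c = W a b' c := by
  have hW' : Equi f ρ N fun a b c => W c b a := fun g hg a b c h1 h2 h3 =>
    hW g hg c b a h3.symm h2.symm h1.symm
  have ind : ∀ {a c a' c' b b' : Ω}, a ≠ b → a ≠ b' → a ≠ c → b ≠ c → b' ≠ c → a' ≠ b → a' ≠ b' →
      a' ≠ c' → b ≠ c' → b' ≠ c' → W a b c - W a b' c = W a' b c' - W a' b' c' := by
    intro a c a' c' b b' h1 h2 h3 h4 h5 h6 h8 h9 h10 h11
    obtain ⟨e, he⟩ := fresh [b, b', c, c'] (by simp; omega)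
    simp only [List.mem_cons, List.not_mem_nil, or_false, not_or] at he
    obtain ⟨e1, e2, e3, e4⟩ := he
    rw [hW.rel h h7 hN H h1 h2 h3 e1 e2 e3 h4 h5, hW.rel h h7 hN H h6 h8 h9 e1 e2 e4 h10 h11]
    exact hW'.rel h h7 hN H h4.symm h5.symm (Ne.symm e3) h10.symm h11.symm (Ne.symm e4)
      (Ne.symm e1) (Ne.symm e2)
  have ex : ∀ b b' b'' : Ω, ∃ a c, (a ≠ b ∧ a ≠ b' ∧ a ≠ b'' ∧ a ≠ c) ∧ b ≠ c ∧ b' ≠ c ∧ b'' ≠ c :=
    fun b b' b'' => by
      obtain ⟨c, hc⟩ := fresh [b, b', b''] (by simp; omega)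
      obtain ⟨a, ha⟩ := fresh [b, b', b'', c] (by simp; omega)
      simp only [List.mem_cons, List.not_mem_nil, or_false, not_or] at ha hc
      exact ⟨a, c, ha, Ne.symm hc.1, Ne.symm hc.2.1, Ne.symm hc.2.2⟩
  choose A C hA hC using ex
  let D : Ω → Ω → V := fun b b' => W (A b b' b') b (C b b' b') - W (A b b' b') b' (C b b' b')
  have hD : ∀ {a c b b' : Ω}, a ≠ b → a ≠ b' → a ≠ c → b ≠ c → b' ≠ c →
      D b b' = W a b c - W a b' c := fun h1 h2 h3 h4 h5 =>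
    ind (hA _ _ _).1 (hA _ _ _).2.1 (hA _ _ _).2.2.2 (hC _ _ _).1 (hC _ _ _).2.1 h1 h2 h3 h4 h5
  by_contra hne
  refine hlt.not_ge (bound_of_cocycle p (by omega) (D := D) (b₀ := b) (b₁ := b') (fun x y z => ?_)
    (fun σ hσ => ?_) (by rwa [hD h1 h2 h3 h4 h5, sub_ne_zero]))
  · obtain ⟨a1, a2, a3, a4⟩ := hA x y z
    obtain ⟨c1, c2, c3⟩ := hC x y z
    rw [hD a1 a2 a4 c1 c2, hD a2 a3 a4 c2 c3, hD a1 a3 a4 c1 c3, sub_add_sub_cancel]
  · obtain ⟨g, hg, rfl⟩ := hN σ hσ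
    refine ⟨ρ g, fun x y => ?_⟩
    obtain ⟨a1, a2, -, a4⟩ := hA x y y
    obtain ⟨c1, c2, -⟩ := hC x y y
    rw [hD a1 a2 a4 c1 c2, map_sub, hW g hg _ _ _ a1 a4 c1, hW g hg _ _ _ a2 a4 c2,
      hD ((f g).injective.ne a1) ((f g).injective.ne a2) ((f g).injective.ne a4)
        ((f g).injective.ne c1) ((f g).injective.ne c2)]

/-- The modules on which disjoint `3`-cycles satisfy `(x - 1)(y - 1) = 0`. -/
theorem heart [FiniteDimensional k V] (p : ℕ) [CharP k p] (h : Cov f) (h9 : 9 ≤ Fintype.card Ω)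
    (hρ : ∀ g, ρ g = 1 → f g = 1) {t : Fin 6 → Ω} (ht : Function.Injective t) (H : HC f ρ t) :
    Fintype.card Ω - 1 - (if p ∣ Fintype.card Ω then 1 else 0) ≤ finrank k V := by
  replace H : ∀ t', Function.Injective t' → HC f ρ t' := fun t' ht' =>
    H.trans h (by omega) ht ht'
  by_contra hlt
  push Not at hlt
  have hn : ∀ i j, i ≠ j → t i ≠ t j := fun i j h => ht.ne h
  obtain ⟨a, ha⟩ : ∃ a, a = t 0 := ⟨_, rfl⟩
  obtain ⟨b, hb⟩ : ∃ a, a = t 1 := ⟨_, rfl⟩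
  obtain ⟨c, hc⟩ : ∃ a, a = t 2 := ⟨_, rfl⟩
  have hab : a ≠ b := by rw [ha, hb]; exact hn _ _ (by decide)
  have hac : a ≠ c := by rw [ha, hc]; exact hn _ _ (by decide)
  have hbc : b ≠ c := by rw [hb, hc]; exact hn _ _ (by decide)
  clear ha hb hc hn ht t
  obtain ⟨x, hx, hx3⟩ := h.lift (by decide) (c3_pow_three hab hac hbc)
  obtain ⟨α, hα⟩ := fresh [a, b, c] (by simp; omega)
  obtain ⟨β, hβ⟩ := fresh [a, b, c, α] (by simp; omega)
  have hS : ∀ i y, i ∉ [a, b, c, α, β] → y ^ 3 = 1 → f y = c3 i α β → y ∈ lstab ρ (ρ x - 1) :=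
    fun i y hi hy hy' => mem_lstab.mpr (H ![i, α, β, a, b, c] (inj_of_nodup (by
      simp only [List.mem_cons, List.not_mem_nil, or_false, not_or] at hi hα hβ
      simp [hi, hα, hβ, hab, hac, hbc, Ne.symm hβ.2.2.2])) y x hy hx3 hy' hx)
  obtain ⟨i₀, hi₀⟩ := fresh [a, b, c, α, β] (by simp; omega)
  obtain ⟨j₀, hj₀⟩ := fresh [i₀, a, b, c, α, β] (by simp; omega)
  have hαβ : α ≠ β := by rintro rfl; simp at hβ
  obtain ⟨N, hN, hN'⟩ := h.exists_sub (by omega) (lstab ρ (ρ x - 1)) (α := α) (β := β) (i₀ := i₀)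
    (j₀ := j₀) (by
      simp only [List.mem_cons, List.not_mem_nil, or_false, not_or] at hi₀ hj₀
      simp [hi₀, hj₀, hαβ, Ne.symm hj₀.1]) (by
      rintro y hy (hy' | hy')
      exacts [hS _ y hi₀ hy hy', hS _ y (List.not_mem_of_not_mem_cons hj₀) hy hy'])
  have hodd : ∀ y : Γ, y ^ 3 = 1 → y ∈ N := fun y hy => by
    obtain ⟨g, hg, hg'⟩ := hN _ (h.sign y)
    exact h.eq_pow hg'.symm (by decide) hy ▸ pow_mem hg _
  have hfix : ∀ g ∈ N, f g a = a → f g b = b → f g c = c → g ∈ lstab ρ (ρ x - 1) := by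
    intro g hg h1 h2 h3
    obtain ⟨s, ⟨hs1, hs2⟩, hs3⟩ := altOn_le_of_c3 (P := {a, b, c}ᶜ)
      (H := (lstab ρ (ρ x - 1) ⊓ N).map f) hαβ (fun i hi h1 h2 => by
        obtain ⟨y, hy, hy'⟩ := h.lift (by decide) (c3_pow_three h1 h2 hαβ)
        exact ⟨y, ⟨hS i y (by simpa [h1, h2] using hi) hy' hy, hodd y hy'⟩, hy⟩)
      (show f g ∈ altOn {a, b, c}ᶜ from ⟨h.sign g, fun z hz => by
        rcases not_not.mp hz with rfl | rfl | rfl <;> assumption⟩)
    rw [← mul_inv_cancel_left s g]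
    exact mul_mem hs1 (hN' _ (mul_mem (inv_mem hs2) hg)
      (by rw [map_mul, map_inv, hs3, inv_mul_cancel]))
  have ex : ∀ a' b' c' : Ω, ∃ g ∈ N, a' ≠ b' → a' ≠ c' → b' ≠ c' →
      f g a = a' ∧ f g b = b' ∧ f g c = c' := fun a' b' c' => by
    by_cases hd : a' ≠ b' ∧ a' ≠ c' ∧ b' ≠ c'
    · obtain ⟨σ, hσ, hσ'⟩ := exists_even ![a, b, c] ![a', b', c']
        (inj_of_nodup (by simp [hab, hac, hbc])) (inj_of_nodup (by simp [hd])) (by simp; omega)
      obtain ⟨g, hg, rfl⟩ := hN σ hσ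
      exact ⟨g, hg, fun _ _ _ => ⟨hσ' 0, hσ' 1, hσ' 2⟩⟩
    · exact ⟨1, one_mem _, fun h1 h2 h3 => absurd ⟨h1, h2, h3⟩ hd⟩
  choose G hG hG' using ex
  have hall : ∀ g ∈ N, g ∈ lstab ρ (ρ x - 1) := fun g hg => LinearMap.ext fun v => by
    let W : Ω → Ω → Ω → V := fun a' b' c' => ρ (G a' b' c') ((ρ x - 1) v)
    have hW0 : ∀ g ∈ N, ρ g ((ρ x - 1) v) = W (f g a) (f g b) (f g c) := fun g hg => by
      obtain ⟨h1, h2, h3⟩ := hG' _ _ _ ((f g).injective.ne hab) ((f g).injective.ne hac)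
        ((f g).injective.ne hbc)
      have := hfix ((G (f g a) (f g b) (f g c))⁻¹ * g) (mul_mem (inv_mem (hG _ _ _)) hg)
        (by rw [map_mul, map_inv, Perm.mul_apply, Perm.inv_eq_iff_eq, h1])
        (by rw [map_mul, map_inv, Perm.mul_apply, Perm.inv_eq_iff_eq, h2])
        (by rw [map_mul, map_inv, Perm.mul_apply, Perm.inv_eq_iff_eq, h3])
      conv_lhs => rw [← mul_inv_cancel_left (G (f g a) (f g b) (f g c)) g, map_mul, End.mul_apply,
        ← End.mul_apply (ρ (_ * g)), this]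
    have hW : Equi f ρ N W := fun g hg a' b' c' h1 h2 h3 => by
      obtain ⟨e1, e2, e3⟩ := hG' _ _ _ h1 h2 h3
      rw [← End.mul_apply, ← map_mul, hW0 _ (mul_mem hg (hG _ _ _)), map_mul, Perm.mul_apply,
        Perm.mul_apply, Perm.mul_apply, e1, e2, e3]
    have hW1 : Equi f ρ N fun a b c => W b a c := fun g hg a b c h1 h2 h3 =>
      hW g hg b a c h1.symm h3 h2
    have hW3 : Equi f ρ N fun a b c => W a c b := fun g hg a b c h1 h2 h3 =>
      hW g hg a c b h2 h1 h3.symm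
    obtain ⟨a', ha'⟩ := fresh [a, b, c, f g a, f g b, f g c] (by simp; omega)
    obtain ⟨b', hb'⟩ := fresh [a', a, b, c, f g a, f g b, f g c] (by simp; omega)
    obtain ⟨c', hc'⟩ := fresh [a', b', a, b, c, f g a, f g b, f g c] (by simp; omega)
    simp only [List.mem_cons, List.not_mem_nil, or_false, not_or] at ha' hb' hc'
    have key : ∀ {a b c : Ω}, a ≠ b → a ≠ c → b ≠ c → a' ≠ b → a' ≠ c → b' ≠ c →
        W a b c = W a' b' c' := fun h1 h2 h3 h4 h5 h6 =>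
      (hW1.mid p h (by omega) hN H hlt h1.symm h4.symm h3 h2 h5).trans
        ((hW.mid p h (by omega) hN H hlt h4 (Ne.symm hb'.1) h5 h3 h6).trans
          (hW3.mid p h (by omega) hN H hlt h5 (Ne.symm hc'.1) (Ne.symm hb'.1) h6.symm hc'.2.1))
    have h1 := hW0 1 (one_mem _)
    simp only [map_one, End.one_apply, Perm.one_apply] at h1
    rw [End.mul_apply, hW0 g hg, h1, key hab hac hbc ha'.2.1 ha'.2.2.1 hb'.2.2.2.1,
      key ((f g).injective.ne hab) ((f g).injective.ne hac) ((f g).injective.ne hbc)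
        ha'.2.2.2.2.1 ha'.2.2.2.2.2 hb'.2.2.2.2.2.2]
  simp only [List.mem_cons, List.not_mem_nil, or_false, not_or] at hα
  obtain ⟨e1, e2, e3⟩ := hG' a b α hab (Ne.symm hα.1) (Ne.symm hα.2.1)
  obtain ⟨g, hg, hg'⟩ : ∃ g, g ∈ N ∧ f (g * x * g⁻¹) = c3 a b α :=
    ⟨_, hG a b α, by rw [map_mul, map_mul, map_inv, hx, conj_c3, e1, e2, e3]⟩
  have h1 := mem_lstab.mp (hall (g * x * g⁻¹) (mul_mem (mul_mem hg (hodd x hx3)) (inv_mem hg)))
  have h2 : (ρ x - 1) * (ρ (g * x * g⁻¹) - 1) = 0 := by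
    have h3 : ρ (g⁻¹ * x * g) * (ρ x - 1) = ρ x - 1 :=
      hall _ (mul_mem (mul_mem (inv_mem hg) (hodd x hx3)) hg)
    have h4 : ρ (g * x * g⁻¹) - 1 = ρ g * (ρ x - 1) * ρ g⁻¹ := by
      rw [mul_sub, sub_mul, mul_one, ← map_mul, ← map_mul, ← map_mul, mul_inv_cancel, map_one]
    rw [sub_mul, one_mul, sub_eq_zero, h4, ← mul_assoc, ← mul_assoc, ← map_mul]
    conv_rhs => rw [← h3, ← mul_assoc, ← map_mul]
    congr 3; group
  generalize g * x * g⁻¹ = y at hg' h1 h2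
  have h3 : ρ (x * y) = ρ (y * x) := by
    rw [map_mul, map_mul, ← sub_eq_zero, ← sub_self (0 : End k V)]
    nth_rewrite 1 [← h2, ← h1]
    noncomm_ring
  have h4 := hρ ((y * x)⁻¹ * (x * y)) (by rw [map_mul, h3, ← map_mul, inv_mul_cancel, map_one])
  rw [map_mul, map_inv, inv_mul_eq_one, map_mul, map_mul, hx, hg'] at h4
  have h5 := DFunLike.congr_fun h4 a
  rw [Perm.mul_apply, Perm.mul_apply, c3_apply_one hab hbc, c3_apply_one hab (Ne.symm hα.2.1),
    c3_apply_two, c3_apply_two] at h5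
  exact hα.2.2 h5

end Heart

end Cfsg.Lib.Perm.Wag
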