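import Cfsg.Agent.Perm.WagSmall
import Mathlib.GroupTheory.IsPerfect
import Mathlib.GroupTheory.Frattini
import Mathlib.Algebra.Module.ZMod
import Mathlib.FieldTheory.Finiteness

/-!
# Alternating sections of linear groups: the reduction of Feit and Tits (helper96)
-/

set_option autoImplicit false

namespace Cfsg.Lib.Perm.Wag

open Module Equiv

universe u v

theorem central (p : ℕ) [Fact p.Prime] {F : Type*} [Field F] [CharP F p] {H : Type*} [Group H]
    [Finite H] [Group.IsPerfect H] {r : ℕ} (h9 : 9 ≤ r) {π : H →* alternatingGroup (Fin r)}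
    (hπ : Function.Surjective π) {V : Type*} [AddCommGroup V] [Module F V] [FiniteDimensional F V]
    (ρ : H →* End F V) (hc : ∀ n, π n = 1 → ∀ g, ρ (g * n) = ρ (n * g))
    (hρ : ∀ g, ρ g = 1 → π g = 1) : r - 1 - (if p ∣ r then 1 else 0) ≤ finrank F V := by
  obtain ⟨W, _, _, _, ρ', h1, h2⟩ := exists_baseChange ρ
  let σ : H ⧸ ρ.ker →* alternatingGroup (Fin r) := QuotientGroup.lift _ π hρ
  have hσ : Function.Surjective σ := fun x => by
    obtain ⟨g, rfl⟩ := hπ x
    exact ⟨g, rfl⟩
  have hker : σ.ker ≤ Subgroup.center _ := fun n hn => Subgroup.mem_center_iff.mpr fun g => by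
    obtain ⟨n, rfl⟩ := QuotientGroup.mk_surjective n
    obtain ⟨g, rfl⟩ := QuotientGroup.mk_surjective g
    rw [← QuotientGroup.mk_mul, ← QuotientGroup.mk_mul, QuotientGroup.eq, MonoidHom.mem_ker,
      map_mul, ← hc n hn g, ← map_mul, inv_mul_cancel, map_one]
  have h3 := AltSchur.card_ker_le_two hσ hker (by simp) (by simp; omega) (by simp; omega)
    (by simp; omega)
  rw [← h1]
  refine lb_main p r h9 (Fin r) _ ((alternatingGroup (Fin r)).subtype.comp σ) W
    (QuotientGroup.lift _ ρ' fun g hg => (h2 g).mpr hg) (Fintype.card_fin r)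
    ⟨fun z hz => Subgroup.mem_center_iff.mp (hker (Subtype.ext hz)), fun z z' hz hz' h4 h5 => ?_,
      fun g => Perm.mem_alternatingGroup.mp (σ g).2, fun τ hτ => ?_⟩ fun g hg => ?_
  · by_contra h6
    have := Fintype.ofFinite σ.ker
    rw [Nat.card_eq_fintype_card] at h3
    exact h3.not_gt (Fintype.two_lt_card_iff.mpr ⟨1, ⟨z, Subtype.ext hz⟩, ⟨z', Subtype.ext hz'⟩,
      fun h => h4 (congrArg Subtype.val h).symm, fun h => h5 (congrArg Subtype.val h).symm,
      fun h => h6 (congrArg Subtype.val h)⟩)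
  · obtain ⟨g, hg⟩ := hσ ⟨τ, Perm.mem_alternatingGroup.mpr hτ⟩
    exact ⟨g, congrArg Subtype.val hg⟩
  · obtain ⟨g, rfl⟩ := QuotientGroup.mk_surjective g
    exact congrArg Subtype.val (hρ g ((h2 g).mp hg))

/-- The linear representation attached to an action on an elementary abelian group. -/
def autRep (p : ℕ) {H M : Type*} [Group H] [CommGroup M] [Module (ZMod p) (Additive M)]
    (ψ : H →* MulAut M) : H →* End (ZMod p) (Additive M) where
  toFun g := (MonoidHom.toAdditive (ψ g).toMonoidHom).toZModLinearMap p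
  map_one' := LinearMap.ext fun x => by rw [map_one]; rfl
  map_mul' _ _ := LinearMap.ext fun x => by rw [map_mul]; rfl

theorem central_aut' (p : ℕ) [Fact p.Prime] {H : Type*} [Group H]
    [Finite H] [Group.IsPerfect H] {r : ℕ} (h9 : 9 ≤ r) {π : H →* alternatingGroup (Fin r)}
    (hπ : Function.Surjective π) {M : Type*} [CommGroup M] [Finite M]
    [Module (ZMod p) (Additive M)]
    (ψ : H →* MulAut M) (hc : ∀ n, π n = 1 → ψ n = 1) (hψ : ∀ g, ψ g = 1 → π g = 1) :
    p ^ (r - 2) ≤ Nat.card M := by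
  have : Module.Finite (ZMod p) (Additive M) := Module.Finite.of_finite
  have h1 := central p h9 hπ (V := Additive M) (autRep p ψ) (fun n hn g => LinearMap.ext fun x => by
    change Additive.ofMul (ψ (g * n) x.toMul) = Additive.ofMul (ψ (n * g) x.toMul)
    rw [map_mul, map_mul, hc n hn, mul_one, one_mul]) fun g hg => hψ g (MulEquiv.ext fun x =>
      congrArg Additive.toMul (LinearMap.congr_fun hg (Additive.ofMul x)))
  rw [show Nat.card M = Nat.card (Additive M) from rfl, natCard_eq_pow_finrank (K := ZMod p),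
    Nat.card_zmod]
  exact Nat.pow_le_pow_right (Fact.out : p.Prime).pos (by split_ifs at h1 <;> omega)

theorem central_aut (p : ℕ) [Fact p.Prime] {H : Type*} [Group H]
    [Finite H] [Group.IsPerfect H] {r : ℕ} (h9 : 9 ≤ r) {π : H →* alternatingGroup (Fin r)}
    (hπ : Function.Surjective π) {M : Type*} [CommGroup M] [Finite M] (hM : ∀ x : M, x ^ p = 1)
    (ψ : H →* MulAut M) (hc : ∀ n, π n = 1 → ψ n = 1) (hψ : ∀ g, ψ g = 1 → π g = 1) :
    p ^ (r - 2) ≤ Nat.card M :=
  @central_aut' p _ H _ _ _ r h9 π hπ M _ _ (AddCommGroup.zmodModule fun x =>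
    Additive.toMul.injective (hM x.toMul)) ψ hc hψ

theorem le_index {r : ℕ} (h5 : 5 ≤ r) {K : Subgroup (alternatingGroup (Fin r))} (hK : K ≠ ⊤) :
    r ≤ K.index := by
  have := alternatingGroup.isSimpleGroup (α := Fin r) (by simpa using h5)
  have h1 : K.normalCore = ⊥ := K.normalCore_normal.eq_bot_or_eq_top.resolve_right fun h =>
    hK (top_le_iff.mp (h ▸ K.normalCore_le))
  rw [Subgroup.normalCore_eq_ker, MonoidHom.ker_eq_bot_iff] at h1
  have h2 := Nat.card_le_card_of_injective _ h1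
  have : Nontrivial (Fin r) := Fin.nontrivial_iff_two_le.mpr (by omega)
  have h3 := two_mul_nat_card_alternatingGroup (α := Fin r)
  rw [Nat.card_perm] at h2 h3
  rw [Nat.card_eq_fintype_card (α := Fin r), Fintype.card_fin] at h3
  by_contra h4
  obtain ⟨m, rfl⟩ : ∃ m, r = m + 1 := ⟨r - 1, by omega⟩
  have h6 : K.index.factorial ≤ m.factorial := Nat.factorial_le (by omega)
  have h7 := m.factorial_pos
  rw [Nat.factorial_succ] at h3
  change _ ≤ K.index.factorial at h2
  nlinarith

theorem sq_le_two_pow (m : ℕ) : (m + 8) ^ 2 ≤ 2 ^ (m + 7) := by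
  induction m with
  | zero => norm_num
  | succ m ih => rw [show m + 1 + 7 = m + 7 + 1 by ring, pow_succ 2]; nlinarith [Nat.zero_le (m * m)]

variable {k : Type*} [Field k] [IsAlgClosed k]

theorem scalar_of_abelian {H : Type*} [Group H] [Finite H] {r : ℕ} (h5 : 5 ≤ r)
    {π : H →* alternatingGroup (Fin r)} (hπ : Function.Surjective π)
    (hmin : ∀ K : Subgroup H, K.map π = ⊤ → K = ⊤) {V : Type*} [AddCommGroup V] [Module k V]
    [FiniteDimensional k V] [Nontrivial V] {ρ : H →* End k V}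
    (hirr : ∀ U : Submodule k V, (∀ g, U ≤ U.comap (ρ g)) → U = ⊥ ∨ U = ⊤)
    (hlt : finrank k V < r) (A : Subgroup H) [A.Normal] (hA : ∀ a ∈ A, ∀ b ∈ A, a * b = b * a) :
    ∀ a ∈ A, ∃ c : k, ρ a = c • 1 := by
  obtain ⟨v, -, hv, χ, hχ⟩ := exists_joint (fun a : A => ρ a)
    (fun a b => by rw [← map_mul, hA a a.2 b b.2, map_mul]) (U := ⊤) top_ne_bot fun _ _ _ => trivial
  let S : Subgroup H :=
    { carrier := {g | ∀ a : A, χ (MulAut.conjNormal g⁻¹ a) = χ a}
      one_mem' := fun a => by rw [inv_one, map_one, MulAut.one_apply]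
      mul_mem' := fun {g g'} hg hg' a => by
        rw [mul_inv_rev, map_mul, MulAut.mul_apply, hg', hg]
      inv_mem' := fun {g} hg a => by
        rw [← hg, ← MulAut.mul_apply, ← map_mul, mul_inv_cancel, map_one, MulAut.one_apply] }
  have key : ∀ (g : H) (a : A) (w : V), (∀ a : A, ρ a w = χ a • w) →
      ρ a (ρ g w) = χ (MulAut.conjNormal g⁻¹ a) • ρ g w := fun g a w hw => by
    simpa only [inv_inv] using apply_inv_apply (m := g⁻¹) (hw (MulAut.conjNormal g⁻¹ a))
  by_cases hS : S = ⊤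
  · intro a ha
    refine ⟨χ ⟨a, ha⟩, LinearMap.ext fun w => ?_⟩
    have := (hirr (⨅ a : A, (ρ a).eigenspace (χ a)) fun g w hw => by
      simp only [Submodule.mem_comap, Submodule.mem_iInf, End.mem_eigenspace_iff] at hw ⊢
      exact fun a => by rw [key g a w hw, (hS ▸ Subgroup.mem_top g : g ∈ S) a]).resolve_left
      ((Submodule.ne_bot_iff _).mpr ⟨v, by simpa [End.mem_eigenspace_iff] using hχ, hv⟩)
    exact End.mem_eigenspace_iff.mp ((Submodule.mem_iInf _).mp (this ▸ Submodule.mem_top) ⟨a, ha⟩)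
  · refine absurd (((le_index h5 (mt (hmin S) hS)).trans (Nat.le_of_dvd
      (Nat.pos_of_ne_zero Subgroup.FiniteIndex.index_ne_zero) (S.index_map_dvd hπ))).trans
      (card_le_of_weights (fun a : A => ρ a) (fun q : H ⧸ S => ρ q.out v)
        (fun q a => χ (MulAut.conjNormal q.out⁻¹ a)) (fun q => apply_ne_zero hv _)
        (fun q a => key _ a v hχ) fun q q' h => ?_)) hlt.not_ge
    rw [← q.out_eq', ← q'.out_eq', QuotientGroup.eq]
    intro a
    have := congrFun h (MulAut.conjNormal q.out a)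
    simp only [← MulAut.mul_apply, ← map_mul, inv_mul_cancel, map_one, MulAut.one_apply] at this
    rw [this, mul_inv_rev, inv_inv]

omit [IsAlgClosed k] in
open scoped IsMulCommutative in
theorem symplectic {H : Type*} [Group H] [Finite H] [Group.IsPerfect H] {r : ℕ} (h9 : 9 ≤ r)
    {π : H →* alternatingGroup (Fin r)} (hπ : Function.Surjective π)
    (hN : ∀ K : Subgroup H, K.Normal → K ≤ π.ker ∨ K = ⊤) [Group.IsNilpotent π.ker]
    (hZ : ¬ π.ker ≤ Subgroup.center H) {V : Type*} [AddCommGroup V] [Module k V]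
    [FiniteDimensional k V] [Nontrivial V] {ρ : H →* End k V} (hρ : Function.Injective ρ)
    (hA : ∀ A : Subgroup H, A.Normal → (∀ a ∈ A, ∀ b ∈ A, a * b = b * a) →
      ∀ a ∈ A, ∃ c : k, ρ a = c • 1) : r - 1 ≤ finrank k V := by
  let φ := QuotientGroup.mk' (Subgroup.center H)
  have hφ : Function.Surjective φ := QuotientGroup.mk'_surjective _
  let N := π.ker.map φ
  have hNn : N.Normal := (MonoidHom.normal_ker π).map φ hφ
  have : Group.IsNilpotent N := Group.nilpotent_of_surjective _ (φ.subgroupMap_surjective π.ker)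
  have : Nontrivial N := (Subgroup.nontrivial_iff_ne_bot _).mpr fun h => hZ (by
    rwa [Subgroup.map_eq_bot_iff, QuotientGroup.ker_mk'] at h)
  have := (Subgroup.nontrivial_iff_ne_bot _).mpr (Group.IsNilpotent.center_ne_bot N)
  obtain ⟨s, hs, hs'⟩ := Nat.exists_prime_and_dvd (Finite.one_lt_card (α := Subgroup.center N)).ne'
  have := Fact.mk hs
  obtain ⟨y, hy⟩ := exists_prime_orderOf_dvd_card' s hs'
  let M : Subgroup (H ⧸ Subgroup.center H) :=
    { carrier := {x | x ∈ N ∧ (∀ n ∈ N, Commute n x) ∧ x ^ s = 1}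
      one_mem' := ⟨one_mem _, fun _ _ => Commute.one_right _, one_pow _⟩
      mul_mem' := fun {a b} ha hb => ⟨mul_mem ha.1 hb.1,
        fun n hn => (ha.2.1 n hn).mul_right (hb.2.1 n hn),
        by rw [(hb.2.1 a ha.1).mul_pow, ha.2.2, hb.2.2, one_mul]⟩
      inv_mem' := fun {a} ha => ⟨inv_mem ha.1, fun n hn => (ha.2.1 n hn).inv_right,
        by rw [inv_pow, ha.2.2, inv_one]⟩ }
  have hM : M.Normal := ⟨fun x hx g => ⟨hNn.conj_mem x hx.1 g, fun n hn => by
    have := (hx.2.1 _ (hNn.conj_mem n hn g⁻¹)).map (MulAut.conj g)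
    simpa [mul_assoc] using this, by rw [conj_pow, hx.2.2, mul_one, mul_inv_cancel]⟩⟩
  have : IsMulCommutative M := ⟨⟨fun a b => Subtype.ext (b.2.2.1 a a.2.1)⟩⟩
  have h1 := central_aut s h9 hπ (M := M) (fun x => Subtype.ext x.2.2.2)
    ((MulAut.conjNormal (H := M)).comp φ) (fun n hn => MulEquiv.ext fun x => Subtype.ext (by
      change φ n * x * (φ n)⁻¹ = x
      rw [(x.2.2.1 _ ⟨n, hn, rfl⟩).eq, mul_inv_cancel_right]))
    ((hN ((MulAut.conjNormal (H := M)).comp φ).ker inferInstance).resolve_right fun h => by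
      have h2 : (y : H ⧸ Subgroup.center H) ∈ Subgroup.center _ :=
        Subgroup.mem_center_iff.mpr fun g => by
          obtain ⟨g, rfl⟩ := hφ g
          exact mul_inv_eq_iff_eq_mul.mp (congrArg Subtype.val (MulEquiv.congr_fun
            (h ▸ Subgroup.mem_top g : g ∈ ((MulAut.conjNormal (H := M)).comp φ).ker)
            ⟨_, y.1.2, fun n hn => congrArg Subtype.val (Subgroup.mem_center_iff.mp y.2 ⟨n, hn⟩),
              by rw [← hy, ← Subgroup.orderOf_coe, ← Subgroup.orderOf_coe, pow_orderOf_eq_one]⟩))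
      rw [Group.IsPerfect.center_quotient_center_eq_bot, Subgroup.mem_bot] at h2
      rw [show y = 1 from Subtype.ext (Subtype.ext h2), orderOf_one] at hy
      exact hs.one_lt.ne hy)
  choose! c hc using hA (Subgroup.center H) inferInstance fun a ha b _ =>
    (Subgroup.mem_center_iff.mp ha b).symm
  have hcz : ∀ (m : M.comap φ) (q : M), (m : H) * q.1.out * (m : H)⁻¹ * q.1.out⁻¹ ∈
      Subgroup.center H := fun m q => by
    rw [← QuotientGroup.eq_one_iff, QuotientGroup.mk_mul, QuotientGroup.mk_mul,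
      QuotientGroup.mk_mul, QuotientGroup.mk_inv, QuotientGroup.mk_inv, QuotientGroup.out_eq']
    rw [show (m : H ⧸ Subgroup.center H) * q = q * m from (q.2.2.1 _ m.2.1).eq]
    group
  have h2 := card_le_of_weights (k := k) (V := End k V)
    (fun m : M.comap φ => LinearMap.mulLeftRight k (ρ m, ρ (m : H)⁻¹)) (fun q : M => ρ q.1.out)
    (fun q m => c ((m : H) * q.1.out * (m : H)⁻¹ * q.1.out⁻¹)) (fun q h => by
      obtain ⟨v, hv⟩ := exists_ne (0 : V)
      exact apply_ne_zero (ρ := ρ) hv q.1.out (by rw [h, LinearMap.zero_apply]))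
    (fun q m => by
      rw [LinearMap.mulLeftRight_apply, ← one_mul (ρ q.1.out), ← smul_mul_assoc, ← hc _ (hcz m q),
        one_mul, ← map_mul, ← map_mul, ← map_mul, inv_mul_cancel_right]) fun q q' h => by
      have h3 : q.1.out⁻¹ * q'.1.out ∈ M.comap φ ⊓ Subgroup.centralizer (M.comap φ) := by
        refine ⟨?_, fun m hm => ?_⟩
        · change φ _ ∈ M
          rw [map_mul, map_inv]
          rw [show φ q.1.out = q from q.1.out_eq', show φ q'.1.out = q' from q'.1.out_eq']
          exact mul_mem (inv_mem q.2) q'.2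
        · have h4 := hρ ((hc _ (hcz ⟨m⁻¹, inv_mem hm⟩ q)).trans ((congrArg (· • (1 : End k V))
            (congrFun h ⟨m⁻¹, inv_mem hm⟩)).trans (hc _ (hcz ⟨m⁻¹, inv_mem hm⟩ q')).symm))
          simp only [inv_inv, mul_assoc, mul_right_inj] at h4
          calc m * (q.1.out⁻¹ * q'.1.out)
              = q.1.out⁻¹ * (q.1.out * (m * q.1.out⁻¹)) * q'.1.out := by group
            _ = q.1.out⁻¹ * q'.1.out * m := by rw [h4]; group
      obtain ⟨d, hd⟩ := hA (M.comap φ ⊓ Subgroup.centralizer (M.comap φ)) inferInstance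
        (fun a ha b hb => hb.2 a ha.1) _ h3
      refine Subtype.ext ?_
      rw [← q.1.out_eq', ← q'.1.out_eq', QuotientGroup.eq, Subgroup.mem_center_iff]
      exact fun g => hρ (by rw [map_mul, map_mul ρ _ g, hd]; simp)
  obtain ⟨m, rfl⟩ : ∃ m, r = m + 9 := ⟨r - 9, by omega⟩
  rw [finrank_linearMap, ← sq] at h2
  exact (Nat.pow_le_pow_iff_left two_ne_zero).mp
    (((sq_le_two_pow m).trans (Nat.pow_le_pow_left hs.two_le _)).trans (h1.trans h2))

theorem section_bound (p : ℕ) [Fact p.Prime] [CharP k p] {r : ℕ} (h9 : 9 ≤ r) (n : ℕ) :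
    ∀ (H : Type u) [Group H] [Finite H] (π : H →* alternatingGroup (Fin r)) (V : Type v)
      [AddCommGroup V] [Module k V] [FiniteDimensional k V] (ρ : H →* End k V),
      Nat.card H + finrank k V = n → Function.Surjective π → (∀ g, ρ g = 1 → π g = 1) →
      r - 1 - (if p ∣ r then 1 else 0) ≤ finrank k V := by
  induction n using Nat.strong_induction_on with
  | _ n ih =>
  intro H _ _ π V _ _ _ ρ hn hπ hρ
  by_contra hlt
  have hsimp := alternatingGroup.isSimpleGroup (α := Fin r) (by simp; omega)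
  have hcomm := commutator_alternatingGroup_eq_top (α := Fin r) (by simp; omega)
  have hmin : ∀ K : Subgroup H, K.map π = ⊤ → K = ⊤ := fun K hK => by
    by_contra h
    have := Nat.lt_of_le_of_ne K.card_le_card_group (mt K.eq_top_of_card_eq h)
    refine hlt (ih _ (by omega) K (π.comp K.subtype) V (ρ.comp K.subtype) rfl (fun x => ?_)
      fun g => hρ g)
    obtain ⟨g, hg, rfl⟩ : x ∈ K.map π := hK ▸ Subgroup.mem_top x
    exact ⟨⟨g, hg⟩, rfl⟩
  have hN : ∀ K : Subgroup H, K.Normal → K ≤ π.ker ∨ K = ⊤ := fun K hK =>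
    (hK.map π hπ).eq_bot_or_eq_top.imp (Subgroup.map_eq_bot_iff K).mp (hmin K)
  have : Group.IsPerfect H := ⟨hmin _ (by
    rw [map_commutator_eq, MonoidHom.range_eq_top.mpr hπ]; exact hcomm)⟩
  have : Nontrivial H := hπ.nontrivial
  have hinj : Function.Injective ρ := by
    rw [← MonoidHom.ker_eq_bot_iff]
    by_contra h
    have h1 := ρ.ker.card_eq_card_quotient_mul_card_subgroup
    have h2 := (ρ.ker.one_lt_card_iff_ne_bot).mpr h
    have h3 : 0 < Nat.card (H ⧸ ρ.ker) := Nat.card_pos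
    refine hlt (ih (Nat.card (H ⧸ ρ.ker) + finrank k V) (by nlinarith) _
      (QuotientGroup.lift _ π hρ) V (QuotientGroup.lift _ ρ le_rfl) rfl (fun x => ?_) fun g => ?_)
    · obtain ⟨g, rfl⟩ := hπ x
      exact ⟨g, rfl⟩
    · obtain ⟨g, rfl⟩ := QuotientGroup.mk_surjective g
      exact hρ g
  have hirr : ∀ U : Submodule k V, (∀ g, U ≤ U.comap (ρ g)) → U = ⊥ ∨ U = ⊤ := fun U hU => by
    by_contra h
    push Not at h
    have h1 := Submodule.finrank_lt h.2
    have h2 := U.finrank_quotient_add_finrank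
    have h3 : finrank k U ≠ 0 := mt Submodule.finrank_eq_zero.mp h.1
    rcases hN (Representation.subrepresentation ρ U hU).ker inferInstance with h4 | h4
    · exact hlt ((ih _ (by omega) H π U _ rfl hπ h4).trans h1.le)
    rcases hN (Representation.quotient ρ U hU).ker inferInstance with h5 | h5
    · exact hlt ((ih _ (by omega) H π _ _ rfl hπ h5).trans (by omega))
    have h6 : ∀ a b, (ρ a - 1) * (ρ b - 1) = 0 := fun a b => LinearMap.ext fun w => by
      have h7 : ρ b w - w ∈ U := (Submodule.Quotient.eq U).mp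
        (LinearMap.congr_fun (h5 ▸ Subgroup.mem_top b : b ∈ (Representation.quotient ρ U hU).ker)
          (Submodule.Quotient.mk w))
      exact sub_eq_zero.mpr (congrArg Subtype.val (LinearMap.congr_fun
        (h4 ▸ Subgroup.mem_top a : a ∈ (Representation.subrepresentation ρ U hU).ker) ⟨_, h7⟩))
    refine Group.IsPerfect.not_isMulCommutative (G := H) ⟨⟨fun a b => hinj ?_⟩⟩
    rw [map_mul, map_mul, ← sub_eq_zero, ← sub_self (0 : End k V)]
    nth_rewrite 1 [← h6 a b, ← h6 b a]
    noncomm_ring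
  have : Nontrivial V := by
    by_contra h
    obtain ⟨a, b, hab⟩ := exists_pair_ne H
    have := not_nontrivial_iff_subsingleton.mp h
    exact hab (hinj (Subsingleton.elim _ _))
  by_cases hZ : π.ker ≤ Subgroup.center H
  · exact hlt (central p h9 hπ ρ (fun n hn g => by rw [Subgroup.mem_center_iff.mp (hZ hn) g]) hρ)
  have hF : π.ker ≤ frattini H := by
    rw [frattini, Order.radical]
    refine le_iInf₂ fun K hK => ?_
    by_contra h
    refine hK.1 (hmin K ?_)
    rw [← sup_bot_eq (K.map π), ← (Subgroup.map_eq_bot_iff π.ker).mpr le_rfl, ← Subgroup.map_sup,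
      hK.2 _ (left_lt_sup.mpr h), ← MonoidHom.range_eq_map, MonoidHom.range_eq_top.mpr hπ]
  have := frattini_nilpotent (G := H)
  have : Group.IsNilpotent π.ker := Group.nilpotent_of_mulEquiv (Subgroup.subgroupOfEquivOfLe hF)
  exact hlt ((Nat.sub_le _ _).trans (symplectic h9 hπ hN hZ hinj fun A _ =>
    scalar_of_abelian (by omega) hπ hmin hirr (by omega) A))

/-- Alternating sections of finite linear groups over an arbitrary field. -/
theorem section_bound' (p : ℕ) [Fact p.Prime] {F : Type*} [Field F] [CharP F p] {r : ℕ} (h9 : 9 ≤ r)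
    {H : Type*} [Group H] [Finite H] {π : H →* alternatingGroup (Fin r)}
    (hπ : Function.Surjective π) {V : Type*} [AddCommGroup V] [Module F V] [FiniteDimensional F V]
    (ρ : H →* End F V) (hρ : ∀ g, ρ g = 1 → π g = 1) :
    r - 1 - (if p ∣ r then 1 else 0) ≤ finrank F V := by
  obtain ⟨W, _, _, _, ρ', h1, h2⟩ := exists_baseChange ρ
  exact h1 ▸ section_bound p h9 _ H π W ρ' rfl hπ fun g hg => hρ g ((h2 g).mp hg)

end Cfsg.Lib.Perm.Wag
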