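import Mathlib.LinearAlgebra.Eigenspace.Triangularizable
import Mathlib.LinearAlgebra.DFinsupp
import Mathlib.LinearAlgebra.Dimension.Constructions
import Mathlib.RingTheory.Flat.Basic
import Mathlib.FieldTheory.IsAlgClosed.AlgebraicClosure
import Mathlib.Algebra.Ring.GeomSum

/-!
# Joint eigenvectors and weights (helper96)
-/

set_option autoImplicit false

namespace Cfsg.Lib.Perm.Wag

open Module

variable {k : Type*} [Field k] {V : Type*} [AddCommGroup V] [Module k V]

/-- Joint eigenvectors with different weights are independent. -/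
theorem linearIndependent_of_weights {I J : Type*} (T : I → End k V) (v : J → V) (χ : J → I → k)
    (hv : ∀ j, v j ≠ 0) (hT : ∀ j i, T i (v j) = χ j i • v j) (hχ : Function.Injective χ) :
    LinearIndependent k v := by
  classical
  rw [linearIndependent_iff']
  intro s
  induction s using Finset.induction_on with
  | empty => simp
  | insert j₀ s hj₀ ih =>
    intro c hc
    have h1 : ∀ j ∈ s, c j = 0 := fun j hj => by
      obtain ⟨i, hi⟩ := Function.ne_iff.mp (hχ.ne (show j ≠ j₀ from fun h => hj₀ (h ▸ hj)))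
      have h2 := congrArg (fun w => T i w - χ j₀ i • w) hc
      simp only [Finset.sum_insert hj₀, map_add, map_sum, map_smul, hT, smul_add, Finset.smul_sum,
        map_zero, smul_zero, sub_zero, smul_comm (χ j₀ i), add_sub_add_left_eq_sub,
        ← Finset.sum_sub_distrib, smul_smul, ← sub_smul] at h2
      have := ih _ h2 j hj
      rw [← mul_sub, mul_eq_zero, sub_eq_zero] at this
      exact this.resolve_right hi
    rw [Finset.sum_insert hj₀, Finset.sum_eq_zero fun j hj => by rw [h1 j hj, zero_smul], add_zero,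
      smul_eq_zero, or_iff_left (hv j₀)] at hc
    intro j hj
    rcases Finset.mem_insert.mp hj with rfl | hj
    exacts [hc, h1 j hj]

variable [FiniteDimensional k V]

theorem card_le_of_weights {I J : Type*} [Finite J] (T : I → End k V) (v : J → V) (χ : J → I → k)
    (hv : ∀ j, v j ≠ 0) (hT : ∀ j i, T i (v j) = χ j i • v j) (hχ : Function.Injective χ) :
    Nat.card J ≤ finrank k V := by
  have := Fintype.ofFinite J
  rw [Nat.card_eq_fintype_card]
  exact (linearIndependent_of_weights T v χ hv hT hχ).fintype_card_le_finrank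

theorem sum_finrank_le {J : Type*} [Fintype J] {U : J → Submodule k V} (h : iSupIndep U) :
    ∑ j, finrank k (U j) ≤ finrank k V := by
  classical
  rw [← finrank_directSum]
  exact LinearMap.finrank_le_finrank_of_injective h.dfinsupp_lsum_injective

/-- A commuting family has a joint eigenvector in every nonzero invariant subspace. -/
theorem exists_joint [IsAlgClosed k] {I : Type*} [Finite I] (T : I → End k V)
    (hT : ∀ i j, T i * T j = T j * T i) {U : Submodule k V} (hU : U ≠ ⊥)
    (hi : ∀ i, ∀ v ∈ U, T i v ∈ U) :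
    ∃ v ∈ U, v ≠ 0 ∧ ∃ χ : I → k, ∀ i, T i v = χ i • v := by
  classical
  have := Fintype.ofFinite I
  have key : ∀ s : Finset I, ∃ W ≤ U, W ≠ ⊥ ∧ (∀ i, ∀ v ∈ W, T i v ∈ W) ∧
      ∀ i ∈ s, ∃ c : k, ∀ v ∈ W, T i v = c • v := fun s => by
    induction s using Finset.induction_on with
    | empty => exact ⟨U, le_rfl, hU, hi, by simp⟩
    | insert i₀ s _ ih =>
      obtain ⟨W, h1, h2, h3, h4⟩ := ih
      have := Submodule.nontrivial_iff_ne_bot.mpr h2
      obtain ⟨c, hc⟩ := End.exists_eigenvalue ((T i₀).restrict (h3 i₀))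
      obtain ⟨w, hw1, hw2⟩ := hc.exists_hasEigenvector
      refine ⟨W ⊓ (T i₀).eigenspace c, inf_le_left.trans h1, ?_, fun i v hv => ⟨h3 i v hv.1, ?_⟩,
        fun i hi => ?_⟩
      · refine (Submodule.ne_bot_iff _).mpr ⟨w, ⟨w.2, ?_⟩, fun h => hw2 (Subtype.ext h)⟩
        exact End.mem_eigenspace_iff.mpr (congrArg Subtype.val (End.mem_eigenspace_iff.mp hw1))
      · refine End.mem_eigenspace_iff.mpr ?_
        rw [← End.mul_apply, hT, End.mul_apply, End.mem_eigenspace_iff.mp hv.2, map_smul]
      · rcases Finset.mem_insert.mp hi with rfl | hi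
        · exact ⟨c, fun v hv => End.mem_eigenspace_iff.mp hv.2⟩
        · obtain ⟨d, hd⟩ := h4 i hi
          exact ⟨d, fun v hv => hd v hv.1⟩
  obtain ⟨W, h1, h2, -, h4⟩ := key Finset.univ
  obtain ⟨v, hv, hv0⟩ := (Submodule.ne_bot_iff _).mp h2
  choose χ hχ using h4
  exact ⟨v, h1 hv, hv0, fun i => χ i (Finset.mem_univ i), fun i => hχ i _ v hv⟩

omit [FiniteDimensional k V] in
theorem eq_zero_of_fixed {X : End k V} {s : ℕ} (hs : (s : k) ≠ 0) (hX : X ^ s = 1) {u : V}
    (h : X ((X - 1) u) = (X - 1) u) : (X - 1) u = 0 := by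
  have h1 : (∑ i ∈ Finset.range s, X ^ i) ((X - 1) u) = 0 := by
    rw [← End.mul_apply, geom_sum_mul, hX, sub_self, LinearMap.zero_apply]
  have h2 : ∀ i, (X ^ i) ((X - 1) u) = (X - 1) u := fun i => by
    induction i with
    | zero => rfl
    | succ i ih => rw [pow_succ, End.mul_apply, h, ih]
  simp only [LinearMap.sum_apply, h2, Finset.sum_const, Finset.card_range] at h1
  rwa [← Nat.cast_smul_eq_nsmul k, smul_eq_zero, or_iff_right hs] at h1

omit [FiniteDimensional k V] in
theorem pow_apply_of_eigen {X : End k V} {v : V} {α : k} (h : X v = α • v) (n : ℕ) :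
    (X ^ n) v = α ^ n • v := by
  induction n with
  | zero => simp
  | succ n ih => rw [pow_succ, End.mul_apply, h, map_smul, ih, smul_smul, pow_succ']

omit [FiniteDimensional k V] in
theorem pow_eq_one_of_eigen {X : End k V} {v : V} {α : k} (hv : v ≠ 0) (h : X v = α • v) {n : ℕ}
    (hX : X ^ n = 1) : α ^ n = 1 := by
  have := pow_apply_of_eigen h n
  rw [hX, End.one_apply] at this
  exact smul_left_injective k hv (this.symm.trans (one_smul k v).symm)

/-- A joint eigenvector of two commuting operators with both eigenvalues different from `1`. -/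
theorem exists_pair [IsAlgClosed k] {X Y : End k V} {s : ℕ} (hs : (s : k) ≠ 0) (hX : X ^ s = 1)
    (hY : Y ^ s = 1) (hc : X * Y = Y * X) (h : (X - 1) * (Y - 1) ≠ 0) :
    ∃ v : V, v ≠ 0 ∧ ∃ α β : k, α ≠ 1 ∧ β ≠ 1 ∧ X v = α • v ∧ Y v = β • v := by
  have hc' : Commute X Y := hc
  have h1 : Commute X ((X - 1) * (Y - 1)) :=
    ((Commute.refl X).sub_right (Commute.one_right X)).mul_right
      (hc'.sub_right (Commute.one_right X))
  have h2 : Commute Y ((X - 1) * (Y - 1)) :=
    (hc'.symm.sub_right (Commute.one_right Y)).mul_right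
      ((Commute.refl Y).sub_right (Commute.one_right Y))
  have h3 : Commute (X - 1) (Y - 1) :=
    (hc'.sub_right (Commute.one_right X)).sub_left (Commute.one_left _)
  obtain ⟨v, ⟨u, rfl⟩, hv, χ, hχ⟩ := exists_joint ![X, Y]
    (fun i j => by fin_cases i <;> fin_cases j <;> simp [hc])
    (U := LinearMap.range ((X - 1) * (Y - 1))) (by rwa [Ne, LinearMap.range_eq_bot]) (by
      rintro i _ ⟨u, rfl⟩
      fin_cases i
      · exact ⟨X u, (LinearMap.congr_fun h1.eq u).symm⟩
      · exact ⟨Y u, (LinearMap.congr_fun h2.eq u).symm⟩)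
  refine ⟨_, hv, χ 0, χ 1, fun h4 => hv ?_, fun h4 => hv ?_, hχ 0, hχ 1⟩
  · have := hχ 0
    rw [h4, one_smul] at this
    exact eq_zero_of_fixed hs hX this
  · have := hχ 1
    rw [h4, one_smul, h3.eq] at this
    rw [h3.eq]
    exact eq_zero_of_fixed hs hY this

/-- Extension of scalars to the algebraic closure. -/
theorem exists_baseChange.{u, v} {F : Type u} [Field F] {W : Type v} [AddCommGroup W] [Module F W]
    [FiniteDimensional F W] {G : Type*} [Group G] (ρ : G →* End F W) :
    ∃ (W' : Type (max u v)) (_ : AddCommGroup W') (_ : Module (AlgebraicClosure F) W')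
      (_ : FiniteDimensional (AlgebraicClosure F) W') (ρ' : G →* End (AlgebraicClosure F) W'),
      finrank (AlgebraicClosure F) W' = finrank F W ∧ ∀ g, ρ' g = 1 ↔ ρ g = 1 := by
  refine ⟨TensorProduct F (AlgebraicClosure F) W, inferInstance, inferInstance, inferInstance,
    (End.baseChangeHom F (AlgebraicClosure F) W).toMonoidHom.comp ρ, finrank_baseChange,
    fun g => ?_⟩
  exact map_eq_one_iff (End.baseChangeHom F (AlgebraicClosure F) W)
    (LinearMap.baseChangeHom_injective F W (AlgebraicClosure F))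

end Cfsg.Lib.Perm.Wag
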