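import Cfsg.Agent.Perm.WagCov
import Mathlib.RepresentationTheory.Basic
import Mathlib.RingTheory.RootsOfUnity.PrimitiveRoots

/-!
# Lower bounds for the degrees of covers of alternating groups (helper96)
-/

set_option autoImplicit false

namespace Cfsg.Lib.Perm.Wag

open Module Equiv Cfsg.Lib.Known

section

variable {Ω : Type*} [Fintype Ω] [DecidableEq Ω] {Γ : Type*} [Group Γ] {f : Γ →* Perm Ω}
  {k : Type*} [Field k] {V : Type*} [AddCommGroup V] [Module k V] {ρ : Γ →* End k V}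

theorem apply_inv_apply {v : V} {m x : Γ} {α : k} (h : ρ (m * x * m⁻¹) v = α • v) :
    ρ x (ρ m⁻¹ v) = α • ρ m⁻¹ v := by
  rw [← map_smul, ← h, ← End.mul_apply, ← End.mul_apply, ← map_mul, ← map_mul]
  congr 2; group

theorem apply_ne_zero {v : V} (hv : v ≠ 0) (m : Γ) : ρ m v ≠ 0 := fun h => hv (by
  rw [← End.one_apply (R := k) v, ← map_one ρ, ← inv_mul_cancel m, map_mul, End.mul_apply, h,
    map_zero])

/-- Weights of a pair of elements of order `s`. -/
def Wt (ρ : Γ →* End k V) (x y : Γ) (ζ : k) {s : ℕ} (a : ZMod s × ZMod s) : Prop :=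
  ∃ v : V, v ≠ 0 ∧ ρ x v = ζ ^ a.1.val • v ∧ ρ y v = ζ ^ a.2.val • v

theorem pow_val_mul {ζ : k} {s : ℕ} [NeZero s] (hζ : ζ ^ s = 1) (c : ℕ) (a : ZMod s) :
    ζ ^ ((c : ZMod s) * a).val = (ζ ^ a.val) ^ c := by
  rw [ZMod.val_mul, ← pow_eq_pow_mod _ hζ, ZMod.val_natCast, pow_mul, ← pow_eq_pow_mod _ hζ,
    ← pow_mul, ← pow_mul, mul_comm]

theorem Wt.rot {x y m : Γ} {ζ : k} {s : ℕ} [NeZero s] (hζ : ζ ^ s = 1) (h1 : m * x * m⁻¹ = y)
    (h2 : m * y * m⁻¹ = x ^ 2) (i : ℕ) {a : ZMod s × ZMod s} (h : Wt ρ x y ζ a) :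
    Wt ρ x y ζ ((fun a => (a.2, ((2 : ℕ) : ZMod s) * a.1))^[i] a) := by
  induction i with
  | zero => exact h
  | succ i ih =>
    rw [Function.iterate_succ_apply']
    obtain ⟨v, hv, h3, h4⟩ := ih
    exact ⟨ρ m⁻¹ v, apply_ne_zero hv _, apply_inv_apply (h1 ▸ h4), apply_inv_apply (by
      rw [h2, map_pow, pow_apply_of_eigen h3, pow_val_mul hζ])⟩

theorem Wt.inv {x y m : Γ} {ζ : k} {s : ℕ} [NeZero s] (hζ : ζ ^ s = 1) (h1 : m * x * m⁻¹ = x)
    (h2 : m * y * m⁻¹ = y ^ 4) (i : ℕ) {a : ZMod s × ZMod s} (h : Wt ρ x y ζ a) :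
    Wt ρ x y ζ ((fun a => (a.1, ((4 : ℕ) : ZMod s) * a.2))^[i] a) := by
  induction i with
  | zero => exact h
  | succ i ih =>
    rw [Function.iterate_succ_apply']
    obtain ⟨v, hv, h3, h4⟩ := ih
    exact ⟨ρ m⁻¹ v, apply_ne_zero hv _, apply_inv_apply (h1.symm ▸ h3), apply_inv_apply (by
      rw [h2, map_pow, pow_apply_of_eigen h4, pow_val_mul hζ])⟩

theorem isPrimitiveRoot_of_prime {α : k} {s : ℕ} (hs : s.Prime) (h : α ^ s = 1) (h1 : α ≠ 1) :
    IsPrimitiveRoot α s := by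
  have := Fact.mk hs
  rw [← orderOf_eq_prime h h1]
  exact IsPrimitiveRoot.orderOf α

theorem Wt.of_eigen {x y : Γ} {s : ℕ} [hs : Fact s.Prime] (hx : x ^ s = 1) (hy : y ^ s = 1) {v : V}
    (hv : v ≠ 0) {α β : k} (hα : α ≠ 1) (h1 : ρ x v = α • v) (h2 : ρ y v = β • v) :
    IsPrimitiveRoot α s ∧ ∃ b : ZMod s, (b = 0 → β = 1) ∧ Wt ρ x y α (1, b) := by
  have h3 := isPrimitiveRoot_of_prime hs.out
    (pow_eq_one_of_eigen hv h1 (by rw [← map_pow, hx, map_one])) hα
  obtain ⟨i, hi, rfl⟩ := h3.eq_pow_of_pow_eq_one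
    (pow_eq_one_of_eigen hv h2 (by rw [← map_pow, hy, map_one]))
  refine ⟨h3, i, fun h => ?_, v, hv, by rw [ZMod.val_one, pow_one, h1], ?_⟩
  · rw [← ZMod.val_natCast_of_lt hi, h, ZMod.val_zero, pow_zero]
  · rw [ZMod.val_natCast_of_lt hi, h2]

theorem lstab_comm (h : Cov f) {A : End k V} {x g z : Γ} (hx : x ∈ lstab ρ A)
    (hg : ρ g * A = A * ρ g) (hz : f z = f x * f g * (f x)⁻¹ * (f g)⁻¹) (hz3 : z ^ 3 = 1) :
    z ∈ lstab ρ A := by
  rw [h.eq_pow (b := x * (g * x⁻¹ * g⁻¹)) (by simp only [hz, map_mul, map_inv, mul_assoc])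
    (by decide) hz3]
  refine pow_mem (mul_mem hx ?_) _
  have h1 : ρ g⁻¹ * A = A * ρ g⁻¹ := by
    rw [← one_mul (A * _), ← map_one ρ, ← inv_mul_cancel g, map_mul, mul_assoc, ← mul_assoc (ρ g),
      hg, mul_assoc, ← map_mul, mul_inv_cancel, map_one, mul_one]
  change ρ _ * A = A
  rw [map_mul, map_mul, mul_assoc, h1, ← mul_assoc, mul_assoc (ρ g), (inv_mem hx : ρ x⁻¹ * A = A),
    hg, mul_assoc, ← map_mul, mul_inv_cancel, map_one, mul_one]

theorem mul_sub_one_comm {x y : Γ} (h : x * y = y * x) :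
    ρ x * (ρ y - 1) = (ρ y - 1) * ρ x := by
  rw [mul_sub, sub_mul, ← map_mul, h, map_mul, mul_one, one_mul]

theorem sub_one_comm {x y : Γ} (h : x * y = y * x) :
    (ρ x - 1) * (ρ y - 1) = (ρ y - 1) * (ρ x - 1) := by
  rw [sub_mul, mul_sub_one_comm h, mul_sub (ρ y - 1), one_mul, mul_one]

theorem inj_five : ∀ b : ZMod 5, b ≠ 0 → Function.Injective fun j : Fin 8 × Fin 2 =>
    (fun a : ZMod 5 × ZMod 5 => (a.1, ((4 : ℕ) : ZMod 5) * a.2))^[j.2]
      ((fun a : ZMod 5 × ZMod 5 => (a.2, ((2 : ℕ) : ZMod 5) * a.1))^[j.1] (1, b)) := by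
  decide +kernel

theorem inj_three : ∀ b : ZMod 3, Function.Injective fun j : Fin 4 =>
    (fun a : ZMod 3 × ZMod 3 => (a.2, ((2 : ℕ) : ZMod 3) * a.1))^[j] (1, b) := by
  decide

omit [Fintype Ω] [DecidableEq Ω] in
theorem via_disjoint {Ω' : Type*} (e : Ω' ↪ Ω) {σ τ : Perm Ω'} (h : σ.Disjoint τ) :
    (Perm.viaEmbeddingHom e σ).Disjoint (Perm.viaEmbeddingHom e τ) :=
  @Perm.Disjoint.extendDomain _ _ _ (fun _ => Classical.propDecidable _) _ _ _ h

omit [Fintype Ω] [DecidableEq Ω] in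
theorem via_isCycle {Ω' : Type*} (e : Ω' ↪ Ω) {σ : Perm Ω'} (h : σ.IsCycle) :
    (Perm.viaEmbeddingHom e σ).IsCycle :=
  @Perm.IsCycle.extendDomain _ _ _ _ (fun _ => Classical.propDecidable _) _ h

theorem via_card_support {Ω' : Type*} [Fintype Ω'] [DecidableEq Ω'] (e : Ω' ↪ Ω) (σ : Perm Ω') :
    (Perm.viaEmbeddingHom e σ).support.card = σ.support.card :=
  @Perm.card_support_extend_domain _ _ _ _ _ _ _ (fun _ => Classical.propDecidable _) _ _

/-- The first `5`-cycle. -/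
def cA : Perm (Fin 10) := List.formPerm [0, 1, 2, 3, 4]

/-- The second `5`-cycle. -/
def cB : Perm (Fin 10) := List.formPerm [5, 6, 7, 8, 9]

theorem hc_of_five (h : Cov f) (e : Fin 10 ↪ Ω) {x y : Γ} (hy : y ^ 5 = 1)
    (hfx : f x = Perm.viaEmbeddingHom e cA) (hfy : f y = Perm.viaEmbeddingHom e cB)
    (H : (ρ x - 1) * (ρ y - 1) = 0) : HC f ρ (e ∘ ![0, 3, 1, 5, 8, 6]) := by
  intro x₃ y₃ hx₃ hy₃ h1 h2
  replace h1 : f x₃ = Perm.viaEmbeddingHom e (c3 0 3 1) := h1.trans (via_c3 ..).symm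
  replace h2 : f y₃ = Perm.viaEmbeddingHom e (c3 5 8 6) := h2.trans (via_c3 ..).symm
  obtain ⟨g, hg⟩ := h.surj (Perm.viaEmbeddingHom e (c3 0 1 2)) (by rw [sign_via]; simp [c3])
  obtain ⟨g', hg'⟩ := h.surj (Perm.viaEmbeddingHom e (c3 5 6 7)) (by rw [sign_via]; simp [c3])
  have key : ∀ {a b : Γ} {σ τ : Perm (Fin 10)}, f a = Perm.viaEmbeddingHom e σ →
      f b = Perm.viaEmbeddingHom e τ → σ * τ = τ * σ → Commute (f a) (f b) :=
    fun ha hb hc => by rw [ha, hb]; exact (show Commute _ _ from hc).map _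
  have h3 := mem_lstab.mp (lstab_comm h (mem_lstab.mpr H) (g := g)
    (mul_sub_one_comm (h.comm (key hg hfy (by decide)) (by decide) hy)) (z := x₃) (by
      rw [h1, hfx, hg, ← map_inv, ← map_inv, ← map_mul, ← map_mul, ← map_mul]
      exact congrArg _ (by decide)) hx₃)
  rw [sub_one_comm (h.comm (key h1 hfy (by decide)) (by decide) hy)] at h3
  rw [sub_one_comm (h.comm (key h1 h2 (by decide)) (by decide) hy₃)]
  exact mem_lstab.mp (lstab_comm h (mem_lstab.mpr h3) (g := g')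
    (mul_sub_one_comm (h.comm (key hg' h1 (by decide)) (by decide) hx₃)) (z := y₃) (by
      rw [h2, hfy, hg', ← map_inv, ← map_inv, ← map_mul, ← map_mul, ← map_mul]
      exact congrArg _ (by decide)) hy₃)

variable [FiniteDimensional k V]

theorem card_le_of_wt {x y : Γ} {ζ : k} {s : ℕ} [NeZero s] (hζ : IsPrimitiveRoot ζ s) {J : Type*}
    [Finite J] (a : J → ZMod s × ZMod s) (ha : Function.Injective a)
    (h : ∀ j, Wt ρ x y ζ (a j)) : Nat.card J ≤ finrank k V := by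
  choose v hv h1 h2 using h
  refine card_le_of_weights ![ρ x, ρ y] v (fun j => ![ζ ^ (a j).1.val, ζ ^ (a j).2.val]) hv
    (fun j i => by fin_cases i; exacts [h1 j, h2 j]) fun j j' hj => ha (Prod.ext ?_ ?_)
  · exact ZMod.val_injective s (hζ.pow_inj (ZMod.val_lt _) (ZMod.val_lt _) (congrFun hj 0))
  · exact ZMod.val_injective s (hζ.pow_inj (ZMod.val_lt _) (ZMod.val_lt _) (congrFun hj 1))

variable [IsAlgClosed k]

theorem sixteen_le (h : Cov f) (h5 : ((5 : ℕ) : k) ≠ 0) (e : Fin 10 ↪ Ω) {x y : Γ} (hx : x ^ 5 = 1)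
    (hy : y ^ 5 = 1) (hfx : f x = Perm.viaEmbeddingHom e cA) (hfy : f y = Perm.viaEmbeddingHom e cB)
    (H : (ρ x - 1) * (ρ y - 1) ≠ 0) : 16 ≤ finrank k V := by
  have := Fact.mk Nat.prime_five
  have key : ∀ {a b c : Γ} {σ τ υ : Perm (Fin 10)}, f a = Perm.viaEmbeddingHom e σ →
      f b = Perm.viaEmbeddingHom e τ → f c = Perm.viaEmbeddingHom e υ → σ * τ * σ⁻¹ = υ →
      b ^ 5 = 1 → c ^ 5 = 1 → a * b * a⁻¹ = c := fun ha hb hc h1 => h.conj (by
    rw [ha, hb, hc, ← h1, map_mul, map_mul, map_inv]) (by decide)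
  obtain ⟨v, hv, α, β, hα, hβ, h1, h2⟩ := exists_pair h5 (X := ρ x) (Y := ρ y)
    (by rw [← map_pow, hx, map_one]) (by rw [← map_pow, hy, map_one])
    (by rw [← map_mul, ← map_mul, mul_inv_eq_iff_eq_mul.mp (key hfx hfy hfy (by decide) hy hy)]) H
  obtain ⟨h3, b, hb, h4⟩ := Wt.of_eigen hx hy hv hα h1 h2
  obtain ⟨m, hm⟩ := h.surj (Perm.viaEmbeddingHom e
    (swap 0 5 * List.formPerm [1, 6, 2, 7, 4, 9, 3, 8])) (by rw [sign_via]; simp)
  obtain ⟨n, hn⟩ := h.surj (Perm.viaEmbeddingHom e (swap 6 9 * swap 7 8)) (by rw [sign_via]; simp)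
  have := card_le_of_wt h3 (J := Fin 8 × Fin 2) _ ?_ fun j =>
    Wt.inv h3.pow_eq_one (key hn hfx hfx (by decide) hx hx)
      (key hn hfy (by rw [map_pow, hfy, ← map_pow]) (by decide +kernel) hy
        (by rw [← pow_mul, mul_comm, pow_mul, hy, one_pow])) j.2
      (Wt.rot h3.pow_eq_one (key hm hfx hfy (by decide +kernel) hx hy)
        (key hm hfy (by rw [map_pow, hfx, ← map_pow]) (by decide +kernel) hy
          (by rw [← pow_mul, mul_comm, pow_mul, hx, one_pow])) j.1 h4)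
  · simpa using this
  · exact inj_five b (mt hb hβ)

theorem four_le (h : Cov f) (h3 : ((3 : ℕ) : k) ≠ 0) (h6 : 6 ≤ Fintype.card Ω)
    (hρ : ∀ g, ρ g = 1 → f g = 1) : 4 ≤ finrank k V := by
  have := Fact.mk Nat.prime_three
  let e : Fin 6 ↪ Ω := (Function.Embedding.nonempty_of_card_le (by simpa using h6)).some
  have key : ∀ {a b c : Γ} {σ τ υ : Perm (Fin 6)}, f a = Perm.viaEmbeddingHom e σ →
      f b = Perm.viaEmbeddingHom e τ → f c = Perm.viaEmbeddingHom e υ → σ * τ * σ⁻¹ = υ →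
      b ^ 3 = 1 → c ^ 3 = 1 → a * b * a⁻¹ = c := fun ha hb hc h1 => h.conj (by
    rw [ha, hb, hc, ← h1, map_mul, map_mul, map_inv]) (by decide)
  obtain ⟨x, hfx, hx⟩ := h.lift (σ := Perm.viaEmbeddingHom e (c3 0 1 2)) (n := 3) (by decide)
    (by rw [← map_pow, show c3 (0 : Fin 6) 1 2 ^ 3 = 1 by decide, map_one])
  obtain ⟨y, hfy, hy⟩ := h.lift (σ := Perm.viaEmbeddingHom e (c3 3 4 5)) (n := 3) (by decide)
    (by rw [← map_pow, show c3 (3 : Fin 6) 4 5 ^ 3 = 1 by decide, map_one])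
  have hc := mul_inv_eq_iff_eq_mul.mp (key hfy hfx hfx (by decide) hx hx)
  obtain ⟨v, ⟨u, rfl⟩, hv, χ, hχ⟩ := exists_joint ![ρ x, ρ y]
    (fun i j => by fin_cases i <;> fin_cases j <;> simp [← map_mul, hc])
    (U := LinearMap.range (ρ x - 1)) (by
      rw [Ne, LinearMap.range_eq_bot, sub_eq_zero]
      intro h1
      have := hρ x h1
      rw [hfx, map_eq_one_iff _ (Perm.viaEmbeddingHom_injective e)] at this
      exact absurd this (by decide)) (by
      rintro i _ ⟨u, rfl⟩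
      fin_cases i
      · exact ⟨ρ x u, (LinearMap.congr_fun (mul_sub_one_comm rfl) u).symm⟩
      · exact ⟨ρ y u, (LinearMap.congr_fun (mul_sub_one_comm hc) u).symm⟩)
  obtain ⟨h4, b, -, h5⟩ := Wt.of_eigen hx hy hv (fun h1 => hv (by
    have := hχ 0
    rw [h1, one_smul] at this
    exact eq_zero_of_fixed h3 (by rw [← map_pow, hx, map_one]) this)) (hχ 0) (hχ 1)
  obtain ⟨m, hm⟩ := h.surj (Perm.viaEmbeddingHom e (swap 0 3 * List.formPerm [1, 4, 2, 5]))
    (by rw [sign_via]; simp)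
  have := card_le_of_wt h4 (J := Fin 4) _ ?_ fun j =>
    Wt.rot h4.pow_eq_one (key hm hfx hfy (by decide +kernel) hx hy)
      (key hm hfy (by rw [map_pow, hfx, ← map_pow]) (by decide +kernel) hy
        (by rw [← pow_mul, mul_comm, pow_mul, hx, one_pow])) j h5
  · simpa using this
  · exact inj_three b

/-- A Singer cycle. -/
def c7 : Perm (Fin 8) := List.formPerm [0, 1, 2, 3, 4, 5, 6]

/-- The translations of the affine space of order `8`. -/
def tr (i : ℕ) : Perm (Fin 8) := c7 ^ i * (swap 0 7 * swap 1 3 * swap 2 6 * swap 4 5) * (c7 ^ i)⁻¹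

theorem seven_le (h : Cov f) (h2 : (2 : k) ≠ 0) (h8 : 8 ≤ Fintype.card Ω)
    (hρ : ∀ g, ρ g = 1 → f g = 1) : 7 ≤ finrank k V := by
  let e : Fin 8 ↪ Ω := (Function.Embedding.nonempty_of_card_le (by simpa using h8)).some
  obtain ⟨g, hfg, hg⟩ := h.lift (σ := Perm.viaEmbeddingHom e c7) (n := 7) (by decide)
    (by rw [← map_pow, show c7 ^ 7 = 1 by decide +kernel, map_one])
  obtain ⟨t, ht⟩ := h.surj (Perm.viaEmbeddingHom e (swap 0 7 * swap 1 3 * swap 2 6 * swap 4 5))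
    (by rw [sign_via]; simp)
  let T : ℕ → Γ := fun i => g ^ i * t * (g ^ i)⁻¹
  have hT : ∀ i, f (T i) = Perm.viaEmbeddingHom e (tr i) := fun i => by
    simp only [T, tr, map_mul, map_inv, map_pow, hfg, ht]
  have hε : f (t ^ 2) = 1 := by
    rw [map_pow, ht, ← map_pow, show (swap 0 7 * swap 1 3 * swap 2 6 * swap 4 5 : Perm (Fin 8)) ^ 2
      = 1 by decide, map_one]
  have hsq : ∀ (u : Γ) (i : ℕ), f u = Perm.viaEmbeddingHom e (tr i) → u ^ 2 = t ^ 2 :=
    fun u i hu => by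
      rw [h.sq_eq (hu.trans (hT i).symm), conj_pow, h.cen _ hε, mul_inv_cancel_right]
  have hmul : ∀ i j : Fin 7, i ≠ j → ∃ l : Fin 7, tr i * tr j = tr l := by decide +kernel
  have hcomm : ∀ (u v : Γ) (i j : Fin 7), i ≠ j → f u = Perm.viaEmbeddingHom e (tr i) →
      f v = Perm.viaEmbeddingHom e (tr j) → v * u = t ^ 2 * (u * v) := fun u v i j hij hu hv => by
    obtain ⟨l, hl⟩ := hmul i j hij
    have h1 := hsq (u * v) l (by rw [map_mul, hu, hv, ← map_mul, hl])
    have h3 := hsq u i hu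
    have h4 := hsq v j hv
    have h5 := h.sq hε
    have h6 := h.cen _ hε
    generalize t ^ 2 = ε at h1 h3 h4 h5 h6
    calc v * u = u⁻¹ * (u * v) ^ 2 * v⁻¹ := by rw [sq]; group
      _ = u⁻¹ * (ε * ε ^ 2) * v⁻¹ := by rw [h1, h5, mul_one]
      _ = ε * (u⁻¹ * ε * (ε * v⁻¹)) := by
        rw [← mul_assoc u⁻¹, sq]
        nth_rewrite 1 [h6 u⁻¹]
        simp only [mul_assoc]
      _ = ε * (u * v) := by
        nth_rewrite 2 [← h3]
        nth_rewrite 2 [← h4]
        rw [sq, sq]; group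
  have hε1 : t ^ 2 = 1 := by
    have h1 := hcomm (T 0 * T 1) (T 2) 3 2 (by decide)
      (by rw [map_mul, hT, hT, ← map_mul]; exact congrArg _ (by decide +kernel)) (hT _)
    have h3 := hcomm (T 0) (T 2) 0 2 (by decide) (hT _) (hT _)
    have h4 := hcomm (T 1) (T 2) 1 2 (by decide) (hT _) (hT _)
    generalize T 0 = a, T 1 = b, T 2 = c at h1 h3 h4
    rw [← mul_assoc, h3, mul_assoc, mul_assoc, h4, mul_right_inj, ← mul_assoc, h.cen _ hε,
      mul_assoc, mul_assoc, mul_eq_right] at h1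
    exact h1
  have hc : ∀ i j : Fin 7, T i * T j = T j * T i := fun i j => by
    rcases eq_or_ne i j with rfl | hij
    · rfl
    · rw [hcomm _ _ i j hij (hT _) (hT _), hε1, one_mul]
  have hT2 : ∀ i, ρ (T i) ^ 2 = 1 := fun i => by rw [← map_pow, hsq _ i (hT i), hε1, map_one]
  have hc' : ∀ i : Fin 7, ρ (T i) * (ρ (T 0) - ρ (T 1)) = (ρ (T 0) - ρ (T 1)) * ρ (T i) :=
    fun i => by
      rw [mul_sub, sub_mul, ← map_mul, ← map_mul, ← map_mul, ← map_mul]
      exact congrArg₂ _ (congrArg _ (hc i 0)) (congrArg _ (hc i 1))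
  obtain ⟨v, ⟨u, rfl⟩, hv, χ, hχ⟩ := exists_joint (fun i : Fin 7 => ρ (T i))
    (fun i j => by rw [← map_mul, hc, map_mul])
    (U := LinearMap.range (ρ (T 0) - ρ (T 1))) (by
      rw [Ne, LinearMap.range_eq_bot, sub_eq_zero]
      intro h1
      have := hρ ((T 0)⁻¹ * T 1) (by rw [map_mul, ← h1, ← map_mul, inv_mul_cancel, map_one])
      rw [map_mul, map_inv, inv_mul_eq_one, hT, hT] at this
      exact absurd (Perm.viaEmbeddingHom_injective e this) (by decide +kernel)) (by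
      rintro i _ ⟨u, rfl⟩
      exact ⟨ρ (T i) u, (LinearMap.congr_fun (hc' i) u).symm⟩)
  have h01 : χ 0 ≠ χ 1 := fun h1 => by
    have h3 : (ρ (T 0) + ρ (T 1)) * (ρ (T 0) - ρ (T 1)) = 0 := by
      have := congrArg ρ (hc 0 1)
      simp only [map_mul ρ (T _), Fin.val_zero, Fin.val_one] at this
      rw [add_mul, mul_sub, mul_sub, ← sq, ← sq, hT2, hT2, this, sub_add_sub_cancel, sub_self]
    have h4 := LinearMap.congr_fun h3 u
    rw [End.mul_apply, LinearMap.add_apply] at h4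
    have h5 := (congrArg₂ (· + ·) (hχ 0) (hχ 1)).symm.trans h4
    rw [← h1, ← add_smul, ← two_mul, LinearMap.zero_apply, smul_eq_zero, or_iff_left hv,
      mul_eq_zero, or_iff_right h2] at h5
    have h6 := pow_eq_one_of_eigen hv (hχ 0) (hT2 _)
    rw [h5] at h6
    simp at h6
  generalize (ρ (T 0) - ρ (T 1)) u = v at hv hχ
  simpa using card_le_of_weights (fun i : Fin 7 => ρ (T i)) (fun j : Fin 7 => ρ (g ^ (j : ℕ))⁻¹ v)
    (fun j i => χ (j + i)) (fun j => apply_ne_zero hv _) (fun j i => apply_inv_apply (by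
      rw [← hχ, Fin.val_add]
      simp only [T, ← pow_eq_pow_mod _ hg, pow_add, mul_inv_rev, mul_assoc])) fun j j' hj => by
      by_contra hne
      have h1 : ∀ m : ℕ, χ (m • (j' - j)) = χ 0 := fun m => by
        induction m with
        | zero => rw [zero_nsmul]
        | succ m ih =>
          have := congrFun hj (m • (j' - j) - j)
          simp only [add_sub_cancel] at this
          rw [← ih, this, succ_nsmul]
          congr 1; abel
      obtain ⟨m, hm⟩ : ∃ m : Fin 7, (m : ℕ) • (j' - j) = 1 := by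
        clear * - hne
        revert j j'
        decide
      exact h01 (by rw [← h1 m, hm])

end

universe u v

/-- Lower bound `D` for the degrees of faithful projective modules of the alternating group. -/
def LB (k : Type*) [Field k] (r D : ℕ) : Prop :=
  ∀ (Ω : Type) [Fintype Ω] [DecidableEq Ω] (Γ : Type u) [Group Γ] (f : Γ →* Perm Ω) (V : Type v)
    [AddCommGroup V] [Module k V] [FiniteDimensional k V] (ρ : Γ →* End k V),
    Fintype.card Ω = r → Cov f → (∀ g, ρ g = 1 → f g = 1) → D ≤ finrank k V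

variable {k : Type*} [Field k] [IsAlgClosed k]

theorem step {Ω : Type} [Fintype Ω] [DecidableEq Ω] {Γ : Type u} [Group Γ] {f : Γ →* Perm Ω}
    {V : Type v} [AddCommGroup V] [Module k V] [FiniteDimensional k V] {ρ : Γ →* End k V}
    (h : Cov f) {s D : ℕ} (hs : s.Prime) (ho : Odd s) (hk : (s : k) ≠ 0) {x y : Γ}
    (hx : x ^ s = 1) (hy : y ^ s = 1) (hc : (f x).IsCycle) (hcs : (f x).support.card = s)
    (hd : (f x).Disjoint (f y)) (H : (ρ x - 1) * (ρ y - 1) ≠ 0) (h5 : s + 5 ≤ Fintype.card Ω)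
    (hD : LB.{u, v} k (Fintype.card Ω - s) D) : (s - 1) * D ≤ finrank k V := by
  obtain ⟨v, hv, α, β, hα, hβ, h1, h2⟩ := exists_pair hk (X := ρ x) (Y := ρ y)
    (by rw [← map_pow, hx, map_one]) (by rw [← map_pow, hy, map_one])
    (by rw [← map_mul, ← map_mul, h.comm hd.commute ho hy]) H
  have h3 := isPrimitiveRoot_of_prime hs
    (pow_eq_one_of_eigen hv h1 (by rw [← map_pow, hx, map_one])) hα
  have hB : Fintype.card {ω // f x ω = ω} = Fintype.card Ω - s := by
    rw [← hcs, ← Finset.card_compl, Fintype.card_subtype]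
    congr 1
    ext ω
    simp
  let j : Perm {ω // f x ω = ω} →* Perm Ω := Perm.ofSubtype
  have hP := h.pull (j := j) Perm.sign_ofSubtype
  have hcm : ∀ g : Pull f j, Pull.ι f j g * x = x * Pull.ι f j g := fun g =>
    h.comm (Perm.Disjoint.commute fun ω => by
      rw [Pull.eq, or_iff_not_imp_right]
      exact Perm.ofSubtype_apply_of_not_mem (p := fun ω => f x ω = ω) _) ho hx
  let ρ' := Representation.subrepresentation (ρ.comp (Pull.ι f j)) ((ρ x).eigenspace α)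
    fun g w hw => End.mem_eigenspace_iff.mpr (by
      rw [MonoidHom.comp_apply, ← End.mul_apply, ← map_mul, ← hcm, map_mul, End.mul_apply,
        End.mem_eigenspace_iff.mp hw, map_smul])
  have h4 : D ≤ finrank k ((ρ x).eigenspace α) := hD _ _ (Pull.π f j) _ ρ' hB hP fun g hg => by
    by_contra hg'
    have h6 : ∀ ω, f x (f y ω) = f y ω ↔ f x ω = ω := fun ω => by
      rw [← Perm.mul_apply, hd.commute.eq, Perm.mul_apply, (f y).injective.eq_iff]
    have h7 : f y = j ((f y).subtypePerm h6) :=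
      (Perm.ofSubtype_subtypePerm h6 fun ω hω => (hd ω).resolve_right hω).symm
    have h8 := hP.mem_of_normal (by omega) ρ'.ker hg hg' (x := ⟨(y, _), h7⟩) ho
      (Subtype.ext (Prod.ext hy (Perm.ofSubtype_injective (p := fun ω => f x ω = ω) (by
        change j (((f y).subtypePerm h6) ^ s) = j 1
        rw [map_pow, ← h7, ← map_pow, hy, map_one, map_one]))))
    have h9 : ρ y v = v := congrArg Subtype.val
      (LinearMap.congr_fun (MonoidHom.mem_ker.mp h8) ⟨v, End.mem_eigenspace_iff.mpr h1⟩)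
    exact hβ (smul_left_injective k hv (h2.symm.trans (h9.trans (one_smul k v).symm)))
  have h6 : ∀ a : Fin (s - 1), D ≤ finrank k ((ρ x).eigenspace (α ^ ((a : ℕ) + 1))) := fun a => by
    have ha : ((a : ℕ) + 1).Coprime (orderOf (f x)) := by
      rw [hc.orderOf, hcs]
      exact (Nat.coprime_of_lt_prime (by omega) (by omega) hs).symm
    obtain ⟨σ, hσ⟩ := isConj_iff.mp (hc.isConj (hc.pow_iff.mpr ha)
      (by rw [Perm.support_pow_coprime ha]))
    obtain ⟨n, hn⟩ : ∃ n, f n * f x * (f n)⁻¹ = f x ^ ((a : ℕ) + 1) := by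
      rcases Int.units_eq_one_or (Perm.sign σ) with h1 | h1
      · obtain ⟨n, rfl⟩ := h.surj σ h1
        exact ⟨n, hσ⟩
      · obtain ⟨b, c, hbc⟩ := Fintype.exists_pair_of_one_lt_card (α := {ω // f x ω = ω}) (by omega)
        obtain ⟨n, hn⟩ := h.surj (σ * swap b.1 c.1)
          (by rw [Perm.sign_mul, h1, Perm.sign_swap (Subtype.coe_ne_coe.mpr hbc)]; rfl)
        refine ⟨n, ?_⟩
        rw [hn, ← hσ, mul_assoc σ, mul_inv_rev, show swap b.1 c.1 * f x = f x * swap b.1 c.1 by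
          rw [mul_swap_eq_swap_mul, b.2, c.2]]
        simp only [mul_assoc, mul_inv_cancel_left]
    have hn' := h.conj (hn.trans (map_pow f x _).symm) ho hx
      (by rw [← pow_mul, mul_comm, pow_mul, hx, one_pow])
    refine h4.trans (LinearMap.finrank_le_finrank_of_injective (f := (ρ n⁻¹).restrict fun w hw =>
      End.mem_eigenspace_iff.mpr (apply_inv_apply (by
        rw [hn', map_pow, pow_apply_of_eigen (End.mem_eigenspace_iff.mp hw)]))) ?_)
    refine (injective_iff_map_eq_zero _).mpr fun w hw => Subtype.ext ?_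
    by_contra h0
    exact apply_ne_zero h0 _ (congrArg Subtype.val hw)
  refine le_trans ?_ (sum_finrank_le ((End.eigenspaces_iSupIndep (ρ x)).comp
    (f := fun a : Fin (s - 1) => α ^ ((a : ℕ) + 1)) fun a b hab =>
      Fin.ext (Nat.succ_injective (h3.pow_inj (by omega) (by omega) hab))))
  simpa using Finset.card_nsmul_le_sum Finset.univ _ D fun a _ => h6 a

/-- The theorem of Wagner, including the double covers. -/
theorem lb_main (p : ℕ) [hp : Fact p.Prime] [CharP k p] (r : ℕ) (h9 : 9 ≤ r) :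
    LB.{u, v} k r (r - 1 - if p ∣ r then 1 else 0) := by
  induction r using Nat.strong_induction_on with
  | _ r ih =>
  intro Ω _ _ Γ _ f V _ _ _ ρ hr h hρ
  have hk : ∀ s : ℕ, s.Prime → p ≠ s → (s : k) ≠ 0 := fun s hs hps h0 =>
    hps ((Nat.prime_dvd_prime_iff_eq hp.out hs).mp ((CharP.cast_eq_zero_iff k p s).mp h0))
  have ih' : ∀ m < r, 9 ≤ m → LB.{u, v} k m (m - 2) := fun m hm h9 Ω _ _ Γ _ f V _ _ _ ρ hr h hρ =>
    le_trans (by split_ifs <;> omega) (ih m hm h9 Ω Γ f V ρ hr h hρ)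
  have h4 : ∀ m, 6 ≤ m → p ≠ 3 → LB.{u, v} k m 4 := fun m hm h3 Ω _ _ Γ _ f V _ _ _ ρ hr h hρ =>
    four_le h (hk 3 Nat.prime_three h3) (hr ▸ hm) hρ
  have h7 : ∀ m, 8 ≤ m → p ≠ 2 → LB.{u, v} k m 7 := fun m hm h3 Ω _ _ Γ _ f V _ _ _ ρ hr h hρ =>
    seven_le h (by exact_mod_cast hk 2 Nat.prime_two h3) (hr ▸ hm) hρ
  by_contra hlt
  have hH : ∀ t, Function.Injective t → ¬ HC f ρ t := fun t ht H =>
    hlt (hr ▸ heart p h (hr ▸ h9) hρ ht H)
  have h3 : p ≠ 3 → ∀ D, LB.{u, v} k (r - 3) D → 2 * D ≤ finrank k V := fun h3 D hD => by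
    let e : Fin 6 ↪ Ω := (Function.Embedding.nonempty_of_card_le (by simp; omega)).some
    have := hH e e.injective
    simp only [HC, not_forall] at this
    obtain ⟨x, y, hx, hy, hfx, hfy, H⟩ := this
    have hc : (f x).IsThreeCycle := hfx ▸ Perm.isThreeCycle_swap_mul_swap_same
      (e.injective.ne (by decide)) (e.injective.ne (by decide)) (e.injective.ne (by decide))
    refine step h Nat.prime_three (by decide) (hk 3 Nat.prime_three h3) hx hy hc.isCycle
      hc.card_support ?_ H (by omega) (hr ▸ hD)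
    rw [hfx, hfy, ← via_c3, ← via_c3]
    exact via_disjoint _ (by unfold Perm.Disjoint; decide)
  have h5 : p ≠ 5 → 10 ≤ r → 16 ≤ finrank k V ∧
      ∀ D, LB.{u, v} k (r - 5) D → 4 * D ≤ finrank k V := fun h5 h10 => by
    let e : Fin 10 ↪ Ω := (Function.Embedding.nonempty_of_card_le (by simp; omega)).some
    obtain ⟨x, hfx, hx⟩ := h.lift (σ := Perm.viaEmbeddingHom e cA) (n := 5) (by decide)
      (by rw [← map_pow, show cA ^ 5 = 1 by decide +kernel, map_one])
    obtain ⟨y, hfy, hy⟩ := h.lift (σ := Perm.viaEmbeddingHom e cB) (n := 5) (by decide)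
      (by rw [← map_pow, show cB ^ 5 = 1 by decide +kernel, map_one])
    have H := fun H => hH _ (e.injective.comp (by decide)) (hc_of_five h e hy hfx hfy H)
    refine ⟨sixteen_le h (hk 5 Nat.prime_five h5) e hx hy hfx hfy H, fun D hD =>
      step h Nat.prime_five (by decide) (hk 5 Nat.prime_five h5) hx hy ?_ ?_ ?_ H (by omega)
        (hr ▸ hD)⟩
    · exact hfx ▸ via_isCycle _ (List.isCycle_formPerm (by decide) (by decide))
    · rw [hfx, via_card_support]
      decide +kernel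
    · rw [hfx, hfy]
      exact via_disjoint _ (by unfold Perm.Disjoint; decide +kernel)
  apply hlt
  by_cases hp3 : p = 3
  · by_cases hr9 : r = 9
    · have := h7 r (by omega) (by omega) Ω Γ f V ρ hr h hρ
      rw [if_pos (by rw [hp3, hr9]; decide)]
      omega
    obtain ⟨h6, h8⟩ := h5 (by omega) (by omega)
    by_cases hr14 : 14 ≤ r
    · have := h8 _ (ih' (r - 5) (by omega) (by omega))
      omega
    · omega
  by_cases hr12 : 12 ≤ r
  · have := h3 hp3 _ (ih' (r - 3) (by omega) (by omega))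
    omega
  have h8 := h3 hp3 _ (h4 _ (by omega) hp3)
  by_cases hr9 : r = 9
  · omega
  by_cases hp5 : p = 5
  · by_cases hr10 : r = 10
    · rw [if_pos (by rw [hp5, hr10]; decide)]
      omega
    · have := h3 hp3 _ (h7 _ (by omega) (by omega))
      omega
  · have := (h5 hp5 (by omega)).1
    omega

end Cfsg.Lib.Perm.Wag
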